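/- Generic nilpotent operators on permutation modules of abelian `p`-groups. -/
import Cfsg.Agent.H34.DdSpec
import Cfsg.Agent.H9.PBasic

set_option autoImplicit false

namespace H34.Dd

section weyl

variable {R M : Type*} [Ring R] [AddCommGroup M] [Module R M] {D δ e : R} {f : M}

theorem weyl_step (h : δ * D - D * δ = e) (he : e * δ = δ * e) (h1 : e • f = f) (h2 : D • f = 0)
    (j : ℕ) : D • δ ^ (j + 1) • f = -((j + 1) • δ ^ j • f) := by
  have h3 : ∀ x : M, D • δ • x = δ • D • x - e • x := fun x => by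
    rw [← h, sub_smul, mul_smul, mul_smul, sub_sub_cancel]
  have h4 : ∀ j : ℕ, e • δ ^ j • f = δ ^ j • f := fun j => by
    rw [← mul_smul, ((show Commute e δ from he).pow_right j).eq, mul_smul, h1]
  induction j with
  | zero => simp [h3, h1, h2]
  | succ j ih =>
    rw [pow_succ', mul_smul, h3, ih, h4, smul_neg, smul_comm δ, ← mul_smul δ, ← pow_succ',
      add_smul (j + 1) 1, one_smul, neg_add, sub_eq_add_neg]

theorem weyl_pow (h : δ * D - D * δ = e) (he : e * δ = δ * e) (h1 : e • f = f) (h2 : D • f = 0)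
    (j : ℕ) : D ^ j • δ ^ j • f = ((-1) ^ j * j.factorial : ℤ) • f := by
  induction j with
  | zero => simp
  | succ j ih =>
    rw [pow_succ D, mul_smul, weyl_step h he h1 h2, smul_neg, smul_comm, ih, ← natCast_zsmul,
      smul_smul, ← neg_smul, Nat.factorial_succ]
    congr 1
    push_cast
    ring

end weyl

theorem sum_pow_of_comm {R ι : Type*} [Ring R] (p : ℕ) [Fact p.Prime] [CharP R p] (a : ℕ)
    (s : Finset ι) (x : ι → R) (h : ∀ i j, Commute (x i) (x j)) :
    (∑ i ∈ s, x i) ^ p ^ a = ∑ i ∈ s, x i ^ p ^ a := by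
  classical
  induction s using Finset.induction_on with
  | empty => simp [(Fact.out : p.Prime).ne_zero]
  | insert i s hi ih =>
    rw [Finset.sum_insert hi, Finset.sum_insert hi,
      add_pow_char_pow_of_commute _ _ (Commute.sum_right _ _ _ fun j _ => h i j), ih]

theorem exists_add_hom {p : ℕ} [Fact p.Prime] {E : Type*} [Group E] [Finite E] (hE : IsPGroup p E)
    (Q : Subgroup E) : ∃ χ : E → ZMod p, (∀ a b, χ (a * b) = χ a + χ b) ∧ (∀ a ∈ Q, χ a = 0) ∧
      (Q ≠ ⊤ → ∃ g, χ g ≠ 0) := by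
  by_cases h : Q = ⊤
  · exact ⟨0, by simp, by simp, fun h' => absurd h h'⟩
  obtain ⟨M, h1, h2⟩ := (eq_top_or_exists_le_coatom Q).resolve_left h
  have := H9.normal_of_isCoatom hE h1
  let e : E ⧸ M ≃* Multiplicative (ZMod p) :=
    mulEquivOfPrimeCardEq (p := p) (H9.index_of_isCoatom hE h1) (by simp)
  obtain ⟨g, -, hg⟩ := SetLike.exists_of_lt h1.1.lt_top
  refine ⟨fun a => (e a).toAdd, fun a b => by simp, fun a ha => ?_, fun _ => ⟨g, ?_⟩⟩
  · show (e a).toAdd = 0
    rw [(QuotientGroup.eq_one_iff a).2 (h2 ha), map_one, toAdd_one]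
  · show (e g).toAdd ≠ 0
    rw [Ne, toAdd_eq_zero, map_eq_one_iff e e.injective, QuotientGroup.eq_one_iff]
    exact hg

section perm

variable {E Ω : Type*} [Group E] [MulAction E Ω] (K : Type*) [Field K]

/-- The permutation action on functions. -/
def pact : E →* Module.End K (Ω → K) where
  toFun g := LinearMap.funLeft K K fun ω => g⁻¹ • ω
  map_one' := by ext f ω; simp
  map_mul' g h := by ext f ω; simp [mul_smul]

theorem pact_apply (g : E) (f : Ω → K) (ω : Ω) : pact K g f ω = f (g⁻¹ • ω) := rfl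

variable {K}

theorem exists_cocycle {p : ℕ} [Fact p.Prime] [Finite E] (hE : IsPGroup p E)
    (hc : ∀ a b : E, a * b = b * a) : ∃ (c : Ω → ZMod p) (χ : Ω → E → ZMod p),
      (∀ g ω, c (g⁻¹ • ω) = c ω - χ ω g) ∧ (∀ (g : E) ω, χ (g • ω) = χ ω) ∧
      (∀ ω, (∀ g : E, g • ω = ω) → χ ω = 0) ∧ ∀ ω, (∃ g : E, g • ω ≠ ω) → ∃ g, χ ω g ≠ 0 := by
  choose χ h1 h2 h3 using exists_add_hom hE
  have h4 : ∀ (g : E) (ω : Ω), MulAction.stabilizer E (g • ω) = MulAction.stabilizer E ω :=
    fun g ω => Subgroup.ext fun x => by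
      rw [MulAction.mem_stabilizer_iff, MulAction.mem_stabilizer_iff, ← mul_smul, hc, mul_smul,
        smul_left_cancel_iff]
  have h5 : ∀ ω : Ω, ∃ x : E, x • (Quotient.mk (MulAction.orbitRel E Ω) ω).out = ω := fun ω =>
    (MulAction.orbitRel E Ω).symm (Quotient.mk_out ω)
  choose x hx using h5
  refine ⟨fun ω => χ (MulAction.stabilizer E ω) (x ω), fun ω => χ (MulAction.stabilizer E ω),
    fun g ω => ?_, fun g ω => congrArg χ (h4 g ω), fun ω h => funext fun g => h2 _ g (h g),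
    fun ω ⟨g, hg⟩ => h3 _ fun h => hg (h.ge (Subgroup.mem_top g))⟩
  have h6 : Quotient.mk (MulAction.orbitRel E Ω) (g⁻¹ • ω) = Quotient.mk _ ω :=
    Quotient.sound ⟨g⁻¹, rfl⟩
  have h7 := hx (g⁻¹ • ω)
  rw [h6, eq_inv_smul_iff.2 (hx ω)] at h7
  have h8 := h2 (MulAction.stabilizer E ω) (g * x (g⁻¹ • ω) * (x ω)⁻¹) (by
    rw [MulAction.mem_stabilizer_iff, mul_smul, mul_smul, h7, smul_inv_smul])
  have h9 := h1 (MulAction.stabilizer E ω) (g * x (g⁻¹ • ω) * (x ω)⁻¹) (x ω)
  rw [inv_mul_cancel_right, h8, zero_add, h1] at h9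
  simp only [h4]
  rw [← h9, add_sub_cancel_left]

open Classical in
theorem weyl {p : ℕ} [hp : Fact p.Prime] [CharP K p] [Fintype E] [Nonempty Ω] (hE : IsPGroup p E)
    (hc : ∀ a b : E, a * b = b * a) (y : E → K)
    (hy : ∀ (a : ℕ) (c : E → ZMod p), (∃ g, c g ≠ 0) →
      ∑ g, (y g * ZMod.castHom dvd_rfl K (c g)) ^ p ^ a ≠ 0)
    {D : Module.End K (Ω → K)} (hD : D = ∑ g, y g • (pact K g - 1)) {f : Ω → K} (hf : D f = 0) :
    ∃ g, (D ^ p) g = 0 ∧ f = (fun ω => if ∀ g : E, g • ω = ω then f ω else 0) + (D ^ (p - 1)) g := by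
  obtain ⟨c, χ, h1, h2, h3, h4⟩ := exists_cocycle (Ω := Ω) hE hc
  obtain ⟨a, ha⟩ := IsPGroup.iff_card.1 hE
  let ι := ZMod.castHom (dvd_refl p) K
  let m := Algebra.lmul K (Ω → K)
  have hm : ∀ (w : Ω → K) (g : E), pact K g * m w = m (pact K g w) * pact K g := fun w g => by
    ext f ω; rfl
  have hm' : ∀ w : Ω → K, (∀ (g : E) ω, w (g • ω) = w ω) → ∀ g : E, Commute (pact K g) (m w) :=
    fun w hw g => by rw [Commute, SemiconjBy, hm]; congr 2; exact funext fun ω => hw _ ω
  have hmm : ∀ v w, Commute (m v) (m w) := fun v w => (Commute.all v w).map m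
  have hpp : ∀ g h : E, Commute (pact K g : Module.End K (Ω → K)) (pact K h) := fun g h =>
    (show Commute g h from hc g h).map _
  have hD' : ∀ T : Module.End K (Ω → K), (∀ g : E, Commute (pact K g) T) → Commute D T :=
    fun T hT => hD ▸ Commute.sum_left _ _ _ fun g _ =>
      ((hT g).sub_left (Commute.one_left T)).smul_left _
  let x : E → Ω → K := fun g ω => y g * ι (χ ω g)
  have hx : ∀ h (g : E) ω, x h (g • ω) = x h ω := fun h g ω => by simp only [x, h2]
  let u : Module.End K (Ω → K) := ∑ g, m (x g) * pact K g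
  have hu : m (ι ∘ c) * D - D * m (ι ∘ c) = u := by
    rw [hD, Finset.mul_sum, Finset.sum_mul, ← Finset.sum_sub_distrib]
    refine Finset.sum_congr rfl fun g _ => ?_
    ext f ω
    simp [m, x, pact_apply, h1]
    ring
  have hup : ∀ g : E, Commute (pact K g) u := fun g =>
    Commute.sum_right _ _ _ fun h _ => (hm' _ (hx h) g).mul_right (hpp g h)
  have hum : ∀ w : Ω → K, (∀ (g : E) ω, w (g • ω) = w ω) → Commute (m w) u := fun w hw =>
    Commute.sum_right _ _ _ fun h _ => (hmm _ _).mul_right (hm' w hw h).symm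
  let t : Ω → K := ∑ g, x g ^ p ^ a
  have : CharP (Module.End K (Ω → K)) p := charP_of_injective_algebraMap
    (algebraMap K _).injective p
  have huq : u ^ p ^ a = m t := by
    rw [sum_pow_of_comm p a _ _ fun g h => ((hmm _ _).mul_right (hm' _ (hx g) h).symm).mul_left
      ((hm' _ (hx h) g).mul_right (hpp g h)), map_sum]
    refine Finset.sum_congr rfl fun g _ => ?_
    rw [(hm' _ (hx g) g).symm.mul_pow, ← map_pow, ← map_pow, ← ha, pow_card_eq_one', map_one,
      mul_one]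
  have ht : ∀ (g : E) ω, t⁻¹ (g • ω) = t⁻¹ ω := fun g ω => by simp [t, hx]
  let e : Ω → K := fun ω => if ∀ g : E, g • ω = ω then 0 else 1
  have he : t * t⁻¹ = e := funext fun ω => by
    by_cases h : ∀ g : E, g • ω = ω
    · simp [e, t, x, h, h3 ω h, hp.out.ne_zero]
    · simp only [e, if_neg h]
      exact mul_inv_cancel₀ (by simp only [t]; rw [Finset.sum_apply]; exact hy a _ (h4 ω (not_forall.1 h)))
  have hei : ∀ (g : E) ω, e (g • ω) = e ω := fun g ω => by
    rw [← he, Pi.mul_apply, Pi.mul_apply, ht, ← inv_inv (t _), ← inv_inv (t ω)]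
    exact congrArg (·⁻¹ * _) (ht g ω)
  let v := u ^ (p ^ a - 1) * m t⁻¹
  have hv : Commute D v := hD' _ fun g => ((hup g).pow_right _).mul_right (hm' _ ht g)
  have hδ : v * m (ι ∘ c) * D - D * (v * m (ι ∘ c)) = m e := by
    rw [← mul_assoc D, hv.eq, mul_assoc v, mul_assoc v, ← mul_sub, hu]
    rw [mul_assoc, (hum _ ht).eq,
      ← mul_assoc, pow_sub_one_mul (pow_ne_zero _ hp.out.ne_zero), huq, ← map_mul, he]
  have hδe : Commute (m e) (v * m (ι ∘ c)) :=
    (((hum _ hei).pow_right _).mul_right (hmm _ _)).mul_right (hmm _ _)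
  have hf1 : m e • (m e f) = m e f := by
    change (m e * m e) f = _
    rw [← map_mul]
    congr 2
    exact funext fun ω => by simp only [e, Pi.mul_apply]; split_ifs <;> simp
  have hf2 : D • (m e f) = 0 := by
    change (D * m e) f = _
    rw [(hD' _ (hm' _ hei)).eq, Module.End.mul_apply, hf, map_zero]
  have h5 := weyl_pow hδ hδe hf1 hf2 (p - 1)
  have h6 : (((-1) ^ (p - 1) * (p - 1).factorial : ℤ) : K) ≠ 0 := by
    push_cast
    refine mul_ne_zero (pow_ne_zero _ (neg_ne_zero.2 one_ne_zero)) ?_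
    rw [Ne, CharP.cast_eq_zero_iff K p, hp.out.dvd_factorial, not_le]
    exact Nat.sub_lt hp.out.pos one_pos
  rw [← Int.cast_smul_eq_zsmul K, Module.End.smul_def] at h5
  refine ⟨(((-1) ^ (p - 1) * (p - 1).factorial : ℤ) : K)⁻¹ •
    ((v * m (ι ∘ c)) ^ (p - 1) • m e f), ?_, ?_⟩
  · rw [← mul_pow_sub_one hp.out.ne_zero D, Module.End.mul_apply, map_smul, h5, inv_smul_smul₀ h6]
    exact hf2
  · rw [map_smul, h5, inv_smul_smul₀ h6]
    exact funext fun ω => by simp only [e, m, Pi.add_apply]; split_ifs with h <;> simp [h]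

end perm

end H34.Dd
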