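/- The twisting bijection between the conjugation operator and the commutator. -/
import Cfsg.Agent.H34.DdWeyl
import Mathlib.Algebra.MonoidAlgebra.Basic

set_option autoImplicit false

namespace H34.Dd

universe u

variable {k : Type} [Field k]

/-- `up` as a ring homomorphism. -/
noncomputable def upH (ι : Type u) {n : ℕ} :
    Matrix (Fin n) (Fin n) k →+* Matrix (Fin n) (Fin n) (KK k ι) :=
  (algebraMap k (KK k ι)).mapMatrix

theorem up_eq (ι : Type u) {n : ℕ} (s : Matrix (Fin n) (Fin n) k) : up ι s = upH ι s := rfl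

theorem upH_smul (ι : Type u) {n : ℕ} (c : k) (s : Matrix (Fin n) (Fin n) k) :
    upH ι (c • s) = algebraMap k (KK k ι) c • upH ι s := by
  ext i j; simp [upH]

theorem upH_trace (ι : Type u) {n : ℕ} (s : Matrix (Fin n) (Fin n) k) :
    (upH ι s).trace = algebraMap k (KK k ι) s.trace := by
  simp [upH, Matrix.trace]

theorem up_ind {ι : Type u} {n : ℕ} {Q : Matrix (Fin n) (Fin n) (KK k ι) → Prop} (h0 : Q 0)
    (h1 : ∀ a b, Q a → Q b → Q (a + b)) (h2 : ∀ (a : KK k ι) s, Q (a • upH ι s)) (F) : Q F := by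
  rw [Matrix.matrix_eq_sum_single F]
  refine Finset.sum_induction _ _ h1 h0 fun i _ => Finset.sum_induction _ _ h1 h0 fun j _ => ?_
  convert h2 (F i j) (Matrix.single i j 1)
  simp [upH]

theorem KK_ext {ι : Type u} {S : Type*} [Semiring S] {f g : KK k ι →+* S}
    (h1 : ∀ c, f (algebraMap k _ c) = g (algebraMap k _ c)) (h2 : ∀ i, f (yy k i) = g (yy k i)) :
    f = g :=
  IsLocalization.ringHom_ext (nonZeroDivisors (MvPolynomial ι k))
    (MvPolynomial.ringHom_ext h1 h2)

theorem charP_KK (p : ℕ) [CharP k p] (ι : Type u) : CharP (KK k ι) p :=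
  charP_of_injective_algebraMap (algebraMap k _).injective p

variable {E : Type u} [CommGroup E] [Fintype E] {p : ℕ} [hp : Fact p.Prime] [CharP k p]

open MonoidAlgebra in
theorem exists_tw (hE : IsPGroup p E) (ε : E → E) :
    ∃ φ : KK k E →+* MonoidAlgebra (KK k E) E,
      (∀ c, φ (algebraMap k _ c) = single 1 (algebraMap k _ c)) ∧
      ∀ g, φ (yy k g) = single (ε g) (yy k g) := by
  obtain ⟨a, ha⟩ := IsPGroup.iff_card.1 hE
  have := charP_KK (k := k) p E
  have : CharP (MonoidAlgebra (KK k E) E) p :=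
    charP_of_injective_algebraMap (algebraMap (KK k E) _).injective p
  let φ : MvPolynomial E k →+* MonoidAlgebra (KK k E) E :=
    (MvPolynomial.aeval fun g => single (ε g) (yy k g)).toRingHom
  have h1 : ∀ c, φ (MvPolynomial.C c) = single 1 (algebraMap k _ c) := fun c => by simp [φ]
  have h2 : ∀ g, φ (MvPolynomial.X g) = single (ε g) (yy k g) := fun c => by simp [φ]
  have h3 : (iterateFrobenius _ p a).comp φ = (iterateFrobenius _ p a).comp
      ((algebraMap (KK k E) _).comp (algebraMap _ (KK k E))) := by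
    refine MvPolynomial.ringHom_ext (fun c => ?_) fun g => ?_
    · rw [RingHom.comp_apply, h1]; rfl
    · rw [RingHom.comp_apply, h2, iterateFrobenius_def, single_pow, ← ha, pow_card_eq_one', ha,
        RingHom.comp_apply, iterateFrobenius_def, ← one_pow (M := E) (p ^ a), ← single_pow]
      rfl
  have h4 : ∀ s : nonZeroDivisors (MvPolynomial E k), IsUnit (φ s) := fun s => by
    rw [← isUnit_pow_iff (pow_ne_zero a hp.out.ne_zero), ← iterateFrobenius_def,
      ← RingHom.comp_apply, h3]
    exact ((IsLocalization.map_units (KK k E) s).map (algebraMap (KK k E) _)).map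
      (iterateFrobenius _ p a)
  exact ⟨IsLocalization.lift h4, fun c => (IsLocalization.lift_eq h4 (MvPolynomial.C c)).trans
    (h1 c), fun g => (IsLocalization.lift_eq h4 _).trans (h2 g)⟩

variable {n : ℕ} (ρ : E →* Matrix (Fin n) (Fin n) k)

/-- The group algebra acting through `ρ`. -/
noncomputable def rr : MonoidAlgebra (KK k E) E →ₐ[KK k E] Matrix (Fin n) (Fin n) (KK k E) :=
  MonoidAlgebra.lift _ _ _ ((upH E).toMonoidHom.comp ρ)

omit [Fintype E] in
theorem rr_single (g : E) (a : KK k E) :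
    rr ρ (MonoidAlgebra.single g a) = a • upH E (ρ g) := MonoidAlgebra.lift_single _ _ _

omit [Fintype E] in
open MonoidAlgebra in
theorem exists_Phi (φ : KK k E →+* MonoidAlgebra (KK k E) E)
    (hφ : ∀ c, φ (algebraMap k _ c) = single 1 (algebraMap k _ c)) :
    ∃ Φ : Matrix (Fin n) (Fin n) (KK k E) →+ Matrix (Fin n) (Fin n) (KK k E),
      ∀ a s, Φ (a • upH E s) = upH E s * rr ρ (φ a) := by
  refine ⟨⟨⟨fun F => ∑ i, ∑ j, upH E (Matrix.single i j 1) * rr ρ (φ (F i j)), by simp⟩,
    fun F G => by simp [mul_add, Finset.sum_add_distrib]⟩, fun a s => ?_⟩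
  conv_rhs => rw [Matrix.matrix_eq_sum_single s]
  simp only [map_sum, Finset.sum_mul]
  change ∑ i, ∑ j, upH E (Matrix.single i j 1) * rr ρ (φ ((a • upH E s) i j)) = _
  refine Finset.sum_congr rfl fun i _ => Finset.sum_congr rfl fun j _ => ?_
  change _ * rr ρ (φ (a * algebraMap k _ (s i j))) = _
  rw [mul_comm a, map_mul, map_mul, hφ, rr_single, map_one, map_one, ← mul_assoc, mul_smul_comm,
    mul_one, ← upH_smul, Matrix.smul_single, smul_eq_mul, mul_one]

omit [Fintype E] in
open MonoidAlgebra in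
theorem Phi_Phi {φ φ' : KK k E →+* MonoidAlgebra (KK k E) E} {ε ε' : E → E}
    (hφ : ∀ c, φ (algebraMap k _ c) = single 1 (algebraMap k _ c))
    (hφ' : ∀ c, φ' (algebraMap k _ c) = single 1 (algebraMap k _ c))
    (hy : ∀ g, φ (yy k g) = single (ε g) (yy k g)) (hy' : ∀ g, φ' (yy k g) = single (ε' g) (yy k g))
    (hε : ∀ g, ε g * ε' g = 1)
    {Φ Φ' : Matrix (Fin n) (Fin n) (KK k E) →+ Matrix (Fin n) (Fin n) (KK k E)}
    (h : ∀ a s, Φ (a • upH E s) = upH E s * rr ρ (φ a))
    (h' : ∀ a s, Φ' (a • upH E s) = upH E s * rr ρ (φ' a)) (F) : Φ (Φ' F) = F := by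
  let ψ := liftNCRingHom φ (of _ E) fun _ _ => Commute.all _ _
  have h1 : ∀ g a, ψ (single g a) = φ a * single g 1 := fun g a => liftNCRingHom_single _ _ _ _ _
  have h2 : ψ.comp φ' = algebraMap _ _ := KK_ext (fun c => by
    rw [RingHom.comp_apply, hφ', h1, hφ, single_mul_single, mul_one, mul_one]; rfl) fun g => by
    rw [RingHom.comp_apply, hy', h1, hy, single_mul_single, hε, mul_one]; rfl
  have h3 : ∀ s x, Φ (upH E s * rr ρ x) = upH E s * rr ρ (ψ x) := fun s x => by
    induction x using MonoidAlgebra.induction_linear with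
    | zero => simp
    | add x y hx hy => simp only [map_add, mul_add, hx, hy]
    | single g b =>
      rw [rr_single, mul_smul_comm, ← map_mul, h, h1, mul_comm (φ b), map_mul, map_mul, rr_single,
        one_smul, mul_assoc]
  refine up_ind (Q := fun F => Φ (Φ' F) = F) (by simp) (fun a b ha hb => ?_) (fun a s => ?_) F
  · rw [map_add, map_add, ha, hb]
  · rw [h', h3, ← RingHom.comp_apply, h2, AlgHom.commutes, ← Algebra.commutes, Algebra.smul_def]

theorem exists_twist (hE : IsPGroup p E) :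
    ∃ Φ : Matrix (Fin n) (Fin n) (KK k E) →+ Matrix (Fin n) (Fin n) (KK k E),
      Function.Bijective Φ ∧ (∀ s, Φ (upH E s) = upH E s) ∧
      (∀ (a : KK k E) s, Φ (a • upH E s) ∈ Submodule.span (KK k E) (Set.range fun g => upH E (s * ρ g))) ∧
      ∀ F, Φ (∑ g, yy k g • (upH E (ρ g) * F * upH E (ρ g⁻¹) - F)) =
        (∑ g, yy k g • upH E (ρ g - 1)) * Φ F - Φ F * ∑ g, yy k g • upH E (ρ g - 1) := by
  obtain ⟨φ, h1, h2⟩ := exists_tw (k := k) hE id
  obtain ⟨φ', h1', h2'⟩ := exists_tw (k := k) hE fun g => g⁻¹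
  obtain ⟨Φ, h⟩ := exists_Phi ρ φ h1
  obtain ⟨Φ', h'⟩ := exists_Phi ρ φ' h1'
  refine ⟨Φ, ⟨Function.LeftInverse.injective (Phi_Phi ρ h1' h1 h2' h2 inv_mul_cancel h' h),
    Function.RightInverse.surjective (Phi_Phi ρ h1 h1' h2 h2' mul_inv_cancel h h')⟩,
    fun s => by simpa using h 1 s, fun a s => ?_, fun F => ?_⟩
  · rw [h]
    induction φ a using MonoidAlgebra.induction_linear with
    | zero => simp
    | add x y hx hy => rw [map_add, mul_add]; exact add_mem hx hy
    | single g b =>
      rw [rr_single, mul_smul_comm, ← map_mul]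
      exact Submodule.smul_mem _ _ (Submodule.subset_span ⟨g, rfl⟩)
  induction F using up_ind with
  | h0 => simp
  | h1 a b ha hb =>
    simp only [mul_add, add_mul, map_add, add_sub_add_comm, smul_add, Finset.sum_add_distrib, ha, hb]
  | h2 a s =>
    rw [map_sum, Finset.sum_mul, Finset.mul_sum, ← Finset.sum_sub_distrib]
    refine Finset.sum_congr rfl fun g _ => ?_
    have h3 : upH E (ρ g) * rr ρ (φ a) = rr ρ (φ a) * upH E (ρ g) := by
      rw [← one_smul (KK k E) (upH E (ρ g)), ← rr_single, ← map_mul, mul_comm, map_mul]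
    rw [mul_smul_comm, smul_mul_assoc, ← map_mul, ← map_mul, ← smul_sub, ← map_sub, smul_smul, h, h,
      map_mul φ, map_mul, h2, rr_single, smul_mul_assoc, mul_smul_comm, smul_mul_assoc,
      mul_smul_comm, ← smul_sub, id, ← mul_assoc, ← map_mul, sub_mul, mul_assoc (_ * s), ← map_mul ρ,
      inv_mul_cancel, map_one, mul_one]
    congr 1
    simp only [map_sub, map_mul, map_one, sub_mul, mul_sub, one_mul, mul_one, mul_assoc, h3]
    abel

end H34.Dd
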