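/- The commutant of the generic nilpotent operator up to negligible maps. -/
import Cfsg.Agent.H34.DdPhi

set_option autoImplicit false

namespace H34.Dd

universe u

variable {k : Type} [Field k]

theorem yy_sum_ne {p : ℕ} [Fact p.Prime] [CharP k p] {E : Type u} [Fintype E] [CharP (KK k E) p]
    (a : ℕ) (c : E → ZMod p) (h : ∃ g, c g ≠ 0) :
    ∑ g, (yy k g * ZMod.castHom dvd_rfl (KK k E) (c g)) ^ p ^ a ≠ 0 := by
  classical
  obtain ⟨g, hg⟩ := h
  rw [← sum_pow_char_pow]
  refine pow_ne_zero _ fun h => hg ?_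
  rw [RingHom.ext_zmod (ZMod.castHom dvd_rfl (KK k E)) ((algebraMap (MvPolynomial E k) _).comp
    (MvPolynomial.C.comp (ZMod.castHom dvd_rfl k)))] at h
  simp only [yy, RingHom.comp_apply, ← map_mul, ← map_sum] at h
  have := congrArg (MvPolynomial.eval (Pi.single g 1))
    ((map_eq_zero_iff _ (IsFractionRing.injective _ _)).1 h)
  simp only [map_sum, map_mul, MvPolynomial.eval_X, MvPolynomial.eval_C, map_zero] at this
  rw [Finset.sum_eq_single g (fun b _ hb => by simp [hb]) (by simp), Pi.single_eq_same,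
    one_mul] at this
  exact (map_eq_zero_iff _ (RingHom.injective _)).1 this

theorem ngl_of_ad {K : Type*} [Field K] {n : ℕ} {p : ℕ} [hp : Fact p.Prime] [CharP K p]
    (T H : Matrix (Fin n) (Fin n) K)
    (h : ((LinearMap.mulLeft K T - LinearMap.mulRight K T) ^ p) H = 0) :
    Ngl p T (((LinearMap.mulLeft K T - LinearMap.mulRight K T) ^ (p - 1)) H) := by
  rcases n with _ | n
  · exact ⟨0, Subsingleton.elim _ _, fun v _ => Subsingleton.elim _ _⟩
  have : CharP (Module.End K (Matrix (Fin (n + 1)) (Fin (n + 1)) K)) p :=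
    charP_of_injective_algebraMap (algebraMap K _).injective p
  refine ⟨H, ?_, fun v hv => ?_⟩
  · rw [sub_pow_char_of_commute _ (LinearMap.commute_mulLeft_right T T), LinearMap.pow_mulLeft,
      LinearMap.pow_mulRight, LinearMap.sub_apply, sub_eq_zero] at h
    exact h.symm
  generalize p - 1 = m
  clear h
  induction m generalizing H with
  | zero => simp
  | succ m ih =>
    rw [pow_succ, Module.End.mul_apply, ih, LinearMap.sub_apply, LinearMap.mulLeft_apply,
      LinearMap.mulRight_apply, mul_sub, Matrix.sub_mulVec, ← mul_assoc, ← mul_assoc,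
      ← Matrix.mulVec_mulVec _ _ T, hv, Matrix.mulVec_zero, sub_zero, pow_succ]

theorem jobGen : JobGen.{u} := by
  intro k _ p hp _ Γ _ _ N P _ _ _ _ n ρ hP hc hF
  classical
  have := charP_KK (k := k) p P
  have hc' : ∀ a b : P, a * b = b * a := fun a b => Subtype.ext (hc _ a.2 _ b.2)
  obtain ⟨Φ, hΦ, h1, h2, h3⟩ := by
    let _ : CommGroup P := { (inferInstance : Group P) with mul_comm := hc' }
    exact exists_twist (ρ.comp P.subtype) hP
  let _ : MulAction P N := MulAction.compHom N ((MulAut.conjNormal (H := N)).comp P.subtype)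
  have hs : ∀ (g : P) (x : N), ((g • x : N) : Γ) = g * x * (g : Γ)⁻¹ := fun _ _ => rfl
  let c : KK k P := algebraMap k _ ((n : k) / (Nat.card N : k))
  let sec : Matrix (Fin n) (Fin n) (KK k P) →ₗ[KK k P] (N → KK k P) :=
    LinearMap.pi fun x => c • (Matrix.traceLinearMap _ _ _ ∘ₗ
      LinearMap.mulRight _ (upH P (ρ (x : Γ)⁻¹)))
  have hsec : ∀ s x, sec s x = c * (s * upH P (ρ (x : Γ)⁻¹)).trace := fun _ _ => rfl
  let R : (N → KK k P) →ₗ[KK k P] Matrix (Fin n) (Fin n) (KK k P) :=
    Fintype.linearCombination _ fun x => upH P (ρ x)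
  have hR : ∀ f, R f = ∑ x : N, f x • upH P (ρ x) := fun _ => rfl
  have hRs : ∀ s, R (sec s) = s := fun s => by
    induction s using up_ind with
    | h0 => simp
    | h1 a b ha hb => rw [map_add, map_add, ha, hb]
    | h2 a s =>
      rw [map_smul, map_smul, hR]
      conv_rhs => rw [← hF s, upH_smul, map_sum, Finset.smul_sum]
      congr 1
      refine Finset.sum_congr rfl fun x _ => ?_
      rw [hsec, ← map_mul, upH_trace, upH_smul, smul_smul]
      rfl
  let cj : P → Module.End (KK k P) (Matrix (Fin n) (Fin n) (KK k P)) := fun g =>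
    LinearMap.mulRight _ (upH P (ρ (g : Γ)⁻¹)) * LinearMap.mulLeft _ (upH P (ρ g))
  have hcj : ∀ g F, cj g F = upH P (ρ g) * F * upH P (ρ (g : Γ)⁻¹) := fun _ _ => rfl
  let D : Module.End (KK k P) (N → KK k P) :=
    ∑ g : P, yy k g • (pact (Ω := N) (KK k P) g - 1)
  let Θ : Module.End (KK k P) (Matrix (Fin n) (Fin n) (KK k P)) := ∑ g : P, yy k g • (cj g - 1)
  let ad := LinearMap.mulLeft (KK k P) (Th ρ P) - LinearMap.mulRight (KK k P) (Th ρ P)
  have h4 : ∀ F, Φ (Θ F) = ad (Φ F) := fun F => by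
    simp only [Θ, LinearMap.sum_apply, LinearMap.smul_apply, LinearMap.sub_apply, hcj]
    exact h3 F
  have h5 : ∀ s, D (sec s) = sec (Θ s) := fun s => by
    simp only [Θ, D, LinearMap.sum_apply, LinearMap.smul_apply, LinearMap.sub_apply, map_sum,
      map_smul, map_sub, Module.End.one_apply]
    refine Finset.sum_congr rfl fun g _ => congrArg (fun z => yy k g • (z - sec s)) ?_
    ext x
    rw [pact_apply, hsec, hsec, hcj, hs, mul_assoc (upH P (ρ g)), mul_assoc (upH P (ρ g)),
      Matrix.trace_mul_comm (upH P (ρ g)), mul_assoc s, mul_assoc s, ← map_mul, ← map_mul,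
      ← map_mul, ← map_mul]
    simp [mul_assoc]
  have h6 : ∀ f, Θ (R f) = R (D f) := fun f => by
    simp only [Θ, D, LinearMap.sum_apply, LinearMap.smul_apply, LinearMap.sub_apply, map_sum,
      map_smul, map_sub, Module.End.one_apply]
    refine Finset.sum_congr rfl fun g _ => congrArg (fun z => yy k g • (z - R f)) ?_
    rw [hR, hR, map_sum, eq_comm, ← Equiv.sum_comp (MulAction.toPerm g)]
    refine Finset.sum_congr rfl fun x _ => ?_
    rw [map_smul, hcj, pact_apply, MulAction.toPerm_apply, inv_smul_smul, hs, map_mul, map_mul,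
      map_mul, map_mul]
  have h7 : ∀ (m : ℕ) f, Φ (R ((D ^ m) f)) = (ad ^ m) (Φ (R f)) := fun m f => by
    induction m with
    | zero => rfl
    | succ m ih => rw [pow_succ', pow_succ', Module.End.mul_apply, ← h6, h4, ih, Module.End.mul_apply]
  have h8 : ∀ G, Θ G = 0 → Ngl p (Th ρ P)
      (Φ G - ∑ x : ↥(N ⊓ Subgroup.centralizer (P : Set Γ)),
        Φ ((c * (G * upH P (ρ (x : Γ)⁻¹)).trace) • upH P (ρ x))) := fun G hG => by
    obtain ⟨g, hg, hg'⟩ := weyl hP hc' (yy k) yy_sum_ne (D := D) rfl (f := sec G)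
      (by rw [h5, hG, map_zero])
    have := ngl_of_ad (p := p) (Th ρ P) (Φ (R g)) (by rw [← h7, hg, map_zero, map_zero])
    convert this
    rw [← h7, sub_eq_iff_eq_add', ← map_sum, ← map_add]
    conv_lhs => rw [← hRs G, hg', map_add, hR]
    congr 2
    have h9 : ∀ x : N, (∀ g : P, g • x = x) ↔ (x : Γ) ∈ Subgroup.centralizer (P : Set Γ) :=
      fun x => ⟨fun h g hg => mul_inv_eq_iff_eq_mul.1 (congrArg Subtype.val (h ⟨g, hg⟩)),
        fun h g => Subtype.ext (mul_inv_eq_iff_eq_mul.2 (h g g.2))⟩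
    refine (Finset.sum_of_injOn (Subgroup.inclusion inf_le_left)
      (Subgroup.inclusion_injective _).injOn (fun _ _ => Finset.mem_univ _) (fun x _ hx => ?_)
      fun x _ => ?_).symm
    · rw [if_neg fun h => hx ⟨⟨x, x.2, (h9 x).1 h⟩, Finset.mem_univ _, rfl⟩, zero_smul]
    · rw [if_pos ((h9 _).2 x.2.2)]
      rfl
  refine ⟨fun F hF' => ?_, ?_⟩
  · obtain ⟨G, rfl⟩ := hΦ.2 F
    refine ⟨_, sum_mem fun x _ => Submodule.span_mono ?_ (h2 _ _), h8 G (hΦ.1 ?_)⟩
    · rintro _ ⟨g, rfl⟩
      exact ⟨x, x.2, g, g.2, by rw [map_mul]; rfl⟩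
    · rw [h4, map_zero]
      exact sub_eq_zero.2 hF'.symm
  · have := h8 1 (by
      simp only [Θ, LinearMap.sum_apply, LinearMap.smul_apply, LinearMap.sub_apply, hcj]
      refine Finset.sum_eq_zero fun g _ => ?_
      rw [mul_one, ← map_mul, ← map_mul, mul_inv_cancel, map_one, map_one, Module.End.one_apply,
        sub_self, smul_zero])
    convert this using 2
    · rw [← map_one (upH P), h1]
    · rw [up_eq, Finset.smul_sum, map_sum]
      refine Finset.sum_congr rfl fun x _ => ?_
      rw [one_mul, upH_trace, ← map_mul, ← upH_smul, h1, smul_smul]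

end H34.Dd
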