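/- A Jordan layer of a nilpotent operator with block size prime to `p`. -/
import Cfsg.Agent.H34.DdSpec

set_option autoImplicit false

namespace H34.Dd

open Module

section

variable {K V : Type*} [Field K] [AddCommGroup V] [Module K V] [FiniteDimensional K V]

theorem exists_jump (p : ℕ) (t : End K V) (ht : IsNilpotent t) (hn : ¬ p ∣ finrank K V) :
    ∃ j, ¬ p ∣ j + 1 ∧ ¬ LinearMap.ker t ⊓ LinearMap.range (t ^ j) ≤ LinearMap.range (t ^ (j + 1)) := by
  by_contra h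
  push Not at h
  have h1 : ∀ j, finrank K (LinearMap.range (t ^ (j + 1))) +
      finrank K ↥(LinearMap.ker t ⊓ LinearMap.range (t ^ j)) =
      finrank K (LinearMap.range (t ^ j)) := fun j => by
    rw [← LinearMap.finrank_range_add_finrank_ker (t.domRestrict (LinearMap.range (t ^ j))),
      LinearMap.range_domRestrict, pow_succ', End.mul_eq_comp, LinearMap.range_comp,
      LinearMap.ker_domRestrict, ← Submodule.finrank_map_subtype_eq, Submodule.map_comap_subtype,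
      inf_comm]
  have h2 : ∀ j : ℕ, (finrank K (LinearMap.range (t ^ j)) : ZMod p) +
      j * finrank K ↥(LinearMap.ker t ⊓ LinearMap.range (t ^ j)) = finrank K V := fun j => by
    induction j with
    | zero => rw [pow_zero, End.one_eq_id, LinearMap.range_id, finrank_top]; simp
    | succ j ih =>
      rw [← ih, ← h1 j]
      by_cases hj : p ∣ j + 1
      · have := (ZMod.natCast_eq_zero_iff _ _).2 hj
        push_cast at this ⊢
        linear_combination ((finrank K ↥(LinearMap.ker t ⊓ LinearMap.range (t ^ (j + 1))) : ZMod p) -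
          finrank K ↥(LinearMap.ker t ⊓ LinearMap.range (t ^ j))) * this
      · have : LinearMap.ker t ⊓ LinearMap.range (t ^ (j + 1)) =
            LinearMap.ker t ⊓ LinearMap.range (t ^ j) :=
          le_antisymm (inf_le_inf_left _ (by
            rw [pow_succ, End.mul_eq_comp]; exact LinearMap.range_comp_le_range _ _))
            (le_inf inf_le_left (h j hj))
        rw [this]
        push_cast
        ring
  obtain ⟨j, hj⟩ := ht
  have := h2 j
  rw [hj, LinearMap.range_zero, inf_bot_eq, finrank_bot] at this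
  exact hn ((ZMod.natCast_eq_zero_iff _ _).1 (by simpa using this.symm))

theorem exists_split (U R : Submodule K V) (h : ¬ U ≤ R) :
    ∃ (m : ℕ) (π : V →ₗ[K] Fin (m + 1) → K) (s : (Fin (m + 1) → K) →ₗ[K] V),
      (∀ w, π (s w) = w) ∧ (∀ w, s w ∈ U) ∧ ∀ u ∈ U, π u = 0 ↔ u ∈ R := by
  have : Nontrivial (U ⧸ R.submoduleOf U) := Submodule.Quotient.nontrivial_iff.2 fun h' =>
    h fun u hu => (h'.ge (Submodule.mem_top (x := ⟨u, hu⟩)) :)
  obtain ⟨m, hm⟩ := Nat.exists_eq_succ_of_ne_zero (finrank_pos (R := K)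
    (M := U ⧸ R.submoduleOf U)).ne'
  let e := (finBasisOfFinrankEq K _ hm).equivFun
  obtain ⟨π, hπ⟩ := (e.toLinearMap ∘ₗ (R.submoduleOf U).mkQ).exists_extend
  obtain ⟨s, hs⟩ := (e.toLinearMap ∘ₗ (R.submoduleOf U).mkQ).exists_rightInverse_of_surjective
    (LinearMap.range_eq_top.2 (e.surjective.comp (Submodule.mkQ_surjective _)))
  refine ⟨m, π, U.subtype ∘ₗ s, fun w => ?_, fun w => (s w).2, fun u hu => ?_⟩
  · exact (LinearMap.congr_fun hπ (s w)).trans (LinearMap.congr_fun hs w)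
  · rw [show π u = e (Submodule.Quotient.mk ⟨u, hu⟩) from LinearMap.congr_fun hπ ⟨u, hu⟩,
      e.map_eq_zero_iff, Submodule.Quotient.mk_eq_zero]
    rfl

omit [FiniteDimensional K V] in
theorem exists_rank_one (t : End K V) (j : ℕ) {v : V} (h1 : t v = 0)
    (h2 : v ∈ LinearMap.range (t ^ j)) (h3 : v ∉ LinearMap.range (t ^ (j + 1))) :
    ∃ F : End K V, F * t = t * F ∧ ∃ ψ : V →ₗ[K] K, ψ v = 1 ∧ ∀ u, t u = 0 → F u = ψ u • v := by
  obtain ⟨w, rfl⟩ := h2
  obtain ⟨ψ, h4, h5⟩ := Submodule.exists_le_ker_of_notMem h3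
  have h6 : ∀ u, ψ ((t ^ (j + 1)) u) = 0 := fun u => h5 ⟨u, rfl⟩
  refine ⟨(ψ ((t ^ j) w))⁻¹ • ∑ i ∈ Finset.range (j + 1), (ψ ∘ₗ (t ^ i)).smulRight ((t ^ (j - i)) w),
    ?_, (ψ ((t ^ j) w))⁻¹ • ψ, by simp [h4], fun u hu => ?_⟩
  · rw [smul_mul_assoc, mul_smul_comm]
    congr 1
    ext u
    have h7 := (Finset.sum_range_succ (fun i => ψ ((t ^ i) u) • (t ^ (j + 1 - i)) w) (j + 1)).symm.trans
      (Finset.sum_range_succ' _ _)
    rw [h6, zero_smul, add_zero, Nat.sub_zero, pow_succ' t j, End.mul_apply, h1, smul_zero,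
      add_zero] at h7
    simp only [End.mul_apply, LinearMap.sum_apply, map_sum, LinearMap.smulRight_apply,
      LinearMap.comp_apply, map_smul]
    refine (Finset.sum_congr rfl fun i _ => ?_).trans (h7.symm.trans
      (Finset.sum_congr rfl fun i hi => ?_))
    · rw [pow_succ, End.mul_apply, Nat.add_sub_add_right]
    · rw [Nat.succ_sub (Nat.lt_succ_iff.1 (Finset.mem_range.1 hi)), pow_succ', End.mul_apply]
  · simp only [LinearMap.smul_apply, LinearMap.sum_apply, LinearMap.smulRight_apply,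
      LinearMap.comp_apply]
    rw [Finset.sum_range_succ', Finset.sum_eq_zero fun i _ => by
      rw [pow_succ, End.mul_apply, hu, map_zero, map_zero, zero_smul]]
    simp [smul_smul]

end

open Matrix in
theorem exists_layer {K : Type*} [Field K] {n : ℕ} (p : ℕ) [hp : Fact p.Prime]
    (T : Matrix (Fin n) (Fin n) K) (hT : IsNilpotent T) (hn : ¬ p ∣ n) :
    ∃ (m : ℕ) (π : (Fin n → K) →ₗ[K] Fin (m + 1) → K) (s : (Fin (m + 1) → K) →ₗ[K] Fin n → K),
      (∀ w, π (s w) = w) ∧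
      (∀ f g : (Fin n → K) →+ Fin n → K, (∀ v, f (T *ᵥ v) = T *ᵥ f v) →
        (∀ v, g (T *ᵥ v) = T *ᵥ g v) → ∀ w, π (f (s (π (g (s w))))) = π (f (g (s w)))) ∧
      (∀ F, Ngl p T F → ∀ w, π (F *ᵥ s w) = 0) ∧
      ∀ v ≠ 0, ∃ F, F * T = T * F ∧ ∃ φ : (Fin (m + 1) → K) →ₗ[K] K, φ v = 1 ∧
        ∀ w, π (F *ᵥ s w) = φ w • v := by
  let e := (Matrix.toLinAlgEquiv' : Matrix (Fin n) (Fin n) K ≃ₐ[K] _)
  have he : ∀ F v, e F v = F *ᵥ v := Matrix.toLinAlgEquiv'_apply
  obtain ⟨j, hj, h⟩ := exists_jump p (e T) (hT.map e) (by simpa using hn)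
  obtain ⟨m, π, s, h1, h2, h3⟩ := exists_split _ _ h
  have h4 : ∀ f : (Fin n → K) →+ Fin n → K, (∀ v, f (T *ᵥ v) = T *ᵥ f v) → ∀ i, ∀ u ∈
      LinearMap.ker (e T) ⊓ LinearMap.range (e T ^ i),
      f u ∈ LinearMap.ker (e T) ⊓ LinearMap.range (e T ^ i) := fun f hf i u ⟨hu, w, hw⟩ => by
    refine ⟨(hf u).symm.trans ((congrArg f hu).trans f.map_zero), f w, ?_⟩
    exact hw ▸ ((show Function.Commute f (e T) from hf).iterate_right i w ▸
      (End.pow_apply _ _ _)).trans (congrArg f (End.pow_apply _ _ _).symm)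
  refine ⟨m, π, s, h1, fun f g hf hg w => ?_, fun F ⟨H, hH, hF⟩ w => ?_, fun v hv => ?_⟩
  · have h5 := sub_mem (h2 (π (g (s w)))) (h4 g hg j _ (h2 w))
    rw [← sub_eq_zero, ← map_sub, ← map_sub, h3 _ (h4 f hf j _ h5)]
    exact (h4 f hf _ _ ⟨h5.1, (h3 _ h5).1 (by rw [map_sub, h1, sub_self])⟩).2
  · obtain ⟨h5, u, hu⟩ := h2 w
    have h6 : F *ᵥ s w ∈ LinearMap.range (e T ^ (j + 1)) := by
      have h7 : j % p + 1 < p := (Nat.succ_le_of_lt (Nat.mod_lt j hp.out.pos)).lt_of_ne fun h =>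
        hj ⟨j / p + 1, by have := Nat.div_add_mod j p; rw [mul_add]; omega⟩
      refine ⟨(T ^ (p - 2 - j % p) * H * T ^ (j % p)) *ᵥ u, ?_⟩
      rw [hF _ h5, ← hu, ← map_pow, ← map_pow, he, he, mulVec_mulVec, mulVec_mulVec]
      conv_rhs => rw [← Nat.div_add_mod j p, pow_add, pow_mul, ← mul_assoc, mul_assoc _ H,
        ((show Commute H (T ^ p) from hH).pow_right _).eq, ← mul_assoc, ← pow_mul, ← pow_add]
      rw [← mul_assoc, ← mul_assoc, ← pow_add]
      have := Nat.div_add_mod j p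
      congr 4
      omega
    refine (h3 _ ⟨?_, ?_⟩).2 h6
    · change T *ᵥ _ = 0
      rw [hF _ h5, mulVec_mulVec, ← mul_assoc, mul_pow_sub_one hp.out.ne_zero, ← hH,
        ← pow_sub_one_mul hp.out.ne_zero, ← mul_assoc, ← mulVec_mulVec,
        show T *ᵥ s w = 0 from h5, mulVec_zero]
    · rw [pow_succ, End.mul_eq_comp] at h6
      exact LinearMap.range_comp_le_range _ _ h6
  · obtain ⟨F, hF, ψ, h5, h6⟩ := exists_rank_one (e T) j (h2 v).1 (h2 v).2 fun h =>
      hv ((h1 v).symm.trans ((h3 _ (h2 v)).2 h))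
    obtain ⟨F, rfl⟩ := e.surjective F
    refine ⟨F, e.injective (by rw [map_mul, map_mul, hF]), ψ ∘ₗ s, h5, fun w => ?_⟩
    rw [← he, h6 _ (h2 w).1, map_smul, h1, LinearMap.comp_apply]

end H34.Dd
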