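/- The modular form of Dade's theorem. -/
import Cfsg.Agent.H34.DdGen
import Cfsg.Agent.H34.DdJor
import Cfsg.Agent.H17.DdDesc

set_option autoImplicit false

namespace H34.Dd

open Matrix

universe u

variable {k : Type} [Field k]

theorem sg_yy {ι : Type u} (a : Equiv.Perm ι) (i : ι) : sg k a (yy k i) = yy k (a i) :=
  (IsFractionRing.ringEquivOfRingEquiv_algebraMap _ _).trans
    (congrArg _ (MvPolynomial.rename_X _ _))

theorem sg_alg {ι : Type u} (a : Equiv.Perm ι) (c : k) :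
    sg k a (algebraMap k _ c) = algebraMap k _ c :=
  (IsFractionRing.ringEquivOfRingEquiv_algebraMap _ (MvPolynomial.C c)).trans
    (congrArg _ (MvPolynomial.rename_C _ _))

theorem sg_mul {ι : Type u} (a b : Equiv.Perm ι) (x : KK k ι) :
    sg k (a * b) x = sg k a (sg k b x) :=
  RingHom.congr_fun (KK_ext (f := sg k (a * b)) (g := (sg k a : KK k ι →+* KK k ι).comp (sg k b))
    (fun c => by simp [sg_alg]) fun i => by simp [sg_yy]) x

theorem sg_one {ι : Type u} (x : KK k ι) : sg k 1 x = x :=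
  RingHom.congr_fun (KK_ext (f := sg k (1 : Equiv.Perm ι)) (g := RingHom.id _)
    (fun c => by simp [sg_alg]) fun i => by simp [sg_yy]) x

theorem sg_mulVec {ι : Type u} (a : Equiv.Perm ι) {n : ℕ} (s : Matrix (Fin n) (Fin n) k)
    (v : Fin n → KK k ι) : sg k a ∘ (upH ι s *ᵥ v) = upH ι s *ᵥ (sg k a ∘ v) := by
  ext i
  simp [upH, mulVec, dotProduct, sg_alg]

theorem sg_smul {ι : Type u} (a : Equiv.Perm ι) {n : ℕ} (c : KK k ι) (v : Fin n → KK k ι) :
    sg k a ∘ (c • v) = sg k a c • (sg k a ∘ v) := funext fun _ => map_mul _ _ _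

/-- The semilinear action on vectors. -/
noncomputable def tw {ι : Type u} (a : Equiv.Perm ι) {n : ℕ} (s : Matrix (Fin n) (Fin n) k) :
    Module.End k (Fin n → KK k ι) where
  toFun v := upH ι s *ᵥ (sg k a ∘ v)
  map_add' v w := by rw [← mulVec_add]; congr 1; ext i; simp
  map_smul' c v := by
    rw [RingHom.id_apply, ← mulVec_smul]; congr 1; ext i; simp [Algebra.smul_def, sg_alg]

theorem tw_apply {ι : Type u} (a : Equiv.Perm ι) {n : ℕ} (s : Matrix (Fin n) (Fin n) k) (v) :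
    tw a s v = upH ι s *ᵥ (sg k a ∘ v) := rfl

theorem FI.mul {X : Type*} [Group X] [Fintype X] {d : ℕ} {σ : X →* Matrix (Fin d) (Fin d) k}
    (h : FI σ) {R : Type*} [Ring R] [Algebra k R] (r : X →* R)
    {E : Matrix (Fin d) (Fin d) k →ₗ[k] R}
    (hE : ∀ s, E s = ((d : k) / (Nat.card X : k)) • ∑ x, (s * σ x⁻¹).trace • r x) (s t) :
    E (s * t) = E s * E t := by
  have h1 : ∀ x, E (σ x * t) = r x * E t := fun x => by
    rw [hE, hE, mul_smul_comm, Finset.mul_sum, ← Equiv.sum_comp (Equiv.mulLeft x)]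
    refine congrArg _ (Finset.sum_congr rfl fun y _ => ?_)
    rw [Equiv.coe_mulLeft, mul_smul_comm, map_mul r, mul_assoc, trace_mul_comm, mul_assoc, ← map_mul,
      _root_.mul_inv_rev, inv_mul_cancel_right]
  conv_lhs => rw [← h s]
  simp only [hE s, smul_mul_assoc, Finset.sum_mul, map_smul, map_sum, h1]

set_option maxHeartbeats 1600000 in
theorem jobCore : JobCore.{u} := by
  intro k _ p hp _ Γ _ _ N P H _ _ _ hC n d ρ σ κ hP hc hH _ hn hF hσ hκ
  classical
  let _ := Fintype.ofFinite P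
  have := charP_KK (k := k) p P
  obtain ⟨q, hq⟩ := IsPGroup.iff_card.1 hP
  have : Nonempty (Fin n) := ⟨⟨0, Nat.pos_of_ne_zero fun h => hn (h ▸ dvd_zero p)⟩⟩
  have : CharP (Matrix (Fin n) (Fin n) (KK k P)) p :=
    charP_of_injective_algebraMap (algebraMap (KK k P) _).injective p
  have hq' : ∀ g : P, (upH P (ρ g) - 1) ^ p ^ q = 0 := fun g => by
    rw [sub_pow_char_pow_of_commute _ _ (Commute.one_right _), one_pow, ← map_pow, ← map_pow,
      ← Subgroup.coe_pow, ← hq, pow_card_eq_one', Subgroup.coe_one, map_one, map_one, sub_self]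
  have hTh : Th ρ P = ∑ g : P, yy k g • (upH P (ρ g) - 1) :=
    Finset.sum_congr rfl fun g _ => by rw [up_eq, map_sub, map_one]
  have hcm : ∀ x ∈ Subgroup.centralizer (P : Set Γ), ∀ g : P,
      Commute (upH P (ρ x)) (upH P (ρ g) - 1) := fun x hx g =>
    (((show Commute x g from (hx g g.2).symm).map ρ).map _).sub_right (Commute.one_right _)
  have hPC : P ≤ Subgroup.centralizer (P : Set Γ) := fun x hx y hy => hc y hy x hx
  have hnil : IsNilpotent (Th ρ P) := ⟨p ^ q, by
    rw [hTh, sum_pow_of_comm p q _ _ fun g h : P => ((((hcm g (hPC g.2) h).sub_left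
      (Commute.one_left _))).smul_left _).smul_right _]
    exact Finset.sum_eq_zero fun g _ => by rw [smul_pow, hq', smul_zero]⟩
  obtain ⟨m, π, s, h1, h2, h3, h4⟩ := exists_layer p _ hnil hn
  obtain ⟨h5, h6⟩ := jobGen p N P ρ hP hc hF
  let A : Matrix (Fin n) (Fin n) (KK k P) →ₗ[KK k P] Module.End (KK k P) (Fin (m + 1) → KK k P) :=
    LinearMap.llcomp _ _ _ _ π ∘ₗ LinearMap.lcomp _ _ s ∘ₗ Matrix.toLin'.toLinearMap
  have hA : ∀ F w, A F w = π (F *ᵥ s w) := fun _ _ => rfl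
  have hA1 : A 1 = 1 := LinearMap.ext fun w => by rw [hA, one_mulVec, h1]; rfl
  have hAm : ∀ F G, Commute F (Th ρ P) → Commute G (Th ρ P) → A (F * G) = A F * A G :=
    fun F G hF hG => LinearMap.ext fun w => by
      rw [hA, ← mulVec_mulVec]
      exact (h2 F.mulVecLin.toAddMonoidHom G.mulVecLin.toAddMonoidHom
        (fun v => by simp [hF.eq]) (fun v => by simp [hG.eq]) w).symm
  have hcT : ∀ x ∈ Subgroup.centralizer (P : Set Γ), Commute (upH P (ρ x)) (Th ρ P) := fun x hx =>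
    hTh ▸ Commute.sum_right _ _ _ fun g _ => (hcm x hx g).smul_right _
  let r : Subgroup.centralizer (P : Set Γ) →* Module.End (KK k P) (Fin (m + 1) → KK k P) :=
    ⟨⟨fun x => A (upH P (ρ x)), by simp [hA1]⟩, fun x y => by
      simp only [Subgroup.coe_mul, map_mul]; exact hAm _ _ (hcT x x.2) (hcT y y.2)⟩
  have hr : ∀ x, r x = A (upH P (ρ x)) := fun _ => rfl
  have h7 : ∀ v ≠ 0, ∃ B ∈ Submodule.span (KK k P) {B | ∃ c : ↥(N ⊓ Subgroup.centralizer (P : Set Γ)),
      ∃ x : P, B = r ⟨c, c.2.2⟩ * r ⟨x, hPC x.2⟩},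
      ∃ φ : _ →ₗ[KK k P] KK k P, φ v = 1 ∧ ∀ w, B w = φ w • v := fun v hv => by
    obtain ⟨F, hF, φ, h8, h9⟩ := h4 v hv
    obtain ⟨B, hB, hB'⟩ := h5 F hF
    refine ⟨A B, Submodule.span_mono ?_ (Submodule.apply_mem_span_image_of_mem_span A hB), φ, h8,
      fun w => ?_⟩
    · rintro _ ⟨_, ⟨c, hc, x, hx, rfl⟩, rfl⟩
      refine ⟨⟨c, hc⟩, ⟨x, hx⟩, ?_⟩
      rw [← map_mul, hr, up_eq, Subgroup.coe_mul]
    · rw [← h9, ← hA, eq_comm, ← sub_eq_zero, ← LinearMap.sub_apply, ← map_sub, hA, h3 _ hB']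
  have h8 : ∀ x : P, r ⟨x, hPC x.2⟩ = 1 := fun x => LinearMap.ext fun v => by
    by_cases hv : v = 0
    · rw [hv, map_zero, map_zero]
    obtain ⟨B, hB, φ, h8, h9⟩ := h7 v hv
    have h10 : Commute (r ⟨x, hPC x.2⟩) B := by
      refine Submodule.span_induction (p := fun B _ => Commute (r ⟨x, hPC x.2⟩) B) ?_
        (Commute.zero_right _) (fun _ _ _ _ => Commute.add_right) (fun a _ _ h => h.smul_right a) hB
      rintro _ ⟨c, y, rfl⟩
      exact (Commute.map (Subtype.ext (c.2.2 x x.2)) r).mul_right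
        (Commute.map (Subtype.ext (hc _ x.2 _ y.2)) r)
    have h11 := LinearMap.congr_fun h10.eq v
    rw [Module.End.mul_apply, Module.End.mul_apply, h9, h9, h8, one_smul] at h11
    have h12 := Module.End.HasEigenvector.pow_apply
      ⟨Module.End.mem_eigenspace_iff.2 h11, hv⟩ (p ^ q)
    rw [← map_pow, show (⟨x, hPC x.2⟩ : Subgroup.centralizer (P : Set Γ)) ^ p ^ q = 1 from
      Subtype.ext (congrArg Subtype.val (hq ▸ pow_card_eq_one' (x := x)) :), map_one,
      Module.End.one_apply, eq_comm, ← sub_eq_zero] at h12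
    nth_rw 3 [← one_smul (KK k P) v] at h12
    rw [← sub_smul, smul_eq_zero_iff_left hv, ← one_pow (M := KK k P) (p ^ q), ← sub_pow_char_pow,
      pow_eq_zero_iff (pow_ne_zero _ hp.out.ne_zero), sub_eq_zero] at h12
    rw [h11, h12, one_smul, Module.End.one_apply]
  let a : H →* Equiv.Perm P :=
    (MulAut.toPerm P).comp (P.normalizerMonoidHom.comp (Subgroup.inclusion hH))
  have ha : ∀ h g, (a h g : Γ) = h * g * (h : Γ)⁻¹ := fun _ _ => rfl
  have h9 : ∀ (h : H) v, tw (a h) (ρ h) (Th ρ P *ᵥ v) = Th ρ P *ᵥ tw (a h) (ρ h) v := fun h v => by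
    rw [Th, sum_mulVec, sum_mulVec, map_sum, ← Equiv.sum_comp (a h) fun g => _ *ᵥ tw _ _ _]
    refine Finset.sum_congr rfl fun g _ => ?_
    rw [smul_mulVec, smul_mulVec, tw_apply, tw_apply, sg_smul, sg_yy, mulVec_smul, up_eq, up_eq,
      sg_mulVec, mulVec_mulVec, mulVec_mulVec, ← map_mul, ← map_mul, ha, sub_mul, ← map_mul,
      inv_mul_cancel_right, one_mul, map_mul ρ, mul_sub_one]
  let T : H →* Module.End k (Fin (m + 1) → KK k P) :=
    ⟨⟨fun h => π.restrictScalars k ∘ₗ tw (a h) (ρ h) ∘ₗ s.restrictScalars k,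
      LinearMap.ext fun w => (congrArg π (by ext i; simp [tw_apply, sg_one])).trans (h1 w)⟩,
      fun g h => LinearMap.ext fun w => (congrArg π (by
        change tw _ _ _ = tw (a g) (ρ g) (tw (a h) (ρ h) (s w))
        rw [tw_apply, tw_apply, tw_apply, sg_mulVec, mulVec_mulVec, ← map_mul, ← map_mul, map_mul a]
        congr 1
        exact funext fun i => sg_mul _ _ _)).trans
        (h2 (tw _ _).toAddMonoidHom (tw _ _).toAddMonoidHom (h9 g) (h9 h) w).symm⟩
  have hT : ∀ h w, T h w = π (upH P (ρ h) *ᵥ (sg k (a h) ∘ s w)) := fun _ _ => rfl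
  have h10 : ∀ (h : H) (hh : (h : Γ) ∈ Subgroup.centralizer (P : Set Γ)) w, T h w = r ⟨h, hh⟩ w :=
    fun h hh w => by
      rw [hT, show a h = 1 from Equiv.ext fun g => Subtype.ext
        (mul_inv_eq_iff_eq_mul.2 (hh g g.2).symm), show sg k (1 : Equiv.Perm P) ∘ s w = s w from
        funext fun i => sg_one _]
      rfl
  let r' := r.comp (Subgroup.inclusion (inf_le_right (a := N)))
  let E : Matrix (Fin d) (Fin d) k →ₗ[k] Module.End (KK k P) (Fin (m + 1) → KK k P) :=
    ((d : k) / (Nat.card ↥(N ⊓ Subgroup.centralizer (P : Set Γ)) : k)) • ∑ x,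
      (traceLinearMap _ k k ∘ₗ LinearMap.mulRight k (σ x⁻¹)).smulRight (r' x)
  have hE : ∀ t, E t = ((d : k) / (Nat.card ↥(N ⊓ Subgroup.centralizer (P : Set Γ)) : k)) •
      ∑ x, (t * σ x⁻¹).trace • r' x := fun t => by
    simp only [E, LinearMap.smul_apply, LinearMap.sum_apply]; rfl
  have hEm := hσ.mul r' hE
  have h11 : ((n : k) / (Nat.card N : k) * κ) • ∑ x, (σ x⁻¹).trace • r' x = 1 := by
    have : A _ = 0 := LinearMap.ext (h3 _ h6)
    rw [map_sub, hA1, sub_eq_zero, up_eq, upH_smul, map_smul, map_sum, map_sum] at this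
    rw [this, mul_smul, algebraMap_smul, Finset.smul_sum]
    refine congrArg _ (Finset.sum_congr rfl fun x _ => ?_)
    rw [upH_smul, map_smul, algebraMap_smul, smul_smul, ← hκ]
    rfl
  have hE1 : E 1 = 1 := by
    have h12 : ((d : k) / (Nat.card ↥(N ⊓ Subgroup.centralizer (P : Set Γ)) : k)) ≠ 0 := fun h => by
      have h13 : ∀ x, σ x = 0 := fun x => by rw [← hσ (σ x), h, zero_smul]
      simp [h13] at h11
    refine (IsIdempotentElem.iff_eq_one_of_isUnit ?_).1 (by rw [IsIdempotentElem, ← hEm, one_mul])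
    simp only [hE, one_mul]
    refine IsUnit.smul (Units.mk0 _ h12) (IsUnit.of_mul_eq_one (((n : k) / (Nat.card N : k) * κ) • 1) ?_)
    rw [mul_smul_comm, mul_one, h11]
  have hEσ : ∀ x, E (σ x) = r' x := fun x => by
    rw [← mul_one (r' x), ← hE1, hE, hE, mul_smul_comm, Finset.mul_sum,
      ← Equiv.sum_comp (Equiv.mulLeft x)]
    refine congrArg _ (Finset.sum_congr rfl fun y _ => ?_)
    rw [Equiv.coe_mulLeft, mul_smul_comm, map_mul r', trace_mul_comm, ← map_mul,
      _root_.mul_inv_rev, inv_mul_cancel_right, one_mul]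
  have h13 : ∀ (h : H) (x : ↥(N ⊓ Subgroup.centralizer (P : Set Γ))),
      (h : Γ) * x * (h : Γ)⁻¹ ∈ N ⊓ Subgroup.centralizer (P : Set Γ) := fun h x =>
    ⟨Subgroup.Normal.conj_mem inferInstance _ x.2.1 _, fun g hg => by
      have := x.2.2 _ (a h⁻¹ ⟨g, hg⟩).2
      rw [ha, Subgroup.coe_inv, inv_inv] at this
      rw [← mul_left_cancel_iff (a := (h : Γ)⁻¹), ← mul_right_cancel_iff (a := (h : Γ))]
      simpa [mul_assoc] using this⟩
  obtain ⟨V, hV, _, hd, hVT⟩ := H17.Dd.jobDesc a T ⟨⟨E, hE1⟩, hEm⟩ (fun h c w => by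
      rw [hT, hT, map_smul, sg_smul, mulVec_smul, map_smul]) (map_add E) (fun c t w => LinearMap.congr_fun (map_smul E c t) w)
    (fun h t => ⟨((d : k) / (Nat.card ↥(N ⊓ Subgroup.centralizer (P : Set Γ)) : k)) •
      ∑ x, (t * σ x⁻¹).trace • σ ⟨_, h13 h x⟩, fun w => by
      change T h (E t w) = E _ _
      simp only [hE t, map_smul, map_sum, hEσ, LinearMap.smul_apply, LinearMap.sum_apply]
      refine congrArg _ (Finset.sum_congr rfl fun x _ => congrArg _ ?_)
      refine ((congrArg _ (h10 (Subgroup.inclusion hC x) x.2.2 w).symm).trans ?_).trans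
        (h10 (Subgroup.inclusion hC ⟨_, h13 h x⟩) (h13 h x).2 _)
      rw [← Module.End.mul_apply, ← Module.End.mul_apply, ← map_mul, ← map_mul]
      congr 2
      exact Subtype.ext (inv_mul_cancel_right _ _).symm⟩)
    (fun v hv => by
      obtain ⟨B, hB, h⟩ := h7 v hv
      refine ⟨B, Submodule.span_mono ?_ hB, h⟩
      rintro _ ⟨c, x, rfl⟩
      exact ⟨σ c, (hEσ c).trans (by rw [h8, mul_one]; rfl)⟩)
  let T' : H →* Module.End k V := ⟨⟨fun h => (T h).restrict (hVT h), by ext; simp⟩,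
    fun g h => by ext; simp⟩
  let e := LinearMap.toMatrixAlgEquiv (Module.finBasis k V)
  refine ⟨_, e.toMonoidHom.comp T', Module.finrank_pos_iff.2 (Submodule.nontrivial_iff_ne_bot.2 hV),
    hd, fun x hx => ?_, ?_⟩
  · refine (congrArg e (LinearMap.ext fun v => Subtype.ext ?_)).trans (map_one e)
    exact (h10 x (hPC hx) v).trans (LinearMap.congr_fun (h8 ⟨x, hx⟩) _)
  · have : ((d : k) / (Nat.card ↥(N ⊓ Subgroup.centralizer (P : Set Γ)) : k)) •
        ∑ c, (σ c⁻¹).trace • T' (Subgroup.inclusion hC c) = 1 := by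
      refine LinearMap.ext fun v => Subtype.ext ?_
      have := LinearMap.congr_fun ((hE 1).symm.trans hE1) v
      simp only [LinearMap.smul_apply, LinearMap.sum_apply, Submodule.coe_smul, Submodule.coe_sum,
        one_mul] at this ⊢
      exact (congrArg _ (Finset.sum_congr rfl fun x _ => congrArg _
        (h10 (Subgroup.inclusion hC x) x.2.2 v))).trans this
    have := congrArg e this
    rw [map_one, map_smul, map_sum] at this
    simpa using this

end H34.Dd
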