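/- Dade's extension theorem above the Glauberman correspondence (abelian operator group). -/
import Cfsg.Agent.H34.DdCore
import Cfsg.Agent.H17.DdRed
import Cfsg.Agent.H40.TIDeg
import Cfsg.Agent.H32.DegreeRatio

set_option autoImplicit false

namespace H34.Dd

open Cfsg H28

universe u

theorem redM_trace {O : ValuationSubring ℂ} {X : Type*} [Group X] {n : ℕ}
    (ρ : X →* Matrix (Fin n) (Fin n) O) (x : X) :
    (redM ρ x).trace = IsLocalRing.residue O (ρ x).trace := by
  simp [redM, Matrix.trace]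

theorem dade : Dade.{u} := by
  intro p hp Γ _ _ N P H _ hC χ η hP hc hPH hH hN hi hχ hθ hη ⟨m, Δ, hΔ, h⟩
  classical
  obtain ⟨O, _⟩ := H40.exists_valuationSubring_prime p
  let _ := Fintype.ofFinite N
  let _ := Fintype.ofFinite ↥(N ⊓ Subgroup.centralizer (P : Set Γ))
  obtain ⟨n, ρ, h1, h2⟩ := H17.Dd.jobLat O hχ
  obtain ⟨d, σ, h3, h4⟩ := H17.Dd.jobLat O hη.isCharacter
  have hC' : ¬ p ∣ Nat.card ↥(N ⊓ Subgroup.centralizer (P : Set Γ)) := fun h =>
    hN (h.trans (Subgroup.card_dvd_of_le inf_le_left))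
  have h5 : IsIrrCharacter _ fun c => (((σ c).trace : O) : ℂ) := (funext h4).symm ▸ hη
  obtain ⟨k, τ, h6, h7, h8, h9⟩ := jobCore p N P H hC (redM ρ) (redM σ) m hP hc hH hN
    (fun h => hN (h.trans (H32.degree_dvd_card hθ h1)))
    (H17.Dd.jobFI O p (ρ.comp N.subtype) hN (by convert hθ using 2; exact h2 _))
    (H17.Dd.jobFI O p σ hC' h5) fun c => by
      obtain ⟨δ, hδ⟩ := (IsIntegrallyClosed.isIntegral_iff (R := O)).1 (hΔ c).tower_top
      have : (ρ c).trace = m * (σ c).trace + p * δ := Subtype.ext (by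
        push_cast; rw [h2, h4, h, ← hδ]; rfl)
      rw [redM_trace, redM_trace, this, map_add, map_mul, map_mul, map_natCast, map_natCast,
        CharP.cast_eq_zero _ p, zero_mul, add_zero]
  have := Subgroup.normal_subgroupOf_of_le_normalizer (H := H) (N := P) hH
  obtain ⟨ψ, h10, h11⟩ := H17.Dd.jobLift O p
    ((QuotientGroup.mk' (P.subgroupOf H)).comp (Subgroup.inclusion hC)) σ
    (QuotientGroup.lift _ τ.toHomUnits (fun x hx => Units.ext (h8 x hx)) |> (Units.coeHom _).comp)
    hi hC' h5 h6 h7 h9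
  exact ⟨_, h10.comp_surjective _ (QuotientGroup.mk'_surjective _), fun c => (h11 c).trans (h4 c)⟩

end H34.Dd
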