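/- A character triple isomorphism with `p'`-kernels is a perfect isometry. -/
import Cfsg.Agent.H38.DdPI
import Cfsg.Agent.H41.CenQuot
import Cfsg.Agent.H32.Gallagher

set_option autoImplicit false

namespace H34.Dd

open Cfsg H28 H32 H35 H38 Subgroup
open scoped ComplexConjugate

variable {G Γ Λ N : Type*} [Group G] [Group Γ] [Group Λ] [Group N]

theorem card_cen_dvd_mul (j : Γ →* Λ) (γ : Γ) : Nat.card (centralizer ({γ} : Set Γ)) ∣
    Nat.card j.ker * Nat.card (centralizer ({j γ} : Set Λ)) := by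
  rw [← (j.comp (centralizer {γ}).subtype).ker.card_mul_index, index_ker, ← MonoidHom.comap_ker]
  refine mul_dvd_mul (card_comap_dvd_of_injective _ _ (subtype_injective _)) (card_dvd_of_le ?_)
  rintro _ ⟨x, rfl⟩
  exact mem_centralizer_singleton_iff.2
    ((show Commute x.1 γ from mem_centralizer_singleton_iff.1 x.2).map j)

theorem card_cen_dvd_of_central [Finite Γ] {π : Γ →* G} (hπ : Function.Surjective π)
    (hZ : π.ker ≤ center Γ) (γ : Γ) :
    Nat.card (centralizer ({π γ} : Set G)) ∣ Nat.card (centralizer ({γ} : Set Γ)) := by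
  have h1 : ∀ a : (centralizer ({π γ} : Set G)).comap π, (a : Γ) * γ * (a : Γ)⁻¹ * γ⁻¹ ∈ π.ker :=
    fun a => by
      have := mem_centralizer_singleton_iff.1 a.2
      simp [MonoidHom.mem_ker, this]
  let φ : (centralizer ({π γ} : Set G)).comap π →* π.ker :=
    MonoidHom.mk' (fun a => ⟨_, h1 a⟩) fun a b => Subtype.ext (by
      have := mem_center_iff.1 (hZ (h1 b)) (γ * (a : Γ)⁻¹ * γ⁻¹)
      simp only [coe_mul, mul_assoc] at this ⊢
      rw [this]
      group)
  have h2 : φ.ker = (centralizer {γ}).subgroupOf _ := Subgroup.ext fun a => by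
    rw [MonoidHom.mem_ker, Subtype.ext_iff, mem_subgroupOf, mem_centralizer_singleton_iff]
    exact mul_inv_eq_one.trans mul_inv_eq_iff_eq_mul
  have h3 := φ.ker.card_mul_index
  obtain ⟨s, hs⟩ := card_subgroup_dvd_card φ.range
  have h4 : centralizer {γ} ≤ (centralizer ({π γ} : Set G)).comap π := fun a ha =>
    mem_centralizer_singleton_iff.2 ((show Commute a γ from
      mem_centralizer_singleton_iff.1 ha).map π)
  rw [index_ker, H41.card_comap_of_surjective hπ, h2,
    Nat.card_congr (subgroupOfEquivOfLe h4).toEquiv, hs, mul_assoc, mul_comm] at h3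
  exact ⟨s, by rw [Nat.eq_of_mul_eq_mul_left Nat.card_pos h3, mul_comm]⟩

theorem reg_map {p : ℕ} (hp : p.Prime) {π : Γ →* G} (h : ¬ p ∣ Nat.card π.ker) (g : Γ) :
    IsPRegular p (π g) ↔ IsPRegular p g := by
  refine not_congr ⟨fun h' => h'.trans (orderOf_map_dvd π g), fun h' => ?_⟩
  have h1 : g ^ orderOf (π g) ∈ π.ker := by rw [MonoidHom.mem_ker, map_pow, pow_orderOf_eq_one]
  have h2 : g ^ (orderOf (π g) * Nat.card π.ker) = 1 := by
    rw [pow_mul]
    exact congrArg Subtype.val (pow_card_eq_one' (x := (⟨_, h1⟩ : π.ker)))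
  exact ((Nat.Prime.dvd_mul hp).1 (h'.trans (orderOf_dvd_of_pow_eq_one h2))).resolve_right h

theorem pi_tri {p : ℕ} {M : Ideal AlgInt} [M.IsMaximal] (hM : IsPModular p M) [Finite G]
    [Finite Γ] [Finite Λ] [Fintype N] {π : Γ →* G} {j : Γ →* Λ} {ι : N →* Γ}
    (hπ : Function.Surjective π) (hj : Function.Surjective j) (hι : Function.Injective ι)
    (hk : ι.range = j.ker) (hZ : π.ker ≤ center Γ) (h1 : ¬ p ∣ Nat.card π.ker)
    (h2 : ¬ p ∣ Nat.card N) {th : Γ → ℂ} (hth : IsCharacter Γ th) {θ : N → ℂ}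
    (hθ : IsIrrCharacter N θ) (hι' : ∀ n, th (ι n) = θ n) {κ : N →* G} (hκ : ∀ n, π (ι n) = κ n) :
    ∃ I ε, IsPerfectIsometry p M
      {β : IrrCharacter Λ | ∀ z, π z = 1 → β.1 (j z) * th z = β.1 1 * th 1}
      {χ : IrrCharacter G | Over κ χ.1 θ} I ε := by
  classical
  let _ := Fintype.ofFinite Γ
  let _ := Fintype.ofFinite Λ
  let e : N ≃* j.ker := (MonoidHom.ofInjective hι).trans (MulEquiv.subgroupCongr hk)
  have he : ∀ n, (e n : Γ) = ι n := fun _ => rfl
  have h3 : IsIrrCharacter j.ker fun n => th n := by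
    convert hθ.comp_surjective e.symm.toMonoidHom e.symm.surjective using 2 with n
    rw [MulEquiv.coe_toMonoidHom, ← hι', ← he, e.apply_symm_apply]
  have h4 : ∀ β : IrrCharacter Λ, IsIrrCharacter Γ ((fun x => β.1 (j x)) * th) := fun β =>
    gallagher_irr hth h3 (β.2.comp_surjective j hj) (ker_le_charKer j)
  have h5 : ∀ β : IrrCharacter Λ, (∀ z, π z = 1 → β.1 (j z) * th z = β.1 1 * th 1) ↔
      π.ker ≤ charKer ((fun x => β.1 (j x)) * th) := fun β => by
    rw [(h4 β).isCharacter.le_charKer_iff]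
    simp only [Pi.mul_apply, map_one, MonoidHom.mem_ker]
  have h6 : ∀ χ : G → ℂ, Over κ χ θ ↔
      classInner (fun n : j.ker => χ (π n)) (fun n : j.ker => th n) ≠ 0 := fun χ => by
    rw [← classInner_comp_equiv e.toEquiv]
    simp only [MulEquiv.toEquiv_eq_coe, EquivLike.coe_coe, he, hκ, hι']
    rfl
  have h7 : ∀ β : IrrCharacter Λ, ∃ χ : IrrCharacter G,
      π.ker ≤ charKer ((fun x => β.1 (j x)) * th) → ∀ x, χ.1 (π x) = β.1 (j x) * th x := fun β => by
    by_cases h : π.ker ≤ charKer ((fun x => β.1 (j x)) * th)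
    · obtain ⟨χ, h8, h9⟩ := (h4 β).exists_descend π hπ h
      exact ⟨⟨χ, h8⟩, fun _ => h9⟩
    · exact ⟨⟨_, isIrrCharacter_one⟩, fun h' => absurd h' h⟩
  choose I hI using h7
  refine ⟨I, fun _ => 1, ⟨fun β hβ => (h6 _).2 ?_, fun β hβ β' hβ' h => ?_, fun χ hχ => ?_⟩,
    fun _ _ => Or.inl rfl, fun x a => ?_⟩
  · have : (fun n : j.ker => (I β).1 (π n)) = β.1 1 • fun n : j.ker => th n := funext fun n => by
      rw [hI β ((h5 β).1 hβ), show j n = 1 from n.2]; rfl
    rw [this, classInner_smul_left, h3.classInner_self, mul_one]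
    exact β.2.apply_one_ne_zero
  · have := gallagher_inj hth h3 (β.2.comp_surjective j hj) (β'.2.comp_surjective j hj)
      (ker_le_charKer j) (ker_le_charKer j) (funext fun x =>
        (hI β ((h5 β).1 hβ) x).symm.trans (h ▸ hI β' ((h5 β').1 hβ') x))
    exact Subtype.ext (funext (hj.forall.2 (congrFun this)))
  · obtain ⟨β, h8, h9, h10⟩ := gallagher_surj hth h3 (χ.2.comp_surjective π hπ) ((h6 _).1 hχ)
    obtain ⟨β', h11, h12⟩ := h8.exists_descend j hj h9
    obtain rfl : (fun x => β' (j x)) = β := funext h12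
    have h13 : π.ker ≤ charKer ((fun x => β' (j x)) * th) := h10 ▸ ker_le_charKer π
    exact ⟨⟨β', h11⟩, (h5 _).2 h13, Subtype.ext (funext (hπ.forall.2 fun x =>
      (hI ⟨β', h11⟩ h13 x).trans (congrFun h10 x).symm))⟩
  obtain ⟨γ, rfl⟩ := hπ x
  have h8 : signedBijectionKernel
      {β : IrrCharacter Λ | ∀ z, π z = 1 → β.1 (j z) * th z = β.1 1 * th 1} I (fun _ => 1) (π γ) a =
      ∑ z : π.ker, (Nat.card π.ker : ℂ)⁻¹ * th (z * γ) * if IsConj (j (z * γ)) a⁻¹ then
        (Nat.card (centralizer ({j (z * γ)} : Set Λ)) : ℂ) else 0 := by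
    have h9 : ∀ g h : Λ, (if IsConj g h⁻¹ then (Nat.card (centralizer ({g} : Set Λ)) : ℂ) else 0) =
        ∑ β : IrrCharacter Λ, β.1 g * β.1 h := fun g h => by
      rw [show ∑ β : IrrCharacter Λ, β.1 g * β.1 h = ∑ β : IrrCharacter Λ, β.1 g * conj (β.1 h⁻¹)
        from Finset.sum_congr rfl fun β _ => by rw [β.2.isCharacter.apply_inv, Complex.conj_conj]]
      split_ifs with hc
      exacts [(column_orthogonality_of_isConj hc).symm, (column_orthogonality_of_not_isConj hc).symm]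
    simp only [h9, Finset.mul_sum]
    rw [DdPI.ker_eq, bF, Finset.sum_filter, Finset.sum_comm]
    refine Finset.sum_congr rfl fun β _ => ?_
    have h10 : ∑ z : π.ker, (Nat.card π.ker : ℂ)⁻¹ * th (z * γ) * (β.1 (j (z * γ)) * β.1 a) =
        (Nat.card π.ker : ℂ)⁻¹ * (∑ z : π.ker, ((fun x => β.1 (j x)) * th) (z * γ)) * β.1 a := by
      rw [Finset.mul_sum, Finset.sum_mul]
      exact Finset.sum_congr rfl fun z _ => by rw [Pi.mul_apply]; ring
    rw [h10]
    split_ifs with h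
    · rw [Finset.sum_congr rfl fun z _ => apply_mul_of_mem_charKer ((h5 β).1 h z.2) γ,
        Finset.sum_const, Finset.card_univ, ← Nat.card_eq_fintype_card, nsmul_eq_mul,
        inv_mul_cancel_left₀ (Nat.cast_ne_zero.2 Nat.card_pos.ne'), hI β ((h5 β).1 h)]
      simp
    · rw [sum_coset_eq_zero (h4 β) (mt (h5 β).2 h), mul_zero, zero_mul]
  have h9 : ∀ z : π.ker, π (z * γ) = π γ := fun z => by
    rw [map_mul, show π z = 1 from z.2, one_mul]
  have h10 : ¬ p ∣ Nat.card j.ker := by rwa [← Nat.card_congr e.toEquiv]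
  have h11 : ∀ d : ℕ, (∀ z : π.ker, IsConj (j (z * γ)) a⁻¹ →
      d ∣ Nat.card j.ker * Nat.card (centralizer ({j (z * γ)} : Set Λ))) → d ≠ 0 →
      (∑ z : π.ker, (Nat.card π.ker : ℂ)⁻¹ * th (z * γ) * if IsConj (j (z * γ)) a⁻¹ then
        (Nat.card (centralizer ({j (z * γ)} : Set Λ)) : ℂ) else 0) / d ∈ S M := fun d hd h0 => by
    rw [Finset.sum_div]
    refine sum_mem fun z _ => ?_
    rw [mul_div_assoc]
    refine mul_mem (mul_mem (inv_natCast_mem_S hM h1) (mem_S_of_isIntegral_int (hth.isIntegral _))) ?_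
    split_ifs with h
    · obtain ⟨k, hk⟩ := hd z h
      have h12 : (Nat.card j.ker : ℂ) ≠ 0 := Nat.cast_ne_zero.2 Nat.card_pos.ne'
      have h13 := congrArg (Nat.cast (R := ℂ)) hk
      convert div_natCast_mem_S hM (natCast_mem (S M) k) h10 using 1
      rw [div_eq_div_iff (Nat.cast_ne_zero.2 h0) h12]
      push_cast at h13
      linear_combination h13
    · rw [zero_div]; exact zero_mem _
  rw [h8]
  refine ⟨h11 _ (fun z _ => ?_) Nat.card_pos.ne', h11 _ (fun z h => ?_) Nat.card_pos.ne',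
    or_iff_not_imp_left.2 fun h => Finset.sum_eq_zero fun z _ => ?_⟩
  · exact (h9 z ▸ card_cen_dvd_of_central hπ hZ _).trans (card_cen_dvd_mul j _)
  · rw [← DdPI.cen_inv, card_centralizer_eq_of_isConj h]
    exact dvd_mul_left _ _
  · rw [if_neg fun hc => h ?_, mul_zero]
    rw [← h9 z, reg_map hM.1 h1, ← reg_map hM.1 h10, ← DdPI.reg_inv a, IsPRegular, IsPRegular]
    obtain ⟨c, hc⟩ := hc
    rw [hc.orderOf_eq]

end H34.Dd
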