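/- The invariant case of the perfect isometry for `p`-solvable groups. -/
import Cfsg.Agent.H34.DdTri
import Cfsg.Agent.H34.DdDade
import Cfsg.Agent.H32.Cover
import Cfsg.Agent.H38.Harada
import Cfsg.Agent.H38.PCon

set_option autoImplicit false

namespace H34.Dd

open Cfsg H28 H32 H35 H38 Subgroup

universe u

theorem jobBase : JobBase.{u} := by
  intro p M _ hM G _ _ N P _ _ _ hC θ η hP hc hN hi hL hθ hinv hη ⟨m, Δ, hΔ, h⟩
  have := Fact.mk hM.1
  obtain ⟨a, ha⟩ := IsPGroup.iff_card.1 hP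
  have hd : Disjoint P N := disjoint_of_coprime_natCard
    (ha ▸ (hM.1.coprime_iff_not_dvd.2 hN).pow_left a)
  obtain ⟨θ', h1, h2, h3⟩ := exists_inv_ext_of_coprime (N := N) (L := P ⊔ N) le_sup_right (by
    rw [relIndex_sup_right]
    exact ((hM.1.coprime_iff_not_dvd.2 hN).pow_left a).symm.coprime_dvd_right
      (ha ▸ index_dvd_card _)) hθ hinv
  obtain ⟨C⟩ := nonempty_cover h1 h3
  have hZ : ¬ p ∣ Nat.card C.π.ker := fun h =>
    hi ((h.trans C.card_ker_dvd).trans (index_dvd_of_le le_sup_left))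
  let ι : N →* C.Γ := C.ν.comp (inclusion le_sup_right)
  let κ : P →* C.Γ := C.ν.comp (inclusion le_sup_left)
  have hι : ∀ n, C.π (ι n) = n := fun n => C.π_ν _
  have hκ : ∀ n, C.π (κ n) = n := fun n => C.π_ν _
  have hcι : ∀ γ n, γ * ι n * γ⁻¹ = ι (MulAut.conjNormal (C.π γ) n) := fun γ n => C.conj_ν _ _
  have hcκ : ∀ γ (x y : P), (y : G) = C.π γ * x * (C.π γ)⁻¹ → γ * κ x * γ⁻¹ = κ y := fun γ x y h =>
    (C.conj_ν _ _).trans (congrArg C.ν (Subtype.ext h.symm))
  have h4 : ∀ γ, γ ∈ centralizer (κ.range : Set C.Γ) ↔ C.π γ ∈ centralizer (P : Set G) :=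
    fun γ => ⟨fun h x hx => by
      simpa [hκ] using congrArg C.π (h _ ⟨⟨x, hx⟩, rfl⟩), fun h _ ⟨x, hx⟩ => by
      rw [← hx, eq_comm, ← mul_inv_eq_iff_eq_mul]
      exact hcκ γ x x (eq_mul_inv_of_mul_eq (h x x.2))⟩
  let s : N.comap C.π →* N := C.π.subgroupComap N
  have h5 : ∀ γ : N.comap C.π, (γ : C.Γ) * (ι (s γ))⁻¹ ∈ C.π.ker := fun γ => by
    rw [MonoidHom.mem_ker, map_mul, map_inv, hι]; exact mul_inv_cancel _
  let ζ : N.comap C.π →* C.π.ker := MonoidHom.mk' (fun γ => ⟨_, h5 γ⟩) fun a b => Subtype.ext (by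
    have := mem_center_iff.1 (C.ker_le_center (h5 b)) (ι (s a))⁻¹
    simp only [coe_mul, map_mul, mul_inv_rev, mul_assoc] at this ⊢
    rw [this])
  have h6 : ∀ γ : N.comap C.π, C.th γ = θ (s γ) * C.lam (ζ γ) := fun γ => by
    rw [← h2, ← C.th_ν, mul_comm, ← C.th_mul]
    exact congrArg _ (inv_mul_cancel_right _ _).symm
  let r : ↥(N.comap C.π ⊓ centralizer (κ.range : Set C.Γ)) →* ↥(N ⊓ centralizer (P : Set G)) :=
    (C.π.comp (Subgroup.subtype _)).codRestrict _ fun γ => ⟨γ.2.1, (h4 _).1 γ.2.2⟩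
  have h7 : ∀ c : ↥(N ⊓ centralizer (P : Set G)),
      ι ⟨c, c.2.1⟩ ∈ N.comap C.π ⊓ centralizer (κ.range : Set C.Γ) := fun c =>
    ⟨mem_comap.2 ((hι _).symm ▸ c.2.1), (h4 _).2 ((hι _).symm ▸ c.2.2)⟩
  let μ := C.lam.comp (ζ.comp (inclusion (inf_le_left (b := centralizer (κ.range : Set C.Γ)))))
  have hC' : N.comap C.π ⊓ centralizer (κ.range : Set C.Γ) ≤
    (normalizer (P : Set G)).comap C.π := fun γ hγ => hC (r ⟨γ, hγ⟩).2
  obtain ⟨ψ, h8, h9⟩ := dade p (N.comap C.π) κ.range ((normalizer (P : Set G)).comap C.π) hC' C.th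
    ((fun c => η (r c)) * fun c => (μ c : ℂ)) (hP.of_surjective _ κ.rangeRestrict_surjective)
    (by
      rintro _ ⟨x, rfl⟩ _ ⟨y, rfl⟩
      exact Commute.map (Subtype.ext (hc _ x.2 _ y.2)) κ)
    (by rintro _ ⟨x, rfl⟩; exact mem_comap.2 ((hκ x).symm ▸ le_normalizer x.2))
    (fun γ hγ => mem_normalizer_fintype (by
      rintro _ ⟨x, rfl⟩
      exact ⟨⟨_, (mem_normalizer_iff.1 hγ x).1 x.2⟩, (hcκ γ x _ rfl).symm⟩))
    (by rw [H41.card_comap_of_surjective C.π_surj]; exact hM.1.not_dvd_mul hZ hN)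
    (fun h => by
      have h10 := κ.range.card_mul_index
      rw [H41.card_eq_ker_mul C.π_surj, ← P.card_mul_index, ← Nat.card_congr
        (MonoidHom.ofInjective (f := κ) (C.ν_injective.comp (inclusion_injective _))).toEquiv,
        mul_left_comm] at h10
      refine hM.1.not_dvd_mul hZ hi (Nat.eq_of_mul_eq_mul_left Nat.card_pos h10 ▸ h.trans ?_)
      refine relIndex_dvd_index_of_le ?_
      rintro _ ⟨x, rfl⟩
      exact mem_comap.2 ((hκ x).symm ▸ le_normalizer x.2))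
    C.th_irr.isCharacter
    (by
      convert (hθ.comp_surjective s (C.π.subgroupComap_surjective_of_surjective N C.π_surj)).mul_linear
        (isCharacter_of_hom (C.lam.comp ζ)) (by simp) using 2 with γ
      exact h6 γ)
    ((hη.comp_surjective r fun c => ⟨⟨_, h7 c⟩, Subtype.ext (hι _)⟩).mul_linear
      (isCharacter_of_hom μ) (by rw [map_one, Units.val_one]))
    ⟨m, fun c => Δ (r c) * μ c, fun c => (hΔ _).mul ((isCharacter_of_hom μ).isIntegral c), fun c => by
      rw [h6 ⟨c, c.2.1⟩, show θ (s ⟨c, c.2.1⟩) = _ from h (r c), Pi.mul_apply]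
      change _ * (μ c : ℂ) = _
      ring⟩
  have : ι.range.Normal := ⟨by rintro _ ⟨n, rfl⟩ γ; exact ⟨_, (hcι γ n).symm⟩⟩
  have hιi : Function.Injective ι := C.ν_injective.comp (inclusion_injective _)
  obtain ⟨I, ε, h10⟩ := pi_tri hM C.π_surj (QuotientGroup.mk'_surjective ι.range) hιi
    (QuotientGroup.ker_mk' _).symm C.ker_le_center hZ hN C.th_irr.isCharacter hθ
    (fun n => (C.th_ν _).trans (h2 n)) (κ := N.subtype) hι
  have h11 : ∀ z : (normalizer (P : Set G)).comap C.π, C.π z = 1 → ψ z * C.th 1 = C.th z * ψ 1 :=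
    fun z hz => by
      have h12 : (z : C.Γ) ∈ N.comap C.π ⊓ centralizer (κ.range : Set C.Γ) :=
        ⟨mem_comap.2 (hz ▸ one_mem _), (h4 _).2 (hz ▸ one_mem _)⟩
      have h13 := h9 1
      rw [map_one, Pi.mul_apply, map_one, map_one] at h13
      rw [show ψ z = _ from h9 ⟨z, h12⟩, h13, h6 ⟨z, h12.1⟩, show C.th 1 = _ from h6 1, Pi.mul_apply,
        show r ⟨z, h12⟩ = 1 from Subtype.ext hz, show s ⟨z, h12.1⟩ = 1 from Subtype.ext hz,
        map_one, map_one, map_one]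
      change _ * (μ ⟨z, h12⟩ : ℂ) * _ = _ * (μ ⟨z, h12⟩ : ℂ) * _
      simp only [Units.val_one]
      ring
  obtain ⟨J, δ, h12⟩ := pi_tri hM (C.π.subgroupComap_surjective_of_surjective
      (normalizer (P : Set G)) C.π_surj)
    (j := (QuotientGroup.mk' ι.range).comp (Subgroup.subtype _))
    (ι := (ι.comp (inclusion inf_le_left)).codRestrict _ fun c => hC' (h7 c))
    (fun x => by
      obtain ⟨γ, rfl⟩ := QuotientGroup.mk'_surjective _ x
      have h13 := Sylow.normalizer_sup_eq_top' (hP.toSylow hi) (N := P ⊔ N) le_sup_left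
      rw [← sup_assoc, sup_eq_left.2 (show P ≤ normalizer (hP.toSylow hi) from le_normalizer)] at h13
      obtain ⟨y, hy, n, hn, h14⟩ := mem_sup_of_normal_right.1 (h13.ge (mem_top (C.π γ)))
      refine ⟨⟨γ * (ι ⟨n, hn⟩)⁻¹, mem_comap.2 ?_⟩, QuotientGroup.eq.2 ⟨⟨n, hn⟩, by simp⟩⟩
      rwa [map_mul, map_inv, hι, ← h14, mul_inv_cancel_right])
    (fun c d h => inclusion_injective _ (hιi (congrArg Subtype.val h)))
    (Subgroup.ext fun γ => ⟨fun ⟨c, hc⟩ => (QuotientGroup.eq_one_iff _).2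
      ⟨_, congrArg Subtype.val hc⟩, fun h => by
        obtain ⟨n, hn⟩ := (QuotientGroup.eq_one_iff _).1 h
        refine ⟨⟨n, n.2, mem_cen_of_disjoint (nor_of_normal N P) hd n.2 ?_⟩, Subtype.ext hn⟩
        exact hι n ▸ hn ▸ γ.2⟩)
    (fun z hz => mem_center_iff.2 fun y => Subtype.ext
      (mem_center_iff.1 (C.ker_le_center (congrArg Subtype.val hz)) y))
    (fun h => hZ (h.trans (card_dvd_of_injective (((Subgroup.subtype _).comp
      (Subgroup.subtype _)).codRestrict C.π.ker fun z => congrArg Subtype.val z.2)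
      fun _ _ h => Subtype.ext (Subtype.ext (congrArg Subtype.val h :)))))
    (fun h => hN (h.trans (card_dvd_of_le inf_le_left))) h8.isCharacter hη
    (fun c => (h9 ⟨_, h7 c⟩).trans (by
      rw [Pi.mul_apply, show r ⟨_, h7 c⟩ = c from Subtype.ext (hι _), show μ ⟨_, h7 c⟩ = 1 from
        (congrArg C.lam (Subtype.ext (mul_inv_eq_one.2 (congrArg ι (Subtype.ext
          (hι _).symm))))).trans (map_one _), Units.val_one, mul_one]))
    (κ := inclusion hC) fun c => Subtype.ext (hι _)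
  obtain ⟨J', δ', h13, -⟩ := DdPI.pi_symm h12
  refine ⟨_, _, DdPI.pi_comp (I := I) (ε := ε) h13 ?_⟩
  convert h10 using 1
  have h14 := C.th_irr.apply_one_ne_zero
  have h15 := h8.apply_one_ne_zero
  refine Set.ext fun β => ⟨fun h z hz => mul_right_cancel₀ h15 ?_, fun h z hz => mul_right_cancel₀ h14 ?_⟩
  · have h16 := h ⟨z, mem_comap.2 (hz ▸ one_mem _)⟩ (Subtype.ext hz)
    have h17 := h11 ⟨z, mem_comap.2 (hz ▸ one_mem _)⟩ hz
    simp only [MonoidHom.comp_apply, coe_subtype] at h16 h17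
    linear_combination C.th 1 * h16 - β.1 (QuotientGroup.mk' ι.range z) * h17
  · have h16 := h z (congrArg Subtype.val hz)
    have h17 := h11 z (congrArg Subtype.val hz)
    simp only [MonoidHom.comp_apply, coe_subtype]
    linear_combination ψ 1 * h16 + β.1 (QuotientGroup.mk' ι.range z) * h17

end H34.Dd
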