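/- Perfect isometry with the Brauer correspondent: `p`-solvable groups, abelian defect. -/
import Cfsg.Agent.H34.DdBase
import Cfsg.Agent.H18.PSolv
import Cfsg.Agent.H39.Dict

set_option autoImplicit false
set_option linter.unusedSectionVars false

open scoped MonoidAlgebra ComplexConjugate

namespace H34.Dd

open Cfsg H28 H35 H39 H38 Subgroup
open H36 hiding pull coeff_pull

universe u

variable {p : ℕ} {M : Ideal AlgInt} [M.IsMaximal]

section
variable {G A B : Type u} [Group G] [Group A] [Group B] [Finite G] [Finite A] [Finite B]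

theorem PI.symm {a : Set (IrrCharacter A)} {b : Set (IrrCharacter B)} (h : PI p M a b) :
    PI p M b a :=
  let ⟨_, _, h⟩ := h
  let ⟨J, δ, h', _⟩ := DdPI.pi_symm h
  ⟨J, δ, h'⟩

theorem PI.trans {a : Set (IrrCharacter A)} {b : Set (IrrCharacter B)} {c : Set (IrrCharacter G)}
    (h : PI p M a b) (h' : PI p M b c) : PI p M a c :=
  let ⟨_, _, h⟩ := h
  let ⟨_, _, h'⟩ := h'
  ⟨_, _, DdPI.pi_comp h h'⟩

theorem pi_of_emb (hM : IsPModular p M) {φ : A →* G} {ψ : B →* G} (hφ : Function.Injective φ)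
    (hψ : Function.Injective ψ) (h : φ.range = ψ.range) {a : Set (IrrCharacter A)}
    {b : Set (IrrCharacter B)} (ha : IsPBlock M a) (hb : IsPBlock M b)
    (he : emb φ (eB M a) = emb ψ (eB M b)) : PI p M a b := by
  let e : A ≃* B := ((MonoidHom.ofInjective hφ).trans (MulEquiv.subgroupCongr h)).trans
    (MonoidHom.ofInjective hψ).symm
  have h1 : ψ.comp e.toMonoidHom = φ := MonoidHom.ext fun x =>
    congrArg Subtype.val ((MonoidHom.ofInjective hψ).apply_symm_apply _)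
  rw [← h1, ← emb_comp, ← eB_image] at he
  obtain rfl := eB_inj ((isPBlock_image_iff M e a).2 ha) hb (emb_injective hψ he)
  refine DdPI.pi_iso hM e hb fun χ => ⟨fun h => ⟨_, ⟨χ, h, rfl⟩, fun x => ?_⟩, ?_⟩
  · rw [irrEquiv_apply, e.symm_apply_apply]
  · rintro ⟨_, ⟨χ', h, rfl⟩, h'⟩
    rwa [show χ = χ' from Subtype.ext (funext fun x => by
      rw [h', irrEquiv_apply, e.symm_apply_apply])]

theorem pi_fr (hM : IsPModular p M) {N T : Subgroup G} [N.Normal] {e : (F M)[G]} (he : Blk N e)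
    (hT : T = stab e) {B : Set (IrrCharacter G)} (hB : IsPBlock M B) {B' : Set (IrrCharacter T)}
    (hB' : IsPBlock M B') (h : eB M B * e = eS M T B') : PI p M B' B := by
  let _ := Fintype.ofFinite G
  let _ := Fintype.ofFinite N
  let _ := Fintype.ofFinite T
  obtain ⟨b, hb, rfl⟩ := he.exists_eS
  have h1 := fr_le_stab hb hT
  have h2 : Covers (inclusion h1) B' b := (covers_le_iff_eS h1 (nor_of_normal _ _) hB' hb).2 (by
    rw [← h, mul_assoc, he.idem, h]; exact (isPrim_eS hB').ne_zero)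
  exact DdPI.pi_ind hM (fr_indBij hM hb hT h1 h2 ((fr_induced_iff hb hT h1 hB' h2 hB).2 h))

theorem pi_fr_amb (hM : IsPModular p M) {N K T : Subgroup G} (hNK : N ≤ K) (hK : K ≤ Nor N)
    {e : (F M)[G]} (he : Blk N e) (hT : T = K ⊓ stab e) {B : Set (IrrCharacter K)}
    (hB : IsPBlock M B) {B' : Set (IrrCharacter T)} (hB' : IsPBlock M B')
    (h : eS M K B * e = eS M T B') : PI p M B' B := by
  have := normal_subgroupOf_of_le_normalizer (H := K) (N := N) hK
  have hi := K.subtype_injective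
  obtain ⟨e, rfl⟩ : ∃ e', emb K.subtype e' = e := ⟨_, (he.supp.mono hNK).emb_pull_subtype⟩
  have h1 : Blk (N.subgroupOf K) e := (isPrim_emb_iff hi).1 (by rwa [map_subgroupOf_eq_of_le hNK])
  have hTK : T ≤ K := hT ▸ inf_le_left
  have h2 : T.subgroupOf K = stab e := Subgroup.ext fun x => by
    rw [hT, inf_subgroupOf_left, mem_subgroupOf, mem_stab, mem_stab,
      ← (emb_injective hi).eq_iff, emb_cj]
    rfl
  rw [eS, ← map_mul] at h
  obtain ⟨b, hb, h3⟩ := Blk.exists_eS (H := T.subgroupOf K) (u := eB M B * e)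
    ((isPrim_emb_iff hi).1 (by rw [map_subgroupOf_eq_of_le hTK, h]; exact isPrim_eS hB'))
  refine (pi_of_emb hM T.subtype_injective (ψ := K.subtype.comp (Subgroup.subtype _))
    (hi.comp (subtype_injective _)) ?_ hB' hb ?_).trans (pi_fr hM h1 h2 hB hb h3)
  · rw [MonoidHom.range_comp, range_subtype, range_subtype, map_subgroupOf_eq_of_le hTK]
  · rw [← emb_comp, ← eS, ← eS, ← h3, h]

theorem eq_over (hM : IsPModular p M) {N K : Subgroup G} [Fintype N] (h : N ≤ K) (hK : K ≤ Nor N)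
    (hN : ¬ p ∣ Nat.card N) {η : IrrCharacter N} {c : Set (IrrCharacter K)} (hc : IsPBlock M c)
    (he : eS M K c = eS M N {η}) : c = {ψ | Over (inclusion h) ψ.1 η.1} := by
  have h1 := isPBlock_singleton_of_not_dvd hM hN
  refine Set.ext fun ψ => ⟨fun hψ => ?_, fun hψ => ?_⟩
  · obtain ⟨η', h2⟩ := exists_under_irr (inclusion h) ψ
    have h3 := (covers_le_iff_eS h hK hc (h1 η')).1 ⟨ψ, hψ, η', rfl, h2⟩
    rw [he] at h3
    rwa [Set.singleton_injective (eS_inj (h1 _) (h1 _)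
      ((H39.blk_eS (h1 η)).eq_of_mul_ne_zero (H39.blk_eS (h1 η')) h3))]
  · have h2 := isPBlock_blockOf (M := M) ψ
    have h3 := (covers_le_iff_eS h hK h2 (h1 η)).1 ⟨ψ, self_mem_blockOf ψ, η, rfl, hψ⟩
    rw [← he] at h3
    exact eS_inj h2 hc ((H39.blk_eS h2).eq_of_mul_ne_zero (H39.blk_eS hc) h3) ▸ self_mem_blockOf ψ

theorem gl_cong (hM : IsPModular p M) {N P : Subgroup G}
    (hN : ¬ p ∣ Nat.card N) {θ : IrrCharacter N} {η : IrrCharacter ↥(N ⊓ Cen P)}
    (h : br P (eS M N {θ}) = eS M _ {η}) :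
    ∃ (m : ℕ) (Δ : ↥(N ⊓ Cen P) → ℂ), (∀ c, IsIntegral ℤ (Δ c)) ∧
      ∀ c : ↥(N ⊓ Cen P), θ.1 ⟨c, c.2.1⟩ = m * η.1 c + p * Δ c := by
  classical
  let _ := Fintype.ofFinite ↥(N ⊓ Cen P)
  have hC : ¬ p ∣ Nat.card ↥(N ⊓ Cen P) := fun h => hN (h.trans (card_dvd_of_le inf_le_left))
  have h1 : IsCharacter ↥(N ⊓ Cen P) fun c => θ.1 ⟨c, c.2.1⟩ :=
    θ.2.isCharacter.comp (inclusion inf_le_left)
  choose m hm using fun β : IrrCharacter ↥(N ⊓ Cen P) => β.2.isCharacter.classInner_nat h1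
  have h2 : ∀ β, β ≠ η → p ∣ m β := fun β hβ => by
    have h3 := lamS_eS_of_not_mem (isPBlock_singleton_of_not_dvd hM hC η) hβ
    have h4 : Inv (N ⊓ Cen P) (fS N {θ}) := (fS_mem_Fx _).1.mono inf_le_left
    have h5 := intC_fS (isPBlock_singleton_of_not_dvd hM hN θ)
    rw [← h, lamS_apply, br, pull_tc (by rw [range_subtype]; exact inf_le_right (a := N)),
      ← lamS_apply, ← redA_fS, lamS_redA β.2 h4 h5,
      red_eq_zero_iff (omega_pull_mem_S β.2 h4 h5), omega_pull_eq_finsum,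
      finsum_eq_sum_of_fintype] at h3
    have h6 := P_mul_left ((S M).mul_mem (natCast_mem _ (Nat.card N))
      (natCast_mem _ (charDegree β.1))) h3
    have h7 : (Nat.card N : ℂ) * charDegree β.1 * ∑ c : ↥(N ⊓ Cen P),
        (fS N {θ}).coeff c * β.1 c / β.1 1 =
        (charDegree θ.1 * (Nat.card ↥(N ⊓ Cen P) * m β) : ℕ) := by
      push_cast
      rw [← hm, card_mul_classInner, Finset.mul_sum, Finset.mul_sum]
      refine Finset.sum_congr rfl fun c _ => ?_
      rw [coeff_fS_coe {θ} ⟨c, c.2.1⟩, blockCoeff, finsum_mem_singleton, β.2.cast_charDegree,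
        θ.2.cast_charDegree]
      have := β.2.apply_one_ne_zero
      have : (Nat.card N : ℂ) ≠ 0 := Nat.cast_ne_zero.2 Nat.card_pos.ne'
      field_simp
    rw [h7, P_natCast_iff hM, hM.1.dvd_mul, hM.1.dvd_mul] at h6
    exact (h6.resolve_left fun h => hN (h.trans θ.2.charDegree_dvd_card)).resolve_left hC
  choose k hk using h2
  refine ⟨m η, fun c => ∑ β : {β // β ≠ η}, k β β.2 * β.1.1 c, fun c => IsIntegral.sum _
    fun β _ => (isIntegral_algebraMap (x := (k β β.2 : ℤ))).mul (β.1.2.isCharacter.isIntegral c),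
    fun c => ?_⟩
  rw [h1.isClassFunction.apply_eq_sum_irr c, Fintype.sum_eq_add_sum_subtype_ne _ η, Finset.mul_sum,
    classInner_comm_of_nat (hm η)]
  congr 1
  refine Finset.sum_congr rfl fun β _ => ?_
  rw [classInner_comm_of_nat (hm β), hk β β.2, Nat.cast_mul, mul_assoc]

theorem sup_normal [Fact p.Prime] (hG : IsPConstrained p G) {P : Subgroup G}
    (hP : H37.IsSylowIn p P ⊤) (hi : ¬ p ∣ P.index) (hc : ∀ x ∈ P, ∀ y ∈ P, x * y = y * x) :
    (P ⊔ pPrimeCore p G).Normal := by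
  obtain ⟨Q, hQ⟩ := H37.exists_isSylowIn p (pPrimePCore p G)
  obtain ⟨x, -, hx⟩ := hP.exists_conj_le hQ.isPGroup le_top
  have h1 := hQ.conj x
  rw [show (pPrimePCore p G).map (MulAut.conj x).toMonoidHom = _ from
    cS_eq_of_mem_nor (nor_of_normal _ ⊤ (mem_top x))] at h1
  obtain ⟨R, hR⟩ := h1
  have h2 : P ≤ pPrimePCore p G := fun y hy => hG R fun z hz => hc z (hx (hR ▸ hz)) y hy
  obtain ⟨k, hk⟩ := exists_relIndex_pPrimePCore p G
  rw [le_antisymm (sup_le h2 H18.pPrimeCore_le_pPrimePCore) (relIndex_eq_one.1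
    (Nat.eq_one_of_dvd_coprimes (((Nat.Prime.coprime_iff_not_dvd Fact.out).2 hi).pow_left k)
      (hk ▸ relIndex_dvd_of_le_left _ le_sup_right)
      ((relIndex_dvd_of_le_left _ le_sup_left).trans (relIndex_dvd_index_of_le h2))))]
  infer_instance

end

theorem pi_brauer (hM : IsPModular p M) {G : Type u} [Group G] [Finite G] (hG : IsPSolvable p G)
    {B : Set (IrrCharacter G)} (hB : IsPBlock M B) {P : Subgroup G} (hD : IsDef p ⊤ (eB M B) P)
    (hc : ∀ x ∈ P, ∀ y ∈ P, x * y = y * x) {c : Set (IrrCharacter (Nor P))} (hc' : IsPBlock M c)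
    (h : eS M _ c = br P (eB M B)) : PI p M c B := by
  have := Fact.mk hM.1
  have := charP_F hM
  induction hn : Nat.card G using Nat.strong_induction_on generalizing G with
  | _ n ih =>
  let _ := Fintype.ofFinite (pPrimeCore p G)
  have hN := H2.not_dvd_card_pPrimeCore p G
  have hn' := nor_of_normal (pPrimeCore p G)
  obtain ⟨e, he, h0, h1⟩ : ∃ e, Blk (pPrimeCore p G) e ∧ eB M B * e ≠ 0 ∧
      IsDef p (stab e) (eB M B * e) P := by
    obtain ⟨b, hb, h1⟩ := (NEmb.ofNormal (pPrimeCore p G)).exists_covered (M := M)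
      (block_nonempty hB)
    have h2 := (covers_iff_eS hB hb).1 h1
    obtain ⟨D, h3⟩ := (fr_blk le_top (hn' _) (H39.blk_eS hb) (top_inf_eq _).symm (H39.blk_eB hB)
      h2).exists_isDef p le_rfl
    obtain ⟨k, -, rfl⟩ := (fr_isDef le_top (hn' _) (H39.blk_eS hb) (top_inf_eq _).symm
      (H39.blk_eB hB) h2 h3).exists_conj hD
    have h4 : cj k (eB M B * eS M _ b) = eB M B * cj k (eS M _ b) := by
      rw [map_mul, (inv_eB B ⊤).cj_eq (mem_top k)]
    refine ⟨cj k (eS M _ b), (H39.blk_eS hb).cj_of_mem_nor (hn' ⊤ (mem_top k)), ?_, ?_⟩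
    · rwa [← h4, map_ne_zero_iff _ (cj k).injective]
    · rw [stab_cj, ← h4]; exact h3.cj k
  have h2 : Inv P e := inv_iff_le_stab.2 h1.le
  have h3 := blk_br_of_not_dvd hM hD.isPGroup (hn' _) hN he h2
  have h4 : pPrimeCore p G ⊓ Cen P ≤ Nor P := inf_le_right.trans (cen_le_nor P)
  have h5 : Nor P ≤ Nor (pPrimeCore p G ⊓ Cen P) := fun x hx =>
    mem_nor_inf_cen (hn' ⊤ (mem_top x)) hx
  by_cases hT : stab e = ⊤
  · have hpc := isPConstrained_of_isPSolvable hG
    have h6 : Inv ⊤ e := inv_iff_le_stab.2 hT.ge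
    obtain rfl := (H39.blk_eB hB).eq_of_mul_ne_zero (blk_top_of_isPConstrained hM hpc he h6) h0
    have h7 := isSylowIn_of_isDef hM le_top (hn' _) hN he h6 hD
    obtain ⟨S, rfl⟩ := H37.isSylowIn_top_iff.1 h7
    have hC : ¬ p ∣ Nat.card ↥(pPrimeCore p G ⊓ Cen S) := fun h =>
      hN (h.trans (card_dvd_of_le inf_le_left))
    obtain ⟨b, hb, h8⟩ := he.exists_eS
    obtain ⟨θ, hθ⟩ := block_nonempty hb
    obtain rfl : b = {θ} := block_eq_of_mem hb (isPBlock_singleton_of_not_dvd hM hN θ) hθ rfl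
    obtain ⟨b', hb', h9⟩ := h3.exists_eS
    obtain ⟨η, hη⟩ := block_nonempty hb'
    obtain rfl : b' = {η} := block_eq_of_mem hb' (isPBlock_singleton_of_not_dvd hM hC η) hη rfl
    have h10 : ∀ g, (NEmb.ofNormal _).cjI g θ = θ := fun g =>
      (gInv_iff_inv hb).2 (h8 ▸ h6) g θ rfl
    let _ := Fintype.ofFinite ↥(pPrimeCore p G ⊓ Cen S)
    rw [eq_over hM h4 h5 hC hc' (h.trans h9), eB_inj hB (isPBlock_above hM hpc rfl h10)
      (h8.trans (eS_singleton_eq hM hN h10)), Set.ext fun _ => mem_above_singleton]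
    exact jobBase p M hM _ _ h4 θ.1 η.1 S.2 hc hN S.not_dvd_index
      (sup_normal hpc h7 S.not_dvd_index hc) θ.2
      (H32.inertia_eq_top_iff.2 fun g n => congrFun (congrArg Subtype.val (h10 g)) n) η.2
      (gl_cong hM hN (h8 ▸ h9))
  obtain ⟨B', hB', h6⟩ := (fr_blk le_top (hn' _) he (top_inf_eq _).symm (H39.blk_eB hB)
    h0).exists_eS
  have h7 := (isDefectGroup_subgroupOf_iff hM hB' h1.le).2 (h6 ▸ h1)
  obtain ⟨c', h8, h9⟩ := exists_brauer_correspondent hM hB' h7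
  have h10 := ih _ (hn ▸ lt_of_le_of_ne (stab e).card_le_card_group fun h =>
    hT (eq_top_of_card_eq _ h)) (H18.isPSolvable_subgroup hG _) hB' ((isDefectGroup_iff hM hB').1 h7)
    (fun x hx y hy => Subtype.ext (hc _ hx _ hy)) h8 h9 rfl
  have h11 : eS M _ c * br P e = br P (eB M B * e) := by
    rw [h, br_mul hD.isPGroup (inv_eB B P) h2]
  obtain ⟨c'', h12, h13⟩ := (fr_blk h4 h5 h3 rfl (H39.blk_eS hc') (h11 ▸ h1.br_ne)).exists_eS
  have h14 : Nor P ⊓ stab (br P e) = Nor P ⊓ stab e := Subgroup.ext fun x =>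
    and_congr_right fun hx => by
      have h15 : cj x (br P e) = br P (cj x e) := by rw [cj_br', cS_eq_of_mem_nor hx]
      refine ⟨fun h => (he.eq_of_mul_ne_zero (he.cj_of_mem_nor (hn' ⊤ (mem_top x)))
        fun h16 => h3.ne_zero ?_).symm, fun h => h15.trans (congrArg _ h)⟩
      rw [← h3.idem]
      nth_rw 2 [← mem_stab.1 h]
      rw [h15, ← br_mul hD.isPGroup h2 (cS_eq_of_mem_nor hx ▸ inv_cj h2 x), h16, map_zero]
  refine (pi_fr_amb hM h4 h5 h3 rfl hc' h12 h13).symm.trans (PI.trans (pi_of_emb hM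
    (subtype_injective _) (ψ := (stab e).subtype.comp (Subgroup.subtype _))
    ((subtype_injective _).comp (subtype_injective _)) ?_ h12 h8 ?_)
    (h10.trans (pi_fr hM he rfl hB hB' h6)))
  · rw [MonoidHom.range_comp, range_subtype, range_subtype, h14,
      ← subgroupOf_normalizer_eq h1.le, subgroupOf_map_subtype]
  · rw [← emb_comp, ← eS, ← eS, ← h13, h11, h9, emb_br (subtype_injective _),
      map_subgroupOf_eq_of_le h1.le, h6, eS]

end H34.Dd
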