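import Cfsg.Agent.H34.SubFam
import Cfsg.Agent.H38.CoverS
import Cfsg.Agent.H41.LocDefect

/-!
# Heights are bounded by the number of major subsections (Feit V.9)
-/

set_option autoImplicit false
set_option linter.unusedSectionVars false

open scoped MonoidAlgebra ComplexConjugate

namespace H34

open Cfsg H28 H35 H36 H39

section cyc

variable {n : ℕ}

theorem cycF_mul_ZC {F F' : ℕ → ℂ} (hF : F ∈ cycF n ZC) (hF' : F' ∈ cycF n ZC) :
    F * F' ∈ cycF n ZC := by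
  refine cycF_induction (P := fun F => F * F' ∈ cycF n ZC) ?_ ?_ ?_ hF
  · rintro ω hω _ ⟨k, rfl⟩
    convert (cycF n ZC).zsmul_mem (cycF_mul hω hF') k using 1
    ext t; simp; ring
  · rw [zero_mul]; exact (cycF n ZC).zero_mem
  · intro F₁ F₂ h h'
    rw [add_mul]; exact (cycF n ZC).add_mem h h'

theorem cycF_shift {V : Type*} [AddCommGroup V] [Module ℂ V] {L : AddSubgroup V} {F : ℕ → V}
    (hF : F ∈ cycF n L) (s : ℕ) : (fun t => F (s * t)) ∈ cycF n L := by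
  refine cycF_induction (P := fun F => (fun t => F (s * t)) ∈ cycF n L) ?_ (zero_mem _)
    (fun _ _ h h' => add_mem h h') hF
  intro ω hω v hv
  simp only [pow_mul]
  exact cycF_basic (by rw [← pow_mul, mul_comm, pow_mul, hω, one_pow]) hv

theorem cycF_mod {V : Type*} [AddCommGroup V] [Module ℂ V] {L : AddSubgroup V} {F : ℕ → V}
    (hF : F ∈ cycF n L) (t : ℕ) : F (t % n) = F t := by
  refine cycF_induction (P := fun F => F (t % n) = F t) ?_ rfl
    (fun _ _ h h' => by simp only [Pi.add_apply, h, h']) hF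
  intro ω hω v _
  simp only [← pow_eq_pow_mod t hω]

theorem cycF_prod {ι : Type*} (s : Finset ι) {F : ι → ℕ → ℂ} (h : ∀ i ∈ s, F i ∈ cycF n ZC) :
    (fun t => ∏ i ∈ s, F i t) ∈ cycF n ZC := by
  classical
  induction s using Finset.induction_on with
  | empty => simpa using cycF_const (n := n) (intCast_mem_ZC 1)
  | insert a s ha ih =>
    simp only [Finset.prod_insert ha]
    exact cycF_mul_ZC (h a (Finset.mem_insert_self _ _))
      (ih fun i hi => h i (Finset.mem_insert_of_mem hi))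

theorem cycF_ne_zero_of (hn : n ≠ 0) {F : ℕ → ℂ} (hF : F ∈ cycF n ZC) (h1 : F 1 ≠ 0) {t : ℕ}
    (ht : t.Coprime n) : F t ≠ 0 := by
  obtain ⟨σ, hσ⟩ := H29.exists_ringEquiv_pow hn ht
  rw [cycF_gal hF (σ := (σ : ℂ →+* ℂ)) hσ]
  exact (map_ne_zero _).2 h1

variable {p k : ℕ}

theorem coprime_of_mem_TT (hp : p.Prime) {t : ℕ} (ht : ¬ p ∣ t) : t.Coprime (p * p ^ k) := by
  rw [← pow_succ']
  exact (Nat.Coprime.pow_right _ ((hp.coprime_iff_not_dvd).2 ht).symm)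

theorem prod_TT_mul (hp : p.Prime) {F : ℕ → ℂ} (hF : F ∈ cycF (p * p ^ k) ZC) {s : ℕ}
    (hs : ¬ p ∣ s) : ∏ t ∈ TT p (p * p ^ k), F (t * s) = ∏ t ∈ TT p (p * p ^ k), F t := by
  have hn : 0 < p * p ^ k := Nat.mul_pos hp.pos (pow_pos hp.pos _)
  have hmaps : ∀ t ∈ TT p (p * p ^ k), t * s % (p * p ^ k) ∈ TT p (p * p ^ k) := fun t ht => by
    refine mem_TT.2 ⟨Nat.mod_lt _ hn, fun h => ?_⟩
    rw [Nat.dvd_mod_iff (dvd_mul_right _ _)] at h
    exact ((Nat.Prime.dvd_mul hp).1 h).elim (mem_TT.1 ht).2 hs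
  have hinj : Set.InjOn (fun t => t * s % (p * p ^ k)) (TT p (p * p ^ k)) := fun a ha b hb h =>
    Nat.ModEq.eq_of_lt_of_lt (Nat.ModEq.cancel_right_of_coprime
      (coprime_of_mem_TT hp hs).symm h) (mem_TT.1 ha).1 (mem_TT.1 hb).1
  refine Finset.prod_nbij (fun t => t * s % (p * p ^ k)) hmaps hinj
    (Finset.surjOn_of_injOn_of_card_le _ hmaps hinj le_rfl) fun t _ => (cycF_mod hF _).symm

theorem card_le_sum_norm (hp : p.Prime) {F : ℕ → ℂ} (hF : F ∈ cycF (p * p ^ k) ZC)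
    (h1 : F 1 ≠ 0) : ((TT p (p * p ^ k)).card : ℝ) ≤ ∑ t ∈ TT p (p * p ^ k), ‖F t‖ := by
  have hn : p * p ^ k ≠ 0 := (Nat.mul_pos hp.pos (pow_pos hp.pos _)).ne'
  have hne : ∀ t ∈ TT p (p * p ^ k), F t ≠ 0 := fun t ht =>
    cycF_ne_zero_of hn hF h1 (coprime_of_mem_TT hp (mem_TT.1 ht).2)
  have h2 := card_le_sum_normSq hp (pow_ne_zero k hp.ne_zero)
    (cycF_prod (TT p (p * p ^ k)) fun t _ => cycF_shift hF t)
    (by simpa only [mul_one] using Finset.prod_ne_zero_iff.2 hne)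
  rw [Finset.sum_congr rfl fun s hs => by rw [prod_TT_mul hp hF (mem_TT.1 hs).2],
    Finset.sum_const, nsmul_eq_mul] at h2
  have h3 : (0 : ℝ) < (TT p (p * p ^ k)).card :=
    Nat.cast_pos.2 (card_TT_pos hp (pow_ne_zero k hp.ne_zero))
  have h4 : 1 ≤ ∏ t ∈ TT p (p * p ^ k), ‖F t‖ := by
    have h5 : 1 ≤ Complex.normSq (∏ t ∈ TT p (p * p ^ k), F t) := by nlinarith
    rw [Complex.normSq_eq_norm_sq, norm_prod] at h5
    exact (one_le_sq_iff₀ (Finset.prod_nonneg fun _ _ => norm_nonneg _)).1 h5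
  have h6 := Real.log_nonneg h4
  rw [Real.log_prod fun t ht => norm_ne_zero_iff.2 (hne t ht)] at h6
  have h7 : ∑ t ∈ TT p (p * p ^ k), Real.log ‖F t‖ ≤ ∑ t ∈ TT p (p * p ^ k), (‖F t‖ - 1) :=
    Finset.sum_le_sum fun t ht => Real.log_le_sub_one_of_pos (norm_pos_iff.2 (hne t ht))
  rw [Finset.sum_sub_distrib, Finset.sum_const, nsmul_eq_mul, mul_one] at h7
  linarith

theorem card_mul_pow_le_sum_norm {M : Ideal AlgInt} [M.IsMaximal] (hM : IsPModular p M)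
    {F : ℕ → ℂ} (hF : F ∈ cycF (p * p ^ k) ZC) (h1 : F 1 ≠ 0) (e : ℕ)
    (h : F 1 / (p : ℂ) ^ e ∈ S M) :
    ((TT p (p * p ^ k)).card : ℝ) * (p : ℝ) ^ e ≤ ∑ t ∈ TT p (p * p ^ k), ‖F t‖ := by
  obtain ⟨F', hF', he⟩ := exists_cycF_div hM hF e h
  have h2 := card_le_sum_norm hM.1 hF' fun h0 => h1 (by rw [he 1 hM.1.not_dvd_one, h0, mul_zero])
  rw [Finset.sum_congr rfl fun t ht => by
    rw [he t (mem_TT.1 ht).2, norm_mul, norm_pow, Complex.norm_natCast], ← Finset.mul_sum,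
    mul_comm]
  exact mul_le_mul_of_nonneg_left h2 (by positivity)

end cyc

theorem norm_classInner_le_add {C : Type*} [Group C] [Fintype C] (φ ψ : C → ℂ) :
    2 * ‖classInner φ ψ‖ ≤ (classInner φ φ).re + (classInner ψ ψ).re := by
  rw [classInner_self_re, classInner_self_re, classInner_def, norm_mul, norm_inv,
    Complex.norm_natCast, ← mul_add, ← Finset.sum_add_distrib, mul_left_comm]
  refine mul_le_mul_of_nonneg_left ?_ (by positivity)
  refine (mul_le_mul_of_nonneg_left (norm_sum_le _ _) (by norm_num)).trans ?_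
  rw [Finset.mul_sum]
  refine Finset.sum_le_sum fun g _ => ?_
  rw [norm_mul, RCLike.norm_conj]
  nlinarith [sq_nonneg (‖φ g‖ - ‖ψ g‖)]

section fus

variable {G : Type*} [Group G] [Finite G] {F : Type*} [Field F] {p : ℕ} [Fact p.Prime]
  [CharP F p] {D Q Q' : Subgroup G} {b e f f' : F[G]} {g : G}

/-- The inertial group controls the fusion of central subpairs. -/
theorem exists_St_of_central (h : MaxP p ⊤ b D e) (hs : Sub p ⊤ Q f D e)
    (hs' : Sub p ⊤ Q' f' D e) (hQ : D ≤ Cen Q) (hQ' : D ≤ Cen Q') (hg : cS g Q = Q')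
    (hf : cj g f = f') : ∃ n ∈ St ⊤ D e, ∀ u ∈ Q, n * u * n⁻¹ = g * u * g⁻¹ := by
  have h1 := (h.local_of_le_cen hs hQ).cj g
  rw [cS_inf_cen_of_mem (Subgroup.mem_top g), hg, hf] at h1
  obtain ⟨x, hx, h2⟩ := (h.local_of_le_cen hs' hQ').exists_cj_sub h1.bp
  rw [cS_cS, cj_cj] at h2
  have h3 : cS (x * g) D = D :=
    Subgroup.eq_of_le_of_card_ge h2.le (card_cS _ _).ge
  rw [h3] at h2
  refine ⟨x * g, ⟨⟨trivial, cS_eq_iff.1 h3⟩, h2.eq_of_eq⟩, fun u hu => ?_⟩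
  have := cen_conj_eq hx.2 (hg ▸ conj_mem_cS.2 hu)
  rw [← this]
  group

end fus

variable {G : Type*} [Group G] [Fintype G] {M : Ideal AlgInt} [M.IsMaximal] {p : ℕ}
  {B : Set (IrrCharacter G)} {D : Subgroup G} {e : (F M)[G]}

theorem SS.norm_con_le (s : SS p M B) (χ ψ : G → ℂ) :
    2 * ‖s.con χ ψ‖ ≤ (s.con χ χ).re + (s.con ψ ψ).re := norm_classInner_le_add _ _

theorem le_cen_zpowers {z : G} (hz : z ∈ Cen D) : D ≤ Cen (Subgroup.zpowers z) :=
  le_cen_comm.1 ((Subgroup.zpowers_le).2 hz)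

theorem exists_reps_card_le {T H Z : Subgroup G} (hH : H ≤ Cen Z) (hT : T ≤ Nor Z) :
    ∃ R : Finset G, (∀ z ∈ R, z ∈ Z) ∧ (∀ z ∈ R, ∀ z' ∈ R, ConjIn T z z' → z = z') ∧
      Nat.card Z ≤ R.card * H.relIndex T := by
  classical
  obtain ⟨s, hs⟩ := exists_reps T
  refine ⟨s.filter (· ∈ Z), fun z hz => (Finset.mem_filter.1 hz).2, fun z hz z' hz' h =>
    (hs z').unique ⟨(Finset.mem_filter.1 hz).1, h⟩ ⟨(Finset.mem_filter.1 hz').1, .refl _ _⟩, ?_⟩
  let φ : s.filter (· ∈ Z) × (T ⧸ H.subgroupOf T) → Z := fun x =>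
    ⟨x.2.out * x.1 * (x.2.out : G)⁻¹, (Subgroup.mem_normalizer_iff.1 (hT x.2.out.2) _).1
      (Finset.mem_filter.1 x.1.2).2⟩
  have hφ : Function.Surjective φ := fun z => by
    obtain ⟨g, ⟨hg, t, ht, htg⟩, -⟩ := hs z
    have hgZ : g ∈ Z := (Subgroup.mem_normalizer_iff.1 (hT ht) _).2 (htg ▸ z.2)
    refine ⟨(⟨g, Finset.mem_filter.2 ⟨hg, hgZ⟩⟩, ((⟨t, ht⟩ : T) : T ⧸ H.subgroupOf T)),
      Subtype.ext ?_⟩
    obtain ⟨c, hc⟩ := QuotientGroup.mk_out_eq_mul (H.subgroupOf T) ⟨t, ht⟩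
    simp only [φ, hc, Subgroup.coe_mul, ← htg]
    have : (c.1 : G) * g * (c.1 : G)⁻¹ = g := cen_conj_eq (hH c.2) hgZ
    conv_rhs => rw [← this]
    group
  have := Nat.card_le_card_of_surjective φ hφ
  rwa [Nat.card_prod, Nat.card_eq_fintype_card (α := s.filter (· ∈ Z)), Fintype.card_coe] at this

theorem exists_major (hM : IsPModular p M) (hB : IsPBlock M B) (h : MaxP p ⊤ (eB M B) D e)
    {z : G} (hz : z ∈ D ⊓ Cen D) : ∃ b : Set (IrrCharacter (Cen (Subgroup.zpowers z))),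
      IsInducedBlock M _ b B ∧ Sub p ⊤ (Subgroup.zpowers z) (eS M _ b) D e ∧
      blockDefect p b = blockDefect p B := by
  have : Fact p.Prime := ⟨hM.1⟩
  have := charP_F hM
  obtain ⟨f, hf⟩ := h.exists_sub ((Subgroup.zpowers_le).2 hz.1)
  obtain ⟨b, hb, rfl⟩ := (h.bp_of_sub hf).blk.exists_eS'
  refine ⟨b, (isInducedBlock_cen_iff hM (h.bp_of_sub hf).pQ).2 ((bp_iff hM).2
    ⟨hB, hb, h.bp_of_sub hf⟩), hf, ?_⟩
  have h1 := (h.local_of_le_cen hf (le_cen_zpowers hz.2)).isDef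
  rw [top_inf_eq] at h1
  have h2 := H41.isDef_card_eq hM hb h1
  rw [card_of_isDefectGroup hM hB ((isDefectGroup_iff hM hB).2 h.isDef)] at h2
  exact (Nat.pow_right_injective hM.1.two_le h2).symm

theorem pow_height_mul_le (hM : IsPModular p M) (hB : IsPBlock M B)
    (h : MaxP p ⊤ (eB M B) D e) {R : Finset G} (hR : ∀ z ∈ R, z ∈ D ⊓ Cen D)
    (hRR : ∀ z ∈ R, ∀ z' ∈ R, ConjIn (St ⊤ D e) z z' → z = z') {χ : IrrCharacter G}
    (hχ : χ ∈ B) : R.card * p ^ blockHeight p B χ.1 ≤ p ^ blockDefect p B := by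
  classical
  have hp : p.Prime := hM.1
  have : Fact p.Prime := ⟨hM.1⟩
  have := charP_F hM
  obtain ⟨ψ, hψ, hψ0⟩ := exists_height_zero p (block_nonempty hB)
  obtain ⟨k, hk⟩ := IsPGroup.iff_card.1 h.isDef.isPGroup
  have hzk : ∀ z : R, z.1 ^ (p * p ^ k) = 1 := fun z => by
    have := pow_card_eq_one' (G := D) (x := ⟨z, (hR z z.2).1⟩)
    rw [hk] at this
    rw [mul_comm, pow_mul, show z.1 ^ p ^ k = 1 from congrArg Subtype.val this, one_pow]
  have hsec : ∀ z : R, H41.IsSec p z.1 (Cen (Subgroup.zpowers z.1)) := fun z =>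
    H41.isSec_centralizer_zpowers ((Nat.dvd_prime_pow hp).1 (by
      rw [pow_succ']; exact orderOf_dvd_of_pow_eq_one (hzk z)) |>.imp fun _ h => h.2)
  choose b hbi hbs hbd using fun z : R => exists_major hM hB h (hR z z.2)
  let s : ∀ t, ¬ p ∣ t → R → SS p M B := fun t ht z =>
    ⟨z.1 ^ t, _, b z, isSec_pow hp (hsec z) ht, hbi z⟩
  have hN : ∀ t ht, NCj Finset.univ (s t ht) := fun t ht z _ z' _ ⟨g, hg1, hg2⟩ => by
    have hg : g * z.1 * g⁻¹ = z'.1 := by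
      have h1 : (g * z.1 * g⁻¹) ^ t = z'.1 ^ t := by rw [conj_pow]; exact hg1
      obtain ⟨m, -, hm⟩ := Nat.exists_mul_mod_eq_one_of_coprime (coprime_of_mem_TT (k := k) hp ht)
        (by rw [← pow_succ']; exact Nat.one_lt_pow k.succ_ne_zero hp.one_lt)
      have h2 : ∀ x : G, x ^ (p * p ^ k) = 1 → (x ^ t) ^ m = x := fun x hx => by
        rw [← pow_mul, pow_eq_pow_mod _ hx, hm, pow_one]
      rw [← h2 _ (hzk z'), ← h1, h2 _ (by rw [conj_pow, hzk, mul_one, mul_inv_cancel])]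
    obtain ⟨n, hn, hnu⟩ := exists_St_of_central h (hbs z) (hbs z')
      (le_cen_zpowers (hR z z.2).2) (le_cen_zpowers (hR z' z'.2).2) (by rw [cS_zpowers, hg]) hg2
    exact Subtype.ext (hRR z z.2 z' z'.2 ⟨n, hn, (hnu _ (Subgroup.mem_zpowers _)).trans hg⟩)
  have hup : ∀ t ∈ TT p (p * p ^ k), ∑ z : R,
      ‖QB p (b z) (fsec p (b z) (z.1 ^ t) χ) (fsec p (b z) (z.1 ^ t) ψ)‖ ≤
      (p : ℝ) ^ blockDefect p B := fun t ht => by
    have h1 := (hN t (mem_TT.1 ht).2).sum_con_le hM hχ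
    have h2 := (hN t (mem_TT.1 ht).2).sum_con_le hM hψ
    have h3 : ∑ z : R, 2 * ‖(s t (mem_TT.1 ht).2 z).con χ ψ‖ ≤ 2 := by
      refine (Finset.sum_le_sum fun z _ => SS.norm_con_le _ _ _).trans ?_
      rw [Finset.sum_add_distrib]
      exact (add_le_add h1 h2).trans (by norm_num)
    rw [← Finset.mul_sum] at h3
    have h4 : ∀ z : R, ‖QB p (b z) (fsec p (b z) (z.1 ^ t) χ) (fsec p (b z) (z.1 ^ t) ψ)‖ =
        (p : ℝ) ^ blockDefect p B * ‖(s t (mem_TT.1 ht).2 z).con χ ψ‖ := fun z => by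
      rw [QB_apply, norm_mul, norm_pow, Complex.norm_natCast, hbd, SS.con,
        classInner_congr_inst _ (SS.instFintypeC (s t (mem_TT.1 ht).2 z))]
    simp only [h4, ← Finset.mul_sum]
    exact mul_le_of_le_one_right (by positivity) (by linarith)
  have hlow : ∀ z : R, ((TT p (p * p ^ k)).card : ℝ) * (p : ℝ) ^ blockHeight p B χ.1 ≤
      ∑ t ∈ TT p (p * p ^ k),
        ‖QB p (b z) (fsec p (b z) (z.1 ^ t) χ) (fsec p (b z) (z.1 ^ t) ψ)‖ := fun z => by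
    refine card_mul_pow_le_sum_norm hM (QB_fsec_mem_cycF hp (hsec z)
      (Nat.mul_pos hp.pos (pow_pos hp.pos _)).ne' (hzk z) χ ψ) (fun h0 => ?_) _ ?_
    · have := (P_QB_fsec_div_iff hM (hsec z) (hbi z) (hbd z) hχ hψ).not.2 (not_not.2 hψ0)
      rw [pow_one] at h0
      rw [h0, zero_div] at this
      exact this P_zero
    · rw [pow_one]
      exact QB_fsec_div_mem_S hM (hsec z) (hbd z) hχ (inV_fsec hM (hbi z).1 _ _)
        (conj_fsec_mem_S (hsec z) ψ.2.isCharacter)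
  have h1 := Finset.sum_le_sum fun z (_ : z ∈ Finset.univ) => hlow z
  rw [Finset.sum_comm, Finset.sum_const, Finset.card_univ, Fintype.card_coe, nsmul_eq_mul] at h1
  have h2 := h1.trans (Finset.sum_le_sum hup)
  rw [Finset.sum_const, nsmul_eq_mul, mul_left_comm] at h2
  have h3 : (0 : ℝ) < (TT p (p * p ^ k)).card :=
    Nat.cast_pos.2 (card_TT_pos hp (pow_ne_zero k hp.ne_zero))
  exact_mod_cast le_of_mul_le_mul_left h2 h3

theorem card_center_mul_le (hM : IsPModular p M) (hB : IsPBlock M B)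
    (h : MaxP p ⊤ (eB M B) D e) {χ : IrrCharacter G} (hχ : χ ∈ B) :
    Nat.card ↥(D ⊓ Cen D) * p ^ blockHeight p B χ.1 ≤
      (D ⊔ Cen D).relIndex (St ⊤ D e) * p ^ blockDefect p B := by
  obtain ⟨R, h1, h2, h3⟩ := exists_reps_card_le (T := St ⊤ D e) (H := D ⊔ Cen D) (Z := D ⊓ Cen D)
    (sup_le (le_cen_comm.1 inf_le_right) (cen_anti inf_le_left))
    fun x hx => mem_nor_inf (St_le_nor _ _ _ hx) (nor_le_nor_cen _ (St_le_nor _ _ _ hx))
  have h4 := pow_height_mul_le hM hB h h1 h2 hχ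
  calc _ ≤ R.card * (D ⊔ Cen D).relIndex (St ⊤ D e) * p ^ blockHeight p B χ.1 :=
        Nat.mul_le_mul_right _ h3
    _ = (D ⊔ Cen D).relIndex (St ⊤ D e) * (R.card * p ^ blockHeight p B χ.1) := by ring
    _ ≤ _ := Nat.mul_le_mul_left _ h4

end H34
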