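/- The Isaacs correspondence, part 1: the canonical involution of a group of class two with a
fixed point free coprime operator group on the central quotient. -/
import Cfsg.Agent.H28.CharCenter

set_option autoImplicit false
set_option linter.unusedSectionVars false
open scoped commutatorElement

namespace H34.Isa

open Cfsg H28

/-- `R` induces a bijection between `X` and `Y`. -/
structure Bij {α β : Type*} (X : α → Prop) (Y : β → Prop) (R : α → β → Prop) : Prop where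
  exR : ∀ a, X a → ∃ b, Y b ∧ R a b
  unR : ∀ a b b', X a → Y b → Y b' → R a b → R a b' → b = b'
  exL : ∀ b, Y b → ∃ a, X a ∧ R a b
  unL : ∀ a a' b, X a → X a' → Y b → R a b → R a' b → a = a'

theorem Bij.transfer {α β α' β' : Type*} {X : α → Prop} {Y : β → Prop} {R : α → β → Prop}
    {X' : α' → Prop} {Y' : β' → Prop} {R' : α' → β' → Prop} {P : α → α' → Prop}
    {Q : β → β' → Prop} (h : Bij X' Y' R') (hP : Bij X X' P) (hQ : Bij Y Y' Q)
    (hc : ∀ a a' b b', X a → X' a' → Y b → Y' b' → P a a' → Q b b' → (R a b ↔ R' a' b')) :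
    Bij X Y R where
  exR a ha := by
    obtain ⟨a', ha', h1⟩ := hP.exR a ha
    obtain ⟨b', hb', h2⟩ := h.exR a' ha'
    obtain ⟨b, hb, h3⟩ := hQ.exL b' hb'
    exact ⟨b, hb, (hc a a' b b' ha ha' hb hb' h1 h3).2 h2⟩
  unR a b c ha hb hc' h1 h2 := by
    obtain ⟨a', ha', h3⟩ := hP.exR a ha
    obtain ⟨b', hb', h4⟩ := hQ.exR b hb
    obtain ⟨c', hc'', h5⟩ := hQ.exR c hc'
    obtain rfl := h.unR a' b' c' ha' hb' hc'' ((hc a a' b b' ha ha' hb hb' h3 h4).1 h1)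
      ((hc a a' c c' ha ha' hc' hc'' h3 h5).1 h2)
    exact hQ.unL b c b' hb hc' hb' h4 h5
  exL b hb := by
    obtain ⟨b', hb', h1⟩ := hQ.exR b hb
    obtain ⟨a', ha', h2⟩ := h.exL b' hb'
    obtain ⟨a, ha, h3⟩ := hP.exL a' ha'
    exact ⟨a, ha, (hc a a' b b' ha ha' hb hb' h3 h1).2 h2⟩
  unL a c b ha hc' hb h1 h2 := by
    obtain ⟨b', hb', h3⟩ := hQ.exR b hb
    obtain ⟨a', ha', h4⟩ := hP.exR a ha
    obtain ⟨c', hc'', h5⟩ := hP.exR c hc'
    obtain rfl := h.unL a' c' b' ha' hc'' hb' ((hc a a' b b' ha ha' hb hb' h4 h3).1 h1)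
      ((hc c c' b b' hc' hc'' hb hb' h5 h3).1 h2)
    exact hP.unL a c a' ha hc' ha' h4 h5

theorem Bij.restrict {α β : Type*} {X U : α → Prop} {Y V : β → Prop} {R : α → β → Prop}
    (h : Bij X Y R) (hc : ∀ a b, X a → Y b → R a b → (U a ↔ V b)) :
    Bij (fun a => X a ∧ U a) (fun b => Y b ∧ V b) R where
  exR a ha := by
    obtain ⟨b, hb, h1⟩ := h.exR a ha.1
    exact ⟨b, ⟨hb, (hc a b ha.1 hb h1).1 ha.2⟩, h1⟩
  unR a b c ha hb hc' := h.unR a b c ha.1 hb.1 hc'.1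
  exL b hb := by
    obtain ⟨a, ha, h1⟩ := h.exL b hb.1
    exact ⟨a, ⟨ha, (hc a b ha hb.1 h1).2 hb.2⟩, h1⟩
  unL a c b ha hc' hb := h.unL a c b ha.1 hc'.1 hb.1

theorem Bij.glue {α β ι : Type*} {X : α → Prop} {Y : β → Prop} {R : α → β → Prop}
    {U : ι → α → Prop} {V : ι → β → Prop}
    (h : ∀ i, Bij (fun a => X a ∧ U i a) (fun b => Y b ∧ V i b) R) (hX : ∀ a, X a → ∃ i, U i a)
    (hY : ∀ b, Y b → ∃ i, V i b) (hc : ∀ i a b, X a → Y b → R a b → (U i a ↔ V i b)) :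
    Bij X Y R where
  exR a ha := by
    obtain ⟨i, hi⟩ := hX a ha
    obtain ⟨b, hb, h1⟩ := (h i).exR a ⟨ha, hi⟩
    exact ⟨b, hb.1, h1⟩
  unR a b c ha hb hc' h1 h2 := by
    obtain ⟨i, hi⟩ := hX a ha
    exact (h i).unR a b c ⟨ha, hi⟩ ⟨hb, (hc i a b ha hb h1).1 hi⟩ ⟨hc', (hc i a c ha hc' h2).1 hi⟩
      h1 h2
  exL b hb := by
    obtain ⟨i, hi⟩ := hY b hb
    obtain ⟨a, ha, h1⟩ := (h i).exL b ⟨hb, hi⟩
    exact ⟨a, ha.1, h1⟩
  unL a c b ha hc' hb h1 h2 := by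
    obtain ⟨i, hi⟩ := hY b hb
    exact (h i).unL a c b ⟨ha, (hc i a b ha hb h1).2 hi⟩ ⟨hc', (hc i c b hc' hb h2).2 hi⟩
      ⟨hb, hi⟩ h1 h2

theorem Bij.congr {α β : Type*} {X X' : α → Prop} {Y Y' : β → Prop} {R R' : α → β → Prop}
    (h : Bij X Y R) (hX : ∀ a, X' a ↔ X a) (hY : ∀ b, Y' b ↔ Y b)
    (hR : ∀ a b, R' a b ↔ R a b) : Bij X' Y' R' := by
  rw [show X' = X from funext fun a => propext (hX a), show Y' = Y from funext fun a => propext (hY a),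
    show R' = R from funext fun a => funext fun b => propext (hR a b)]
  exact h

variable {K : Type*} [Group K]

/-- The carrier of the Baer group. -/
@[ext] structure BT (K : Type*) (n : ℕ) where
  /-- the underlying element -/
  val : K

/-- Class two with commutators of order dividing `2 * n - 1`. -/
structure Cl (K : Type*) [Group K] (n : ℕ) : Prop where
  cen : ∀ x y : K, ⁅x, y⁆ ∈ Subgroup.center K
  sq : ∀ x y : K, ⁅x, y⁆ ^ n * ⁅x, y⁆ ^ n = ⁅x, y⁆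

namespace Cl

variable {n : ℕ} (h : Cl K n)
include h

theorem comm (x y z : K) : Commute ⁅x, y⁆ z := (Subgroup.mem_center_iff.1 (h.cen x y) z).symm

theorem mul_left (x y z : K) : ⁅x * y, z⁆ = ⁅x, z⁆ * ⁅y, z⁆ := by
  have h1 : ⁅x * y, z⁆ = x * ⁅y, z⁆ * x⁻¹ * ⁅x, z⁆ := by simp only [commutatorElement_def]; group
  rw [h1, ← (h.comm y z x).eq, mul_inv_cancel_right, (h.comm y z _).eq]

theorem mul_right (x y z : K) : ⁅x, y * z⁆ = ⁅x, y⁆ * ⁅x, z⁆ := by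
  have h1 : ⁅x, y * z⁆ = ⁅x, y⁆ * (y * ⁅x, z⁆ * y⁻¹) := by
    simp only [commutatorElement_def]; group
  rw [h1, ← (h.comm x z y).eq, mul_inv_cancel_right]

omit h in
theorem cen_left {a : K} (ha : a ∈ Subgroup.center K) (y : K) : ⁅a, y⁆ = 1 :=
  commutatorElement_eq_one_iff_mul_comm.2 (Subgroup.mem_center_iff.1 ha y).symm

omit h in
theorem cen_right {a : K} (ha : a ∈ Subgroup.center K) (y : K) : ⁅y, a⁆ = 1 :=
  commutatorElement_eq_one_iff_mul_comm.2 (Subgroup.mem_center_iff.1 ha y)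

theorem swap (x y : K) : x * y * ⁅y, x⁆ ^ n = y * x * ⁅x, y⁆ ^ n := by
  have h1 : y * x = ⁅y, x⁆ * (x * y) := by simp only [commutatorElement_def]; group
  rw [h1, (h.comm y x _).eq, ← commutatorElement_inv y x, inv_pow, mul_assoc (x * y)]
  congr 1
  rw [eq_mul_inv_iff_mul_eq, h.sq]

/-- The Baer group structure. -/
@[reducible] def commGroup : CommGroup (BT K n) where
  mul x y := ⟨x.val * y.val * ⁅y.val, x.val⁆ ^ n⟩
  one := ⟨1⟩
  inv x := ⟨x.val⁻¹⟩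
  mul_assoc x y z := BT.ext (by
    change x.val * y.val * ⁅y.val, x.val⁆ ^ n * z.val *
        ⁅z.val, x.val * y.val * ⁅y.val, x.val⁆ ^ n⁆ ^ n =
      x.val * (y.val * z.val * ⁅z.val, y.val⁆ ^ n) * ⁅y.val * z.val * ⁅z.val, y.val⁆ ^ n, x.val⁆ ^ n
    rw [h.mul_right, h.mul_right, h.mul_left, h.mul_left, cen_right (pow_mem (h.cen _ _) n),
      cen_left (pow_mem (h.cen _ _) n), mul_one, mul_one, (h.comm _ _ _).mul_pow,
      (h.comm _ _ _).mul_pow, mul_assoc _ _ z.val, ((h.comm y.val x.val z.val).pow_left n).eq]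
    simp only [mul_assoc]
    rw [← mul_assoc (⁅y.val, x.val⁆ ^ n), ((h.comm z.val y.val _).pow_left n).eq])
  one_mul x := BT.ext (by change 1 * x.val * ⁅x.val, 1⁆ ^ n = x.val; simp)
  mul_one x := BT.ext (by change x.val * 1 * ⁅1, x.val⁆ ^ n = x.val; simp)
  inv_mul_cancel x := BT.ext (by
    change x.val⁻¹ * x.val * ⁅x.val, x.val⁻¹⁆ ^ n = 1
    simp [commutatorElement_def])
  mul_comm x y := BT.ext (h.swap _ _)

end Cl

theorem exists_rho [Finite K] {A : Subgroup K} (hA : A ≤ Subgroup.center K)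
    (hc : ∀ x y : K, ⁅x, y⁆ ∈ A) {m : ℕ} (hm : Odd m) (hp : ∀ x : K, x ^ m ∈ A)
    {E : Subgroup (MulAut K)} (hE : ∀ e ∈ E, ∀ a ∈ A, e a = a) (hcop : m.Coprime (Nat.card E))
    (hf : ∀ x, (∀ e ∈ E, e x = x) → x ∈ A) : ∃ ρ : K → K, (∀ x, ρ x ∈ A) ∧ (∀ a ∈ A, ρ a = a) ∧
      (∀ x y, ρ (x * y) ^ 2 * ⁅y, x⁆ = ρ x ^ 2 * ρ y ^ 2) ∧
      (∀ β ∈ Subgroup.normalizer (E : Set (MulAut K)), (∀ a ∈ A, β a = a) → ∀ x, ρ (β x) = ρ x) ∧
      ∀ (Z : Subgroup K) (l : Z →* ℂˣ),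
        (∀ e ∈ E, ∀ z : Z, ∃ h : e z ∈ Z, l ⟨_, h⟩ = l z) → ∀ (z : Z) (h : ρ z ∈ Z), l ⟨_, h⟩ = l z := by
  classical
  obtain ⟨k, rfl⟩ := hm
  have hcl : ∀ x y z : K, ⁅x * y, z⁆ = ⁅x, z⁆ * ⁅y, z⁆ := fun x y z => by
    have h1 : ⁅x * y, z⁆ = x * ⁅y, z⁆ * x⁻¹ * ⁅x, z⁆ := by
      simp only [commutatorElement_def]; group
    rw [h1, Subgroup.mem_center_iff.1 (hA (hc y z)) x, mul_inv_cancel_right,
      Subgroup.mem_center_iff.1 (hA (hc y z))]
  have hpow : ∀ (x y : K) (i : ℕ), ⁅x ^ i, y⁆ = ⁅x, y⁆ ^ i := fun x y i => by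
    induction i with
    | zero => simp
    | succ i ih => rw [pow_succ, hcl, ih, pow_succ]
  have h : Cl K (k + 1) := ⟨fun x y => hA (hc x y), fun x y => by
    rw [← pow_add, show k + 1 + (k + 1) = 2 * k + 1 + 1 by ring, pow_succ, ← hpow,
      Cl.cen_left (hA (hp x)), one_mul]⟩
  let _ := h.commGroup
  have hmul : ∀ x y : BT K (k + 1), (x * y).val = x.val * y.val * ⁅y.val, x.val⁆ ^ (k + 1) :=
    fun _ _ => rfl
  have hpw : ∀ (x : BT K (k + 1)) (i : ℕ), (x ^ i).val = x.val ^ i := fun x i => by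
    induction i with
    | zero => rw [pow_zero, pow_zero]; rfl
    | succ i ih =>
      rw [pow_succ, hmul, ih, commutatorElement_eq_one_iff_commute.2 (Commute.self_pow _ _),
        one_pow, mul_one, pow_succ]
  let act : MulAut K → BT K (k + 1) →* BT K (k + 1) := fun β =>
    MonoidHom.mk' (fun x => ⟨β x.val⟩) fun x y => BT.ext (by
      simp only [hmul, map_mul, map_pow, map_commutatorElement])
  let sub : Subgroup K → Subgroup (BT K (k + 1)) := fun Z =>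
    { carrier := {x | x.val ∈ Z}
      mul_mem' := fun {x y} hx hy => Z.mul_mem (Z.mul_mem hx hy) (Z.pow_mem
        (Z.mul_mem (Z.mul_mem (Z.mul_mem hy hx) (Z.inv_mem hy)) (Z.inv_mem hx)) _)
      one_mem' := Z.one_mem
      inv_mem' := fun hx => Z.inv_mem hx }
  have := Fintype.ofFinite E
  let N : BT K (k + 1) →* BT K (k + 1) := ∏ e : E, act e
  have hN : ∀ x, N x = ∏ e : E, act e x := fun x => MonoidHom.finsetProd_apply _ _ _
  have hN1 : ∀ β ∈ Subgroup.normalizer (E : Set (MulAut K)), ∀ x,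
      N (act β x) = act β (N x) := fun β hβ x => by
    rw [hN, hN, map_prod]
    refine (Fintype.prod_equiv (E.normalizerMonoidHom ⟨β, hβ⟩).toEquiv _ _ fun e => BT.ext ?_).symm
    change β (e.1 x.val) = (β * e * β⁻¹) (β x.val)
    simp
  have hN2 : ∀ x, N x ∈ sub A := fun x => hf _ fun e he => by
    change (act e (N x)).val = (N x).val
    rw [hN, map_prod]
    exact congrArg BT.val (Fintype.prod_equiv (Equiv.mulLeft (⟨e, he⟩ : E)) _ _ fun _ => rfl)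
  have hfix : ∀ β : MulAut K, (∀ a ∈ A, β a = a) → ∀ x ∈ sub A, act β x = x :=
    fun β hβ x hx => BT.ext (hβ _ hx)
  obtain ⟨u, v, huv⟩ := Nat.isCoprime_iff_coprime.2 hcop
  let r : BT K (k + 1) →* BT K (k + 1) := powMonoidHom (2 * k + 1) ^ u * N ^ v
  have hr : ∀ x, r x = (x ^ (2 * k + 1)) ^ u * N x ^ v := fun x => by
    simp only [r, MonoidHom.mul_apply, MonoidHom.zpow_apply, powMonoidHom_apply]
  have hP : ∀ x : BT K (k + 1), x ^ (2 * k + 1) ∈ sub A := fun x => by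
    change (x ^ (2 * k + 1)).val ∈ A
    rw [hpw]; exact hp _
  have hr1 : ∀ x, r x ∈ sub A := fun x =>
    hr x ▸ mul_mem (zpow_mem (hP x) _) (zpow_mem (hN2 x) _)
  have hpw2 : ∀ {B : Type _} [CommGroup B] (b : B),
      (b ^ (2 * k + 1)) ^ u * (b ^ Nat.card E) ^ v = b := fun b => by
    rw [← zpow_natCast, ← zpow_natCast, ← zpow_mul, ← zpow_mul, ← zpow_add, mul_comm _ u,
      mul_comm _ v, huv, zpow_one]
  have hpw3 : ∀ b : ℂˣ, (b ^ (2 * k + 1)) ^ u * (b ^ Nat.card E) ^ v = b := fun b => by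
    rw [← zpow_natCast, ← zpow_natCast, ← zpow_mul, ← zpow_mul, ← zpow_add, mul_comm _ u,
      mul_comm _ v, huv, zpow_one]
  have hr2 : ∀ x ∈ sub A, r x = x := fun x hx => by
    rw [hr, hN, Finset.prod_congr rfl fun (e : E) _ => hfix e (hE _ e.2) x hx, Finset.prod_const,
      Finset.card_univ, ← Nat.card_eq_fintype_card, hpw2]
  have hA1 : ∀ x y : BT K (k + 1), y ∈ sub A → (x * y).val = x.val * y.val := fun x y hy => by
    rw [hmul, Cl.cen_left (hA hy), one_pow, mul_one]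
  refine ⟨fun x => (r ⟨x⟩).val, fun x => hr1 _, fun a ha => congrArg BT.val (hr2 ⟨a⟩ ha),
    fun x y => ?_, fun β hβ hβ' x => ?_, fun Z l hl z hz => ?_⟩
  · have h1 : (⟨⁅y, x⁆ ^ (k + 1)⟩ : BT K (k + 1)) ∈ sub A := pow_mem (hc y x) _
    have h2 : (⟨x⟩ * ⟨y⟩ : BT K (k + 1)) = ⟨x * y⟩ * ⟨⁅y, x⁆ ^ (k + 1)⟩ := BT.ext (hA1 _ _ h1).symm
    have h3 := congrArg (fun w => (r w).val) h2
    simp only [map_mul, hr2 _ h1, hA1 _ _ h1, hA1 _ _ (hr1 _)] at h3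
    have h4 : Commute (r ⟨x⟩).val (r ⟨y⟩).val := Subgroup.mem_center_iff.1 (hA (hr1 _)) _
    rw [← h4.mul_pow, h3, ((h.comm y x _).pow_left _).symm.mul_pow, sq (_ ^ (k + 1)), h.sq]
  · change (r (act β ⟨x⟩)).val = (r ⟨x⟩).val
    rw [hr, hr, hN1 β hβ, ← map_pow, hfix β hβ' _ (hP _), hfix β hβ' _ (hN2 _)]
  · let F : sub Z →* ℂˣ := MonoidHom.mk' (fun x => l ⟨x.1.val, x.2⟩) fun x y => by
      have h1 : (⟨(x * y).1.val, (x * y).2⟩ : Z) = ⟨x.1.val, x.2⟩ * ⟨y.1.val, y.2⟩ *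
          ⁅(⟨y.1.val, y.2⟩ : Z), (⟨x.1.val, x.2⟩ : Z)⁆ ^ (k + 1) := rfl
      rw [h1, map_mul, map_mul, map_pow, map_commutatorElement,
        commutatorElement_eq_one_iff_mul_comm.2 (mul_comm _ _), one_pow, mul_one]
    let w : sub Z := ⟨⟨z⟩, z.2⟩
    let w' : E → sub Z := fun e => ⟨act e w, (hl e e.2 z).1⟩
    have h1 : (⟨r ⟨z⟩, hz⟩ : sub Z) = (w ^ (2 * k + 1)) ^ u * (∏ e, w' e) ^ v := Subtype.ext (by
      simp only [hr, hN, Subgroup.coe_mul, Subgroup.coe_zpow, Subgroup.coe_pow,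
        SubmonoidClass.coe_finsetProd, w, w'])
    change F ⟨r ⟨z⟩, hz⟩ = F w
    rw [h1, map_mul, map_zpow, map_zpow, map_pow, map_prod,
      Finset.prod_congr rfl fun e _ => show F (w' e) = F w from (hl e e.2 z).2, Finset.prod_const,
      Finset.card_univ, ← Nat.card_eq_fintype_card, hpw3]

theorem exists_tau0 [Finite K] {A : Subgroup K} (hA : A ≤ Subgroup.center K)
    (hc : ∀ x y : K, ⁅x, y⁆ ∈ A) {m : ℕ} (hm : Odd m) (hp : ∀ x : K, x ^ m ∈ A)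
    {E : Subgroup (MulAut K)} (hE : ∀ e ∈ E, ∀ a ∈ A, e a = a) (hcop : m.Coprime (Nat.card E))
    (hf : ∀ x, (∀ e ∈ E, e x = x) → x ∈ A) : ∃ τ : K →* K, (∀ x, τ (τ x) = x) ∧
      (∀ a ∈ A, τ a = a) ∧ (∀ x, τ x * x ∈ A) ∧
      (∀ β ∈ Subgroup.normalizer (E : Set (MulAut K)), (∀ a ∈ A, β a = a) →
        ∀ x, τ (β x) = β (τ x)) ∧
      ∀ θ, IsIrrCharacter K θ → (∀ e ∈ E, ∀ x, θ (e x) = θ x) → ∀ x, θ (τ x) = θ x := by
  obtain ⟨ρ, h1, h2, h3, h4, h5⟩ := exists_rho hA hc hm hp hE hcop hf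
  have h6 : ∀ x y, y * ρ x ^ 2 = ρ x ^ 2 * y := fun x =>
    Subgroup.mem_center_iff.1 (hA (pow_mem (h1 x) 2))
  let τ : K →* K := MonoidHom.mk' (fun x => ρ x ^ 2 * x⁻¹) fun x y => by
    rw [mul_assoc, ← mul_assoc x⁻¹, h6, ← mul_assoc, ← mul_assoc, ← h3, mul_assoc, mul_assoc]
    congr 1
    rw [← Subgroup.mem_center_iff.1 (hA (hc y x)), commutatorElement_def]
    group
  have hτ : ∀ x, τ x = ρ x ^ 2 * x⁻¹ := fun _ => rfl
  have hτA : ∀ a ∈ A, τ a = a := fun a ha => by rw [hτ, h2 a ha, sq, mul_inv_cancel_right]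
  refine ⟨τ, fun x => ?_, hτA, fun x => by simpa [hτ] using pow_mem (h1 x) 2,
    fun β hβ hβ' x => by rw [hτ, hτ, h4 β hβ hβ', map_mul, map_inv, hβ' _ (pow_mem (h1 x) 2)],
    fun θ hθ hi x => ?_⟩
  · rw [hτ x, map_mul, map_inv, hτA _ (pow_mem (h1 x) 2), hτ, ← h6]
    group
  have hZ := hA.trans hθ.center_le_charCenter
  by_cases hx : x ∈ charCenter θ
  · obtain ⟨l, hl⟩ := exists_hom_of_le_charCenter hθ.ne_zero (Z := charCenter θ) le_rfl
    have h7 : ∀ z : charCenter θ, θ z = l z * θ 1 := fun z => by rw [← hl, mul_one]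
    have h8 := h5 _ l (fun e he z => ⟨by
      rw [hθ.mem_charCenter, hi e he, ← hθ.mem_charCenter]; exact z.2, Units.ext
        (mul_right_cancel₀ hθ.apply_one_ne_zero (by rw [← h7, ← h7]; exact hi e he z))⟩)
      ⟨x, hx⟩ (hZ (h1 x))
    have h9 := h7 (⟨_, hZ (h1 x)⟩ ^ 2 * ⟨x, hx⟩⁻¹)
    rw [map_mul, map_pow, map_inv, h8, sq (l _), mul_inv_cancel_right, ← h7] at h9
    exact h9
  · rw [hθ.eq_zero_of_commutators hx fun y => hZ (hc y x),
      hθ.eq_zero_of_commutators (fun h => hx ?_) fun y => hZ (hc y _)]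
    simpa [hτ] using mul_mem (inv_mem h) (hZ (pow_mem (h1 x) 2))

theorem exists_tau {Λ : Type*} [Group Λ] [Finite Λ] {A K M S : Subgroup Λ} [K.Normal]
    (hA : A ≤ Subgroup.center Λ) (hc : ∀ x ∈ K, ∀ y ∈ K, x * y * x⁻¹ * y⁻¹ ∈ A)
    (hKM : K ⊔ M = ⊤) (hM : K ⊓ M ≤ A) (hMS : M ≤ Subgroup.normalizer (S : Set Λ))
    (hodd : Odd (A.relIndex K)) (hcop : (A.relIndex K).Coprime (A.relIndex S))
    (hf : ∀ k ∈ K, (∀ s ∈ S, s * k * s⁻¹ = k) → k ∈ A) : ∃ τ : MulAut Λ, τ * τ = 1 ∧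
      (∀ x ∈ M, τ x = x) ∧ (∀ k ∈ K, τ k * k ∈ A) ∧ ∀ θ : K → ℂ, IsIrrCharacter K θ →
        (∀ s ∈ S, ∀ k k' : K, (k' : Λ) = s * k * s⁻¹ → θ k' = θ k) →
        ∀ k k' : K, (k' : Λ) = τ k → θ k' = θ k := by
  have hA' : A.subgroupOf K ≤ Subgroup.center K := fun a ha =>
    Subgroup.mem_center_iff.2 fun y => Subtype.ext (Subgroup.mem_center_iff.1 (hA ha) y)
  have hn : (A.subgroupOf K).Normal := ⟨fun a ha y => by
    rwa [Subgroup.mem_center_iff.1 (hA' ha) y, mul_inv_cancel_right]⟩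
  have hfix : ∀ g : Λ, ∀ a ∈ A.subgroupOf K, MulAut.conjNormal g a = a := fun g a ha =>
    Subtype.ext (by
      rw [MulAut.conjNormal_apply, show g * a = a * g from Subgroup.mem_center_iff.1 (hA ha) g,
        mul_inv_cancel_right])
  obtain ⟨τ, h1, h2, h3, h4, h5⟩ := exists_tau0 hA' (fun x y => hc x x.2 y y.2) hodd
    (A.subgroupOf K).pow_index_mem (E := S.map (MulAut.conjNormal (H := K)))
    (by rintro _ ⟨s, -, rfl⟩; exact hfix s)
    (hcop.coprime_dvd_right (by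
      rw [← Subgroup.relIndex_ker]
      refine Subgroup.relIndex_dvd_of_le_left _ fun a ha => MulEquiv.ext fun y => Subtype.ext ?_
      rw [MulAut.conjNormal_apply, ← Subgroup.mem_center_iff.1 (hA ha) y, mul_inv_cancel_right]
      rfl))
    fun x hx => hf x x.2 fun s hs => congrArg Subtype.val (hx _ ⟨s, hs, rfl⟩)
  have h6 : ∀ g : Λ, ∃ k : K, ∃ m ∈ M, k * m = g := fun g => by
    obtain ⟨k, hk, m, hm, h⟩ := Subgroup.mem_sup_of_normal_left.1 (hKM.ge (Subgroup.mem_top g))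
    exact ⟨⟨k, hk⟩, m, hm, h⟩
  choose f g hg hfg using h6
  have h7 : ∀ (k : K), ∀ m ∈ M, τ (f (k * m)) * g (k * m) = τ k * m := fun k m hm => by
    have h8 : ((k⁻¹ * f (k * m) : K) : Λ) = m * (g (k * m))⁻¹ := by
      rw [eq_mul_inv_iff_mul_eq, Subgroup.coe_mul, mul_assoc, hfg]; simp
    have h10 : ((k⁻¹ * f (k * m) : K) : Λ) ∈ M := h8 ▸ mul_mem hm (inv_mem (hg _))
    have h9 := congrArg Subtype.val (h2 (k⁻¹ * f (k * m)) (hM ⟨(k⁻¹ * f (k * m)).2, h10⟩))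
    rw [h8, map_mul, map_inv, Subgroup.coe_mul, Subgroup.coe_inv, inv_mul_eq_iff_eq_mul] at h9
    rw [h9]
    group
  let t : Λ →* Λ := MonoidHom.mk' (fun x => τ (f x) * g x) fun x y => by
    have h8 : x * y = (f x * MulAut.conjNormal (g x) (f y) : K) * (g x * g y) := by
      conv_lhs => rw [← hfg x, ← hfg y]
      simp [mul_assoc]
    rw [h8, h7 _ _ (mul_mem (hg x) (hg y)), map_mul,
      h4 _ (Subgroup.le_normalizer_map _ ⟨_, hMS (hg x), rfl⟩) (hfix _)]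
    simp [mul_assoc]
  have ht : ∀ (k : K), ∀ m ∈ M, t (k * m) = τ k * m := h7
  have ht1 : ∀ k : K, t k = τ k := fun k => by simpa using ht k 1 M.one_mem
  have ht2 : ∀ x, t (t x) = x := fun x => by rw [← hfg x, ht _ _ (hg x), ht _ _ (hg x), h1]
  refine ⟨MonoidHom.toMulEquiv t t (MonoidHom.ext ht2) (MonoidHom.ext ht2), MulEquiv.ext ht2,
    fun x hx => by simpa using ht 1 x hx, fun k hk => ?_, fun θ hθ hi k k' hk => ?_⟩
  · change t (⟨k, hk⟩ : K) * k ∈ A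
    rw [ht1]
    exact h3 ⟨k, hk⟩
  · obtain rfl : k' = τ k := Subtype.ext (hk.trans (ht1 k))
    refine h5 θ hθ ?_ k
    rintro _ ⟨s, hs, rfl⟩ x
    exact hi s hs _ _ rfl

end H34.Isa
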