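/- The Isaacs correspondence, part 2: the central case and character triples. -/
import Cfsg.Agent.H34.IsaA
import Cfsg.Agent.H32.McD
import Cfsg.Agent.H32.McB
import Cfsg.Agent.H32.Cover

set_option autoImplicit false
set_option linter.unusedSectionVars false
open scoped ComplexConjugate

namespace H34.Isa

open Cfsg H28 H32 H40

section central

variable {Ω : Type*} [Group Ω] [Finite Ω]

/-- Invariant irreducible characters. -/
def II (G S : Subgroup Ω) (χ : G → ℂ) : Prop := IsIrrCharacter G χ ∧ InvAll G S χ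

theorem comm_mem_sup {K H : Subgroup Ω} (hH : H ≤ Nm K) {x : Ω} (hx : x ∈ Nm K)
    (h : ∀ y ∈ H, x * y * x⁻¹ * y⁻¹ ∈ K) : ∀ g ∈ K ⊔ H, x * g * x⁻¹ * g⁻¹ ∈ K := fun g hg => by
  obtain ⟨k, hk, y, hy, rfl⟩ := exists_mul_of_mem_sup hH hg
  rw [show x * (k * y) * x⁻¹ * (k * y)⁻¹ = x * k * x⁻¹ * (x * y * x⁻¹ * y⁻¹) * k⁻¹ by group]
  exact mul_mem (mul_mem ((Subgroup.mem_normalizer_iff.1 hx k).1 hk) (h y hy)) (inv_mem hk)

theorem central {A K G H S : Subgroup Ω} {t : Ω} (ht : t ^ 2 = 1) (hAK : A ≤ K) (hAH : A ≤ H)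
    (hHG : H ≤ G) (hG : G = K ⊔ H) (hHK : H ≤ Nm K) (hSK : S ≤ Nm K)
    (hA : ∀ a ∈ A, ∀ g ∈ G ⊔ S, g * a * g⁻¹ = a) (htH : ∀ x ∈ H ⊔ S, t * x * t⁻¹ = x)
    (htK : ∀ k ∈ K, t * k * t⁻¹ * k ∈ A) (hSH : ∀ s ∈ S, ∀ y ∈ H, s * y * s⁻¹ * y⁻¹ ∈ A)
    (hodd : Odd (A.relIndex G)) (hcop : (A.relIndex S).Coprime (A.relIndex G))
    (hinv : ∀ θ : K → ℂ, II K S θ → InvBy K t θ) :
    Bij (II G S) (II H S) fun χ ψ => Odd (mult hHG χ ψ) := by
  have hKG : K ≤ G := hG ▸ le_sup_left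
  have hGK : G ≤ Nm K := hG ▸ sup_le Subgroup.le_normalizer hHK
  have hNA : G ⊔ S ≤ Nm A := fun g hg => mem_Nm_of_conj_le fun a ha => by rwa [hA a ha g hg]
  have hGA := le_sup_left.trans hNA
  have hSA := le_sup_right.trans hNA
  have hP : IsPGroup 2 (Subgroup.zpowers t) := IsPGroup.of_card_dvd_pow (n := 1) (by
    rw [Nat.card_zpowers, pow_one]; exact orderOf_dvd_of_pow_eq_one ht)
  have hPH : ∀ x ∈ Subgroup.zpowers t, ∀ y ∈ H ⊔ S, x * y * x⁻¹ = y := by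
    rintro _ ⟨n, rfl⟩ y hy
    exact mul_inv_eq_iff_eq_mul.2 (Commute.zpow_left (mul_inv_eq_iff_eq_mul.1 (htH y hy)) n)
  have htK' : t ∈ Nm K := mem_Nm_of_conj_le fun k hk => by
    simpa using mul_mem (hAK (htK k hk)) (inv_mem hk)
  have hPK : Subgroup.zpowers t ≤ Nm K := Subgroup.zpowers_le.2 htK'
  have hPN : ∀ {U : Subgroup Ω}, U ≤ H → Subgroup.zpowers t ≤ Nm U := fun hU x hx =>
    mem_Nm_of_conj_le fun y hy => by rwa [hPH x hx y (Subgroup.mem_sup_left (hU hy))]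
  have hPG : Subgroup.zpowers t ≤ Nm G := hG ▸ (le_inf hPK (hPN le_rfl)).trans Nm_inf_le_Nm_sup
  have hfix : ∀ k ∈ K, t * k * t⁻¹ * k⁻¹ ∈ A → k ∈ A := fun k hk h =>
    mem_of_pow_mem_of_coprime (Nat.coprime_two_left.2 hodd) (by
      convert mul_mem (inv_mem h) (htK k hk) using 1
      rw [sq]; group) (pow_relIndex_mem' hGA (hKG hk))
  have hone : ∀ x ∈ Subgroup.zpowers t, ∀ y ∈ H, x * y * x⁻¹ * y⁻¹ ∈ A := fun x hx y hy => by
    rw [hPH x hx y (Subgroup.mem_sup_left hy), mul_inv_cancel]; exact A.one_mem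
  have h2 : ¬ 2 ∣ A.relIndex G := hodd.not_two_dvd_nat
  have PG : PCorr 2 (Subgroup.zpowers t) hHG := pCorr_of_fix (hAK.trans hKG) hGA h2 _ hP hPG
    (hPN hAH) hHG fun g => ⟨fun hg => ⟨hHG hg, fun x hx => hone x hx g hg⟩, fun ⟨hg, h⟩ => by
      obtain ⟨k, hk, y, hy, rfl⟩ := exists_mul_of_mem_sup hHK (hG ▸ hg)
      refine mul_mem (hAH (hfix k hk ?_)) hy
      convert h t (Subgroup.mem_zpowers t) using 1
      conv_rhs => rw [show t * (k * y) * t⁻¹ = t * k * t⁻¹ * (t * y * t⁻¹) by group,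
        htH y (Subgroup.mem_sup_left hy)]
      group⟩
  have PK : PCorr 2 (Subgroup.zpowers t) hAK := pCorr_of_fix hAK (hKG.trans hGA)
    (fun h => h2 (h.trans (relIndex_dvd_of_le_norm hKG hGA))) _ hP hPK (hPN hAH) hAK
    fun g => ⟨fun hg => ⟨hAK hg, fun x hx => hone x hx g (hAH hg)⟩,
      fun ⟨hg, h⟩ => hfix g hg (h t (Subgroup.mem_zpowers t))⟩
  have hAS : ∀ β : A → ℂ, InvAll A S β := fun β s hs =>
    invBy_of_centralizes β fun a ha => hA a ha s (Subgroup.mem_sup_right hs)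
  have hK : ∀ θ, IsIrrCharacter K θ → (InvAll K S θ ↔ InvAll K (Subgroup.zpowers t) θ) :=
    fun θ hθ => ⟨fun h => invAll_zpowers htK' (hinv θ ⟨hθ, h⟩), fun h s hs => by
      obtain ⟨β, hβ, h3, h4⟩ := PK.ex_right hθ h
      refine PK.invBy_left hθ hβ h h3 h4 (hSK hs) (hSA hs) (h.cjn (hSK hs) ?_) (hAS β s hs)
      refine mem_Nm_of_conj_le fun x hx => ?_
      rwa [← mul_inv_eq_iff_eq_mul.1 (hPH x hx s (Subgroup.mem_sup_right hs)),
        mul_inv_cancel_right]⟩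
  have hd := Subgroup.relIndex_dvd_of_le_left G hAK
  have hGi : ∀ χ, II G S χ ↔ IsIrrCharacter G χ ∧ InvAll G (Subgroup.zpowers t) χ := fun χ =>
    and_congr_right fun hχ => by
      obtain ⟨θ, hθ, h3⟩ := exists_mult_under hKG hχ
      rw [invAll_iff_of_over le_rfl hKG hGK hSK
          (fun s hs => hG ▸ comm_mem_sup hHK (hSK hs) fun y hy => hAK (hSH s hs y hy))
          ((hcop.coprime_dvd_left (Subgroup.relIndex_dvd_of_le_left S hAK)).coprime_dvd_right hd)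
          hχ hθ h3, hK θ hθ, invAll_iff_of_over le_rfl hKG hGK hPK
          (fun s hs => hG ▸ comm_mem_sup hHK (hPK hs) fun y hy => hAK (hone s hs y hy))
          (((Nat.coprime_two_left.2 hodd).coprime_dvd_left
            ((Subgroup.relIndex_dvd_card _ _).trans (by
              rw [Nat.card_zpowers]; exact orderOf_dvd_of_pow_eq_one ht))).coprime_dvd_right hd)
          hχ hθ h3]
  have hHi : ∀ ψ, II H S ψ ↔ IsIrrCharacter H ψ ∧ InvAll H (Subgroup.zpowers t) ψ := fun ψ =>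
    and_congr_right fun hψ => by
      obtain ⟨β, hβ, h3⟩ := exists_mult_under hAH hψ
      exact iff_of_true ((invAll_iff_of_over le_rfl hAH (hHG.trans hGA) hSA hSH
        (hcop.coprime_dvd_right (relIndex_dvd_of_le_norm hHG hGA)) hψ hβ h3).2 (hAS β))
        fun x hx => invBy_of_centralizes ψ fun y hy => hPH x hx y (Subgroup.mem_sup_left hy)
  refine Bij.congr (R := fun χ ψ => (mult hHG χ ψ : ZMod 2) ≠ 0) ⟨fun χ h => ?_,
    fun _ _ _ h1 h2 h3 => PG.uniq_right h1.1 h2.1 h3.1 h1.2 h2.2 h3.2, fun ψ h => ?_,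
    fun _ _ _ h1 h2 h3 => PG.uniq_left h1.1 h2.1 h3.1 h1.2 h2.2 h3.2⟩ hGi hHi
    fun _ _ => ZMod.natCast_ne_zero_iff_odd.symm
  · obtain ⟨β, h1, h2, h3⟩ := PG.ex_right h.1 h.2
    exact ⟨β, ⟨h1, h2⟩, h3⟩
  · obtain ⟨β, h1, h2, h3⟩ := PG.ex_left h.1 h.2
    exact ⟨β, ⟨h1, h2⟩, h3⟩

end central

theorem omega_eq {Y : Type*} [Group Y] [Fintype Y] {α γ : Y → ℂ} {z : Y} {a b : ℂ}
    (h1 : ∀ y, α (z * y) = a * α y) (h2 : ∀ y, γ (z * y) = b * γ y) (h3 : classInner α γ ≠ 0)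
    (h4 : classInner γ γ ≠ 0) : a = b := by
  have key : ∀ {α : Y → ℂ} {a : ℂ}, (∀ y, α (z * y) = a * α y) → classInner α γ ≠ 0 →
      a * conj b = 1 := fun {α a} h1 h3 => by
    have h5 := classInner_comp_equiv (Equiv.mulLeft z) α γ
    simp only [Equiv.coe_mulLeft, h1, h2] at h5
    rw [show (fun y => a * α y) = a • α from rfl, show (fun y => b * γ y) = b • γ from rfl,
      classInner_smul_left, classInner_smul_right, ← mul_assoc] at h5
    exact (mul_eq_right₀ h3).1 h5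
  exact mul_right_cancel₀ (right_ne_zero_of_mul_eq_one (key h2 h4)) ((key h1 h3).trans (key h2 h4).symm)

theorem exists_desc {E Q : Type*} [Group E] [Group Q] [Finite E] (f : E →* Q)
    (hf : Function.Surjective f) {ψ : E → ℂ} (hψ : IsIrrCharacter E ψ) (h : f.ker ≤ charKer ψ) :
    ∃ χ, IsIrrCharacter Q χ ∧ ∀ x, χ (f x) = ψ x := by
  obtain ⟨η, h1, h2⟩ := hψ.exists_quotient f.ker h
  refine ⟨_, h1.comp_mulEquiv (QuotientGroup.quotientKerEquivOfSurjective f hf).symm, fun x => ?_⟩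
  rw [← h2]
  congr 1
  exact (MulEquiv.symm_apply_eq _).2 rfl

section triple

variable {D Γ Ω : Type*} [Group D] [Group Γ] [Group Ω] [Finite D] [Finite Γ] [Finite Ω]

/-- The subgroup of `Ω` attached to a subgroup of `Γ`. -/
abbrev up (π : D →* Γ) (j : D →* Ω) (X : Subgroup Γ) : Subgroup Ω := (X.comap π).map j

/-- An isomorphism of character triples. -/
structure Tri (π : D →* Γ) (j : D →* Ω) {L : Subgroup Γ} (φ : L → ℂ) (ν : L →* D) (th : D → ℂ)
    {Z : Subgroup D} (lam : Z →* ℂˣ) : Prop where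
  irr : IsIrrCharacter L φ
  ch : IsCharacter D th
  πν : ∀ l, π (ν l) = l
  kerj : ∀ x, j x = 1 ↔ x ∈ ν.range
  thν : ∀ l, th (ν l) = φ l
  kerπ : ∀ x, π x = 1 ↔ x ∈ Z
  cen : Z ≤ Subgroup.center D
  mul : ∀ (a : Z) x, th (a * x) = lam a * th x

variable (π : D →* Γ) (j : D →* Ω) (th : D → ℂ) {Z : Subgroup D} (lam : Z →* ℂˣ)

/-- Corresponding functions. -/
def Rel (X : Subgroup Γ) (χ : X → ℂ) (β : up π j X → ℂ) : Prop :=
  ∀ x : X.comap π, χ (π.subgroupComap X x) = β (j.subgroupMap _ x) * th x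

/-- Lying over the central character. -/
def Ov (U : Subgroup Ω) (β : U → ℂ) : Prop :=
  ∀ (a : Z) (y y' : U), (y' : Ω) = j a * y → lam a * β y' = β y

variable {π j th lam} {L X Y S : Subgroup Γ} {φ : L → ℂ} {ν : L →* D}

theorem comap_surj (hX : X ≤ π.range) : Function.Surjective (π.subgroupComap X) := fun x => by
  obtain ⟨y, hy⟩ := hX x.2
  exact ⟨⟨y, by rw [Subgroup.mem_comap, hy]; exact x.2⟩, Subtype.ext hy⟩

theorem up_Nm (h : S ≤ Nm X) : up π j S ≤ Nm (up π j X) :=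
  (Subgroup.map_mono (comap_le_Nm h)).trans (Subgroup.le_normalizer_map j)

theorem Rel.res (h : Y ≤ X) {χ : X → ℂ} {β : up π j X → ℂ} (hr : Rel π j th X χ β) :
    Rel π j th Y (res h χ) (res (Subgroup.map_mono (Subgroup.comap_mono h)) β) :=
  fun x => hr ⟨x, h x.2⟩

namespace Tri

variable (T : Tri π j φ ν th lam)
include T

theorem mem_up (hL : L ≤ X) {x : D} : j x ∈ up π j X ↔ π x ∈ X := by
  refine ⟨fun ⟨y, hy, h⟩ => ?_, fun h => ⟨x, h, rfl⟩⟩
  obtain ⟨l, hl⟩ := (T.kerj (y⁻¹ * x)).1 (by rw [map_mul, map_inv, h, inv_mul_cancel])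
  rw [show x = y * ν l by rw [hl, mul_inv_cancel_left], map_mul, T.πν]
  exact mul_mem hy (hL l.2)

theorem relIndex_up (hL : L ≤ X) (hX : X ≤ π.range) :
    (up π j L).relIndex (up π j X) = L.relIndex X := by
  have h1 : ∀ {U : Subgroup Γ}, L ≤ U → U.comap π ⊔ j.ker = U.comap π := fun hU =>
    sup_eq_left.2 fun x hx => (T.mem_up hU).1 (by rw [MonoidHom.mem_ker.1 hx]; exact one_mem _)
  rw [Subgroup.relIndex_map_map, h1 le_rfl, h1 hL, Subgroup.relIndex_comap,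
    Subgroup.map_comap_eq_self hX]

theorem exists_data (hL : L ≤ X) : ∃ (ι : L →* X.comap π) (_ : ι.range.Normal)
    (e : (X.comap π ⧸ ι.range) ≃* up π j X), Function.Injective ι ∧ (∀ l, (ι l : D) = ν l) ∧
      ∀ x : X.comap π, e x = j.subgroupMap _ x := by
  let ι : L →* X.comap π := ν.codRestrict _ fun l => by
    rw [Subgroup.mem_comap, T.πν]; exact hL l.2
  have h1 : ι.range = (j.subgroupMap (X.comap π)).ker := Subgroup.ext fun x =>
    ⟨fun ⟨l, hl⟩ => Subtype.ext ((T.kerj _).2 ⟨l, congrArg Subtype.val hl⟩), fun hx => by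
      obtain ⟨l, hl⟩ := (T.kerj x).1 (congrArg Subtype.val hx)
      exact ⟨l, Subtype.ext hl⟩⟩
  have h2 : ι.range.Normal := h1 ▸ inferInstance
  refine ⟨ι, h2, (QuotientGroup.quotientMulEquivOfEq h1).trans
    (QuotientGroup.quotientKerEquivOfSurjective _ (j.subgroupMap_surjective _)),
    fun a b h => Subtype.ext ?_, fun _ => rfl, fun _ => rfl⟩
  rw [← T.πν a, ← T.πν b]
  exact congrArg (fun x : X.comap π => π x) h

theorem inner (hL : L ≤ X) (hX : X ≤ π.range) [Fintype X] [Fintype (up π j X)] {χ χ' : X → ℂ}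
    {β β' : up π j X → ℂ} (h : Rel π j th X χ β) (h' : Rel π j th X χ' β') :
    classInner χ χ' = classInner β β' := by
  have := Fintype.ofFinite (X.comap π)
  have := Fintype.ofFinite L
  obtain ⟨ι, hn, e, h1, h2, h3⟩ := T.exists_data hL
  have := Fintype.ofFinite (X.comap π ⧸ ι.range)
  rw [← classInner_comp_surjective _ (comap_surj hX), funext h, funext h',
    ← classInner_comp_equiv e.toEquiv, ← classInner_gallagher ι h1 (T.ch.comp (X.comap π).subtype)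
      (by simpa only [Subgroup.coe_subtype, h2, T.thν] using T.irr)]
  simp only [← h3]
  rfl

theorem mult_eq (hL : L ≤ Y) (h : Y ≤ X) (hX : X ≤ π.range) {χ : X → ℂ} {β : up π j X → ℂ}
    {ψ : Y → ℂ} {γ : up π j Y → ℂ} (hβ : IsCharacter _ β) (hγ : IsCharacter _ γ)
    (h1 : Rel π j th X χ β) (h2 : Rel π j th Y ψ γ) :
    mult h χ ψ = mult (Subgroup.map_mono (Subgroup.comap_mono h)) β γ := by
  have := Fintype.ofFinite Y
  have := Fintype.ofFinite (up π j Y)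
  exact H40.mult_eq h ((T.inner hL (h.trans hX) (h1.res h) h2).trans (mult_spec _ hβ hγ))

theorem eq_iff (hL : L ≤ X) (hX : X ≤ π.range) {χ χ' : X → ℂ} {β β' : up π j X → ℂ}
    (hχ : IsIrrCharacter X χ) (hβ : IsIrrCharacter _ β) (hβ' : IsIrrCharacter _ β')
    (h : Rel π j th X χ β) (h' : Rel π j th X χ' β') : χ = χ' ↔ β = β' := by
  have := Fintype.ofFinite X
  have := Fintype.ofFinite (up π j X)
  refine ⟨fun e => hβ.eq_of_classInner_ne_zero hβ' ?_, fun e => funext fun x => ?_⟩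
  · rw [← T.inner hL hX h h', ← e, hχ.classInner_self]; exact one_ne_zero
  · obtain ⟨y, rfl⟩ := comap_surj hX x
    rw [h, h', e]

theorem invAll_iff (hL : L ≤ X) (hX : X ≤ π.range) (hS : S ≤ π.range) (hSX : S ≤ Nm X)
    {χ : X → ℂ} {β : up π j X → ℂ} (hχ : IsIrrCharacter X χ) (hβ : IsIrrCharacter _ β)
    (h : Rel π j th X χ β) : InvAll X S χ ↔ InvAll _ (up π j S) β := by
  have key : ∀ s, π s ∈ S → (InvBy X (π s) χ ↔ InvBy _ (j s) β) := fun s hs => by
    have h1 : j s ∈ Nm (up π j X) := up_Nm hSX ⟨s, hs, rfl⟩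
    rw [invBy_iff_cjn (hSX hs), invBy_iff_cjn h1, eq_comm, eq_comm (b := β)]
    refine T.eq_iff hL hX hχ hβ (isIrr_cjn h1 hβ) h fun x => ?_
    have h2 := h ⟨s * x * s⁻¹, (Subgroup.mem_normalizer_iff.1 (comap_le_Nm hSX hs) _).1 x.2⟩
    rw [T.ch.isClassFunction] at h2
    rw [cjn_apply, cjn_apply]
    exact (congrArg χ (Subtype.ext (by
      change π s * π x * (π s)⁻¹ = π (s * x * s⁻¹); rw [map_mul, map_mul, map_inv]))).trans
      (h2.trans (congrArg (· * th x) (congrArg β (Subtype.ext (by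
        change j (s * x * s⁻¹) = j s * j x * (j s)⁻¹; rw [map_mul, map_mul, map_inv])))))
  refine ⟨?_, fun h1 s hs => ?_⟩
  · rintro h1 _ ⟨s, hs, rfl⟩
    exact (key s hs).1 (h1 _ hs)
  · obtain ⟨s, rfl⟩ := hS hs
    exact (key s hs).2 (h1 _ ⟨s, hs, rfl⟩)

theorem th_one_ne : th 1 ≠ 0 := by
  rw [← map_one ν, T.thν]; exact T.irr.apply_one_ne_zero

theorem exists_omega {β : up π j X → ℂ} (hβ : IsIrrCharacter _ β) (a : Z) :
    ∃ (z : up π j X) (ω : ℂ), (z : Ω) = j a ∧ ∀ y, β (z * y) = ω * β y := by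
  let z : up π j X := ⟨j a, a, by rw [SetLike.mem_coe, Subgroup.mem_comap, (T.kerπ a).2 a.2]; exact one_mem _, rfl⟩
  obtain ⟨c, hc⟩ := mem_charCenter_iff.1 (hβ.center_le_charCenter (x := z)
    (Subgroup.mem_center_iff.2 fun ⟨_, y, _, rfl⟩ => Subtype.ext (by
      change j y * j a = j a * j y
      rw [← map_mul, ← map_mul, Subgroup.mem_center_iff.1 (T.cen a.2)])))
  exact ⟨z, c, rfl, hc⟩

theorem ov_iff_of_mult (h : Y ≤ X) {β : up π j X → ℂ} {γ : up π j Y → ℂ}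
    (hβ : IsIrrCharacter _ β) (hγ : IsIrrCharacter _ γ)
    (h0 : mult (Subgroup.map_mono (Subgroup.comap_mono h)) β γ ≠ 0) :
    Ov j lam _ β ↔ Ov j lam _ γ := by
  have := Fintype.ofFinite (up π j Y)
  refine forall_congr' fun a => ?_
  obtain ⟨z, ω, hz, h1⟩ := T.exists_omega hβ a
  obtain ⟨z', ω', hz', h2⟩ := T.exists_omega hγ a
  obtain rfl : ω = ω' := omega_eq (z := z') (fun y => by
      refine Eq.trans (congrArg β (Subtype.ext ?_)) (h1 ⟨y, _⟩)
      change (z' : Ω) * y = z * y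
      rw [hz, hz']) h2
    ((mult_ne_zero_iff _ hβ.isCharacter hγ.isCharacter).1 h0)
    (by rw [hγ.classInner_self]; exact one_ne_zero)
  have key : ∀ {U : Subgroup Ω} {β : U → ℂ} {z : U}, IsIrrCharacter U β → (z : Ω) = j a →
      (∀ y, β (z * y) = ω * β y) →
      ((∀ y y' : U, (y' : Ω) = j a * y → lam a * β y' = β y) ↔ lam a * ω = 1) :=
    fun {U β z} hβ hz h1 => ⟨fun h2 => by
      have h3 := h2 1 (z * 1) (by simp [hz])
      rwa [h1, ← mul_assoc, mul_eq_right₀ hβ.apply_one_ne_zero] at h3, fun h2 y y' h3 => by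
      rw [show y' = z * y from Subtype.ext (by simp [hz, h3]), h1, ← mul_assoc, h2, one_mul]⟩
  rw [key hβ hz h1, key hγ hz' h2]

theorem bij (hL : L ≤ X) (hX : X ≤ π.range) (hS : S ≤ π.range) (hSX : S ≤ Nm X) :
    Bij (fun χ => II X S χ ∧ mult hL χ φ ≠ 0)
      (fun β => II _ (up π j S) β ∧ Ov j lam _ β) (Rel π j th X) := by
  have := Fintype.ofFinite (X.comap π)
  have := Fintype.ofFinite L
  obtain ⟨ι, hn, e, h1, h2, h3⟩ := T.exists_data hL
  have h4 := T.ch.comp (X.comap π).subtype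
  have h5 : (fun l => th ((X.comap π).subtype (ι l))) = φ := funext fun l => by
    rw [Subgroup.coe_subtype, h2, T.thν]
  have h6 : ∀ l, π.subgroupComap X (ι l) = ⟨l, hL l.2⟩ := fun l =>
    Subtype.ext ((congrArg π (h2 l)).trans (T.πν l))
  refine ⟨fun χ hχ => ?_, fun χ β β' hχ hβ hβ' h h' =>
    (T.eq_iff hL hX hχ.1.1 hβ.1.1 hβ'.1.1 h h').1 rfl, fun β hβ => ?_,
    fun χ χ' β hχ _ hβ h h' => (T.eq_iff hL hX hχ.1.1 hβ.1.1 hβ.1.1 h h').2 rfl⟩
  · obtain ⟨η, h7, h8⟩ := exists_gallagher ι h1 h4 (h5 ▸ T.irr)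
      (hχ.1.1.comp_surjective _ (comap_surj hX)) (by
        simp only [h5, h6]
        exact (mult_ne_zero_iff hL hχ.1.1.isCharacter T.irr.isCharacter).1 hχ.2)
    obtain ⟨β, h9, h10⟩ : ∃ β, IsIrrCharacter _ β ∧ Rel π j th X χ β :=
      ⟨_, h7.comp_mulEquiv e.symm, fun x => by
        rw [← h3, e.symm_apply_apply]; exact congrFun h8 x⟩
    refine ⟨β, ⟨⟨h9, (T.invAll_iff hL hX hS hSX hχ.1.1 h9 h10).1 hχ.1.2⟩, fun a y y' hy => ?_⟩, h10⟩
    obtain ⟨z, ω, hz, h11⟩ := T.exists_omega h9 a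
    have ha : (a : D) ∈ X.comap π := by
      rw [Subgroup.mem_comap, (T.kerπ a).2 a.2]; exact one_mem _
    have h12 := h10 ⟨a, ha⟩
    have h13 := h10 1
    rw [show π.subgroupComap X ⟨a, ha⟩ = π.subgroupComap X 1 from
      Subtype.ext (((T.kerπ a).2 a.2).trans (map_one π).symm), h13, map_one,
      show j.subgroupMap _ ⟨a, ha⟩ = z * 1 from Subtype.ext (by rw [mul_one, hz]; rfl), h11,
      show th (⟨a, ha⟩ : X.comap π) = th (a * 1) by rw [mul_one], T.mul] at h12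
    have h14 : lam a * ω = 1 := mul_right_cancel₀ (mul_ne_zero h9.apply_one_ne_zero T.th_one_ne)
      (by rw [one_mul]; exact Eq.trans (by ring) h12.symm)
    rw [show y' = z * y from Subtype.ext (by simp [hz, hy]), h11, ← mul_assoc, h14, one_mul]
  · have h7 := isIrr_gallagher ι h1 h4 (h5 ▸ T.irr) (hβ.1.1.comp_mulEquiv e)
    simp only [h3] at h7
    obtain ⟨χ, h8, h9⟩ := exists_desc _ (comap_surj hX) h7 fun a ha => mem_charKer_iff.2 fun x => by
      have h10 : (a : D) ∈ Z := (T.kerπ a).1 (congrArg Subtype.val ha)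
      have h11 := T.mul ⟨a, h10⟩ x
      have h12 := hβ.2 ⟨a, h10⟩ (j.subgroupMap _ x) (j.subgroupMap _ (a * x)) (by simp)
      simp only [Subgroup.coe_subtype, Subgroup.coe_mul] at h11 ⊢
      rw [h11, ← h12]
      ring
    refine ⟨χ, ⟨⟨h8, (T.invAll_iff hL hX hS hSX h8 hβ.1.1 h9).2 hβ.1.2⟩, ?_⟩, h9⟩
    rw [mult_ne_zero_iff hL h8.isCharacter T.irr.isCharacter,
      show res hL χ = β 1 • φ from funext fun l => ?_, classInner_smul_left, T.irr.classInner_self,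
      mul_one]
    · exact hβ.1.1.apply_one_ne_zero
    · have h10 := h9 (ι l)
      rw [h6, congrFun h5 l, show j.subgroupMap _ (ι l) = 1 from
        Subtype.ext ((T.kerj _).2 ⟨l, (h2 l).symm⟩)] at h10
      exact h10

end Tri

end triple

end H34.Isa
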