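/- The Isaacs correspondence, part 3: invariant case, Clifford reduction. -/
import Cfsg.Agent.H34.IsaB
import Cfsg.Agent.H32.McE
import Cfsg.Agent.H1.Coprime

set_option autoImplicit false
set_option linter.unusedSectionVars false

namespace H34.Isa

open Cfsg H28 H32 H40

theorem up_sup {D Γ Ω : Type*} [Group D] [Group Γ] [Group Ω] {π : D →* Γ} {j : D →* Ω}
    {X Y : Subgroup Γ} (hX : X ≤ π.range) (hY : Y ≤ π.range) :
    up π j (X ⊔ Y) = up π j X ⊔ up π j Y := by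
  rw [← Subgroup.map_sup, Subgroup.comap_sup_eq_of_le_range π hX hY]

theorem Tri.comp {D Γ Λ Ω : Type*} [Group D] [Group Γ] [Group Λ] [Group Ω] {π : D →* Γ}
    {q : D →* Λ} {L : Subgroup Γ} {φ : L → ℂ} {ν : L →* D} {th : D → ℂ} {Z : Subgroup D}
    {lam : Z →* ℂˣ} (T : Tri π q φ ν th lam) (i : Λ →* Ω) (hi : Function.Injective i) :
    Tri π (i.comp q) φ ν th lam :=
  ⟨T.irr, T.ch, T.πν, fun x => by rw [MonoidHom.comp_apply, map_eq_one_iff i hi, T.kerj], T.thν,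
    T.kerπ, T.cen, T.mul⟩

universe u

variable {Γ : Type u} [Group Γ] [Finite Γ] {L K G H S : Subgroup Γ}

theorem exists_tri (hL : L ≤ G) (hG : G ≤ Nm L) {φ : L → ℂ} (hφ : IsIrrCharacter L φ)
    (hi : InvAll L G φ) : ∃ (D Λ : Type u) (_ : Group D) (_ : Group Λ) (_ : Finite D)
      (_ : Finite Λ) (π : D →* Γ) (q : D →* Λ) (ν : L →* D) (th : D → ℂ) (Z : Subgroup D)
      (lam : Z →* ℂˣ), Tri π q φ ν th lam ∧ π.range = G ∧ Function.Surjective q ∧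
      ∀ d, π d ∈ L → q d ∈ Subgroup.center Λ := by
  have := Subgroup.normal_subgroupOf_of_le_normalizer hG
  obtain ⟨Cv⟩ := nonempty_cover (isIrr_subgroupOf hL hφ) (inertia_sg_eq_top hL hG hi)
  refine ⟨Cv.Γ, Cv.Γ ⧸ Cv.ν.range, inferInstance, inferInstance, inferInstance, inferInstance,
    G.subtype.comp Cv.π, QuotientGroup.mk' _,
    Cv.ν.comp (Subgroup.subgroupOfEquivOfLe hL).symm.toMonoidHom, Cv.th, _, Cv.lam,
    ⟨hφ, Cv.th_irr.isCharacter, fun l => congrArg Subtype.val (Cv.π_ν _), fun x => ?_,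
      fun l => Cv.th_ν _, fun x => ?_, Cv.ker_le_center, Cv.th_mul⟩, ?_,
    QuotientGroup.mk'_surjective _, fun d hd => Cv.comap_le_comap_center hd⟩
  · exact (QuotientGroup.eq_one_iff x).trans
      ⟨fun ⟨l, hl⟩ => ⟨⟨l, l.2⟩, hl⟩, fun ⟨l, hl⟩ => ⟨_, hl⟩⟩
  · rw [MonoidHom.mem_ker, ← OneMemClass.coe_eq_one]; rfl
  · rw [MonoidHom.range_comp, MonoidHom.range_eq_top.2 Cv.π_surj, ← MonoidHom.range_eq_map,
      Subgroup.range_subtype]

theorem inv_case (hLK : L ≤ K) (hLH : L ≤ H) (hLS : L ≤ S) (hHG : H ≤ G) (hG : G = K ⊔ H)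
    (hGK : G ≤ Nm K) (hGL : G ≤ Nm L) (hSK : S ≤ Nm K) (hSL : S ≤ Nm L)
    (hab : ∀ a ∈ K, ∀ b ∈ K, a * b * a⁻¹ * b⁻¹ ∈ L)
    (hSH : ∀ s ∈ S, ∀ y ∈ H, s * y * s⁻¹ * y⁻¹ ∈ L) (hM : K ⊓ (H ⊔ S) ≤ L)
    (hF : ∀ k ∈ K, (∀ s ∈ S, s * k * s⁻¹ * k⁻¹ ∈ L) → k ∈ L) (hodd : Odd (L.relIndex G))
    (hcop : (L.relIndex S).Coprime (L.relIndex G)) {φ : L → ℂ} (hφ : IsIrrCharacter L φ)
    (hi : InvAll L (G ⊔ S) φ) :
    Bij (fun χ => II G S χ ∧ mult (hLH.trans hHG) χ φ ≠ 0)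
      (fun ψ => II H S ψ ∧ mult hLH ψ φ ≠ 0) fun χ ψ => Odd (mult hHG χ ψ) := by
  have hKG : K ≤ G := hG ▸ le_sup_left
  have hLW : L ≤ G ⊔ S := hLS.trans le_sup_right
  have hW : G ⊔ S ≤ Nm L := sup_le hGL hSL
  have hSNH : S ≤ Nm H := fun s hs => mem_Nm_of_conj_le fun y hy => by
    simpa using mul_mem (hLH (hSH s hs y hy)) hy
  have hSNG : S ≤ Nm G := hG ▸ (le_inf hSK hSNH).trans Nm_inf_le_Nm_sup
  have hHNS : H ⊔ S ≤ Nm S := sup_le (fun y hy => mem_Nm_of_conj_le fun s hs => by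
    have := mul_mem (inv_mem (hLS (hSH s hs y hy))) hs
    convert this using 1
    group) Subgroup.le_normalizer
  obtain ⟨D, Λ, _, _, _, _, π, q, ν, th, Z, lam, T0, hπ, hq, hcen⟩ := exists_tri hLW hW hφ hi
  have rG : G ≤ π.range := le_sup_left.trans hπ.ge
  have rS : S ≤ π.range := le_sup_right.trans hπ.ge
  have rK := hKG.trans rG
  have rH := hHG.trans rG
  have htop : up π q (G ⊔ S) = ⊤ := by
    rw [← hπ, up, MonoidHom.comap_range_self, ← MonoidHom.range_eq_map,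
      MonoidHom.range_eq_top.2 hq]
  have hKn : (up π q K).Normal := Subgroup.normalizer_eq_top_iff.1
    (top_le_iff.1 (htop ▸ up_Nm (sup_le hGK hSK)))
  obtain ⟨τ, h1, h2, h3, h4⟩ := exists_tau (A := up π q L) (K := up π q K) (M := up π q (H ⊔ S))
    (S := up π q S) (by rintro _ ⟨d, hd, rfl⟩; exact hcen d hd)
    (by
      rintro _ ⟨x, hx, rfl⟩ _ ⟨y, hy, rfl⟩
      exact ⟨x * y * x⁻¹ * y⁻¹, by simpa using hab _ hx _ hy, by simp⟩)
    (by rw [← up_sup rK (sup_le rH rS), ← sup_assoc, ← hG, htop])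
    (by
      rintro _ ⟨⟨x, hx, rfl⟩, h⟩
      exact ⟨x, hM ⟨hx, (T0.mem_up (hLH.trans le_sup_left)).1 h⟩, rfl⟩)
    (up_Nm hHNS)
    (by rw [T0.relIndex_up hLK rK]; exact hodd.of_dvd_nat (relIndex_dvd_of_le_norm hKG hGL))
    (by
      rw [T0.relIndex_up hLK rK, T0.relIndex_up hLS rS]
      exact (hcop.coprime_dvd_right (relIndex_dvd_of_le_norm hKG hGL)).symm)
    (by
      rintro _ ⟨x, hx, rfl⟩ h
      refine ⟨x, hF _ hx fun s hs => ?_, rfl⟩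
      obtain ⟨y, rfl⟩ := rS hs
      have h5 : q (y * x * y⁻¹ * x⁻¹) ∈ up π q L := by
        rw [map_mul, map_mul, map_mul, map_inv, map_inv, h _ ⟨y, hs, rfl⟩, mul_inv_cancel]
        exact one_mem _
      simpa using (T0.mem_up le_rfl).1 h5)
  have : Finite (MulAut Λ) := Finite.of_injective _ DFunLike.coe_injective
  have : Finite (Λ ⋊[MonoidHom.id _] MulAut Λ) :=
    Finite.of_equiv _ SemidirectProduct.equivProd.symm
  let i : Λ →* Λ ⋊[MonoidHom.id _] MulAut Λ := SemidirectProduct.inl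
  let t : Λ ⋊[MonoidHom.id _] MulAut Λ := SemidirectProduct.inr τ
  have T := T0.comp i SemidirectProduct.inl_injective
  have ht : ∀ x, t * i x * t⁻¹ = i (τ x) := fun x => by
    rw [← map_inv]; exact (SemidirectProduct.inl_aut τ x).symm
  have hm : ∀ {X : Subgroup Γ} {x : Λ}, x ∈ up π q X → i x ∈ up π (i.comp q) X := by
    rintro X _ ⟨d, hd, rfl⟩
    exact ⟨d, hd, rfl⟩
  have mo : ∀ {X Y : Subgroup Γ}, X ≤ Y → up π (i.comp q) X ≤ up π (i.comp q) Y := fun h =>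
    Subgroup.map_mono (Subgroup.comap_mono h)
  have B := central (S := up π (i.comp q) S) (t := t) (by rw [← map_pow, sq, h1, map_one])
    (mo hLK) (mo hLH) (mo hHG) (by rw [← up_sup rK rH, ← hG]) (up_Nm (hHG.trans hGK)) (up_Nm hSK)
    (by
      rw [← up_sup rG rS]
      rintro _ ⟨a, ha, rfl⟩ _ ⟨d, -, rfl⟩
      simp only [MonoidHom.comp_apply, ← map_inv i, ← map_mul i]
      rw [Subgroup.mem_center_iff.1 (hcen a ha), mul_inv_cancel_right])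
    (by
      rw [← up_sup rH rS]
      rintro _ ⟨d, hd, rfl⟩
      rw [MonoidHom.comp_apply, ht, h2 _ ⟨d, hd, rfl⟩])
    (by
      rintro _ ⟨d, hd, rfl⟩
      rw [MonoidHom.comp_apply, ht, ← map_mul]
      exact hm (h3 _ ⟨d, hd, rfl⟩))
    (by
      rintro _ ⟨x, hx, rfl⟩ _ ⟨y, hy, rfl⟩
      exact ⟨x * y * x⁻¹ * y⁻¹, by simpa using hSH _ hx _ hy, by simp⟩)
    (by rwa [T.relIndex_up (hLH.trans hHG) rG])
    (by rwa [T.relIndex_up (hLH.trans hHG) rG, T.relIndex_up hLS rS])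
    (fun θ hθ => by
      let f : up π q K →* up π (i.comp q) K := (i.comp (up π q K).subtype).codRestrict _
        fun x => hm x.2
      have hf : Function.Surjective f := by
        rintro ⟨_, d, hd, rfl⟩
        exact ⟨⟨q d, d, hd, rfl⟩, rfl⟩
      intro k k' hk
      obtain ⟨k, rfl⟩ := hf k
      obtain ⟨k', rfl⟩ := hf k'
      refine h4 _ (hθ.1.comp_surjective f hf) (fun s hs x x' hx => hθ.2 _ (hm hs) _ _ ?_) k k'
        (SemidirectProduct.inl_injective (hk.trans (ht k)))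
      change i x' = i s * i x * (i s)⁻¹
      rw [hx, map_mul, map_mul, map_inv])
  refine (B.restrict (U := Ov (i.comp q) lam _) (V := Ov (i.comp q) lam _)
    fun β γ hβ hγ h => T.ov_iff_of_mult hHG hβ.1 hγ.1 h.pos.ne').transfer
    (T.bij (hLH.trans hHG) rG rS hSNG) (T.bij hLH rH rS hSNH) fun χ β ψ γ _ hβ _ hγ h5 h6 => ?_
  rw [T.mult_eq hLH hHG rG hβ.1.1.isCharacter hγ.1.1.isCharacter h5 h6]

theorem mult_ne_trans {T : Subgroup Γ} (h : L ≤ T) (h' : T ≤ G) {χ : G → ℂ} {η : T → ℂ}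
    {φ : L → ℂ} (hχ : IsCharacter G χ) (hη : IsIrrCharacter T η) (hφ : IsCharacter L φ)
    (h1 : mult h' χ η ≠ 0) (h2 : mult h η φ ≠ 0) : mult (h.trans h') χ φ ≠ 0 := by
  rw [mult_trans h h' hχ hφ]
  exact fun h0 => mul_ne_zero h1 h2 (Finset.sum_eq_zero_iff.1 h0 ⟨η, hη⟩ (Finset.mem_univ _))

theorem clif0 {T : Subgroup Γ} (hLT : L ≤ T) (hTG : T ≤ G) (hG : G ≤ Nm L) {φ : L → ℂ}
    (hφ : IsIrrCharacter L φ) (hT : T = G ⊓ invSub L φ) :
    Bij (fun χ => IsIrrCharacter G χ ∧ mult (hLT.trans hTG) χ φ ≠ 0)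
      (fun η => IsIrrCharacter T η ∧ mult hLT η φ ≠ 0) (fun χ η => mult hTG χ η ≠ 0) ∧
    ∀ χ η, IsIrrCharacter G χ → IsIrrCharacter T η → mult hLT η φ ≠ 0 → mult hTG χ η ≠ 0 →
      mult hTG χ η = 1 := by
  classical
  have := Fintype.ofFinite Γ
  have := Subgroup.normal_subgroupOf_of_le_normalizer hG
  have hLG := hLT.trans hTG
  have hν' := isIrr_subgroupOf hLG hφ
  have hT' : T.subgroupOf G = inertia (sg G φ) := by
    rw [inertia_sg hLG hG, hT, Subgroup.inf_subgroupOf_left]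
  have hNT : L.subgroupOf G ≤ T.subgroupOf G := Subgroup.subgroupOf_mono G hLT
  have key : ∀ {ψ : T → ℂ}, IsIrrCharacter T ψ → mult hLT ψ φ ≠ 0 →
      classInner (fun n : L.subgroupOf G => sg G ψ ⟨n, hNT n.2⟩) (sg G φ) ≠ 0 := fun hψ h => by
    rw [← Nat.cast_ne_zero (R := ℂ), ← mult_spec hLT hψ.isCharacter hφ.isCharacter,
      ← H40.classInner_subgroupOf hLG] at h
    exact h
  have h1 : ∀ {χ η}, IsIrrCharacter G χ → IsIrrCharacter T η → mult hLT η φ ≠ 0 →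
      mult hTG χ η ≠ 0 → indFun (T.subgroupOf G) (sg G η) = χ := fun hχ hη h h' =>
    cliffordCorr_indFun_eq hν' hT' hNT (isIrr_subgroupOf hTG hη) (key hη h) hχ (by
      rw [mult_sg hTG hχ.isCharacter hη.isCharacter]; exact Nat.cast_ne_zero.2 h')
  have h2 : ∀ {η}, IsIrrCharacter T η → mult hLT η φ ≠ 0 →
      IsIrrCharacter G (indFun (T.subgroupOf G) (sg G η)) ∧
        mult hTG (indFun (T.subgroupOf G) (sg G η)) η = 1 := fun hη h => by
    have h3 := (cliffordCorr_irr hν' hT' hNT (isIrr_subgroupOf hTG hη) (key hη h)).1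
    refine ⟨h3, Nat.cast_injective (R := ℂ) ?_⟩
    rw [← mult_sg hTG h3.isCharacter hη.isCharacter,
      ← H33.classInner_indFun_right _ _ h3.isClassFunction, h3.classInner_self, Nat.cast_one]
  refine ⟨⟨fun χ hχ => ?_, fun χ η η' hχ hη hη' h h' => ?_, fun η hη => ?_,
    fun χ χ' η hχ hχ' hη h h' => (h1 hχ.1 hη.1 hη.2 h).symm.trans (h1 hχ'.1 hη.1 hη.2 h')⟩,
    fun χ η hχ hη h h' => h1 hχ hη h h' ▸ (h2 hη h).2⟩
  · have h3 := hχ.2
    rw [mult_trans hLT hTG hχ.1.isCharacter hφ.isCharacter] at h3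
    obtain ⟨η, -, h4⟩ := Finset.exists_ne_zero_of_sum_ne_zero h3
    exact ⟨η, ⟨η.2, right_ne_zero_of_mul h4⟩, left_ne_zero_of_mul h4⟩
  · have h3 := cliffordCorr_inj hν' hT' hNT (isIrr_subgroupOf hTG hη.1)
      (isIrr_subgroupOf hTG hη'.1) (key hη.1 hη.2) (key hη'.1 hη'.2)
      ((h1 hχ.1 hη.1 hη.2 h).trans (h1 hχ.1 hη'.1 hη'.2 h').symm)
    exact funext fun t => congrFun h3 ⟨⟨t, hTG t.2⟩, t.2⟩
  · have h3 := h2 hη.1 hη.2
    have h4 := h3.2.symm ▸ one_ne_zero (α := ℕ)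
    exact ⟨_, ⟨h3.1, mult_ne_trans hLT hTG h3.1.isCharacter hη.1 hφ.isCharacter h4 hη.2⟩, h4⟩

theorem le_Nm_inf_invSub (hSG : S ≤ Nm G) (hS : S ≤ Nm L) {φ : L → ℂ} (hi : InvAll L S φ) :
    S ≤ Nm (G ⊓ invSub L φ) :=
  (le_inf hSG (((invAll_iff_le hS).1 hi).trans Subgroup.le_normalizer)).trans Nm_inf_le_Nm_inf

theorem clif {T : Subgroup Γ} (hLT : L ≤ T) (hTG : T ≤ G) (hG : G ≤ Nm L) (hSG : S ≤ Nm G)
    (hS : S ≤ Nm L) {φ : L → ℂ} (hφ : IsIrrCharacter L φ) (hi : InvAll L S φ)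
    (hT : T = G ⊓ invSub L φ) :
    Bij (fun χ => II G S χ ∧ mult (hLT.trans hTG) χ φ ≠ 0)
      (fun η => II T S η ∧ mult hLT η φ ≠ 0) fun χ η => mult hTG χ η ≠ 0 := by
  have B := (clif0 hLT hTG hG hφ hT).1
  have hST : S ≤ Nm T := hT ▸ le_Nm_inf_invSub hSG hS hi
  refine (B.restrict (U := InvAll G S) (V := InvAll T S) fun χ η hχ hη h =>
    forall₂_congr fun s hs => ?_).congr (fun _ => and_right_comm) (fun _ => and_right_comm)
    fun _ _ => Iff.rfl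
  have h1 := (invBy_iff_cjn (hS hs)).1 (hi s hs)
  have h2 := mult_cjn hTG (hSG hs) (hST hs) χ η
  rw [invBy_iff_cjn (hSG hs), invBy_iff_cjn (hST hs)]
  refine ⟨fun h3 => B.unR χ _ _ hχ ⟨isIrr_cjn _ hη.1, ?_⟩ hη (by rwa [← h3, h2]) h,
    fun h3 => B.unL _ _ η ⟨isIrr_cjn _ hχ.1, ?_⟩ hχ hη (by rwa [← h3, h2]) h⟩
  · rw [← h1, mult_cjn]; exact hη.2
  · rw [← h1, mult_cjn]; exact hχ.2

theorem mult_clif {T U : Subgroup Γ} (hLU : L ≤ U) (hUT : U ≤ T) (hUH : U ≤ H) (hTG : T ≤ G)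
    (hHG : H ≤ G) (hG : G ≤ Nm L) {φ : L → ℂ} (hφ : IsIrrCharacter L φ)
    (hT : T = G ⊓ invSub L φ) (hU : U = H ⊓ invSub L φ) {χ : G → ℂ} {η : T → ℂ} {ψ : H → ℂ}
    {ξ : U → ℂ} (hχ : IsIrrCharacter G χ) (hη : IsIrrCharacter T η) (hψ : IsIrrCharacter H ψ)
    (hξ : IsIrrCharacter U ξ) (h1 : mult ((hLU.trans hUT).trans hTG) χ φ ≠ 0)
    (h2 : mult (hLU.trans hUT) η φ ≠ 0) (h3 : mult (hLU.trans hUH) ψ φ ≠ 0)
    (h4 : mult hLU ξ φ ≠ 0) (h5 : mult hTG χ η ≠ 0) (h6 : mult hUH ψ ξ ≠ 0) :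
    mult hHG χ ψ = mult hUT η ξ := by
  obtain ⟨B, e⟩ := clif0 (hLU.trans hUT) hTG hG hφ hT
  obtain ⟨B', e'⟩ := clif0 hLU hUH (hHG.trans hG) hφ hU
  have o1 : ∀ {X : Subgroup Γ} (hX : U ≤ X) (β : IrrCharacter X), mult hX β.1 ξ ≠ 0 →
      IsIrrCharacter X β.1 ∧ mult (hLU.trans hX) β.1 φ ≠ 0 := fun hX β h =>
    ⟨β.2, mult_ne_trans hLU hX β.2.isCharacter hξ hφ.isCharacter h h4⟩
  have a1 : mult (hUT.trans hTG) χ ξ = mult hTG χ η * mult hUT η ξ :=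
    (mult_trans hUT hTG hχ.isCharacter hξ.isCharacter).trans
      (Finset.sum_eq_single (⟨η, hη⟩ : IrrCharacter T) (fun β _ hβ => by_contra fun h => hβ
        (Subtype.ext (B.unR χ β.1 η ⟨hχ, h1⟩ (o1 hUT β (right_ne_zero_of_mul h)) ⟨hη, h2⟩
          (left_ne_zero_of_mul h) h5))) fun h => absurd (Finset.mem_univ _) h)
  have a2 : mult (hUH.trans hHG) χ ξ = mult hHG χ ψ * mult hUH ψ ξ :=
    (mult_trans hUH hHG hχ.isCharacter hξ.isCharacter).trans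
      (Finset.sum_eq_single (⟨ψ, hψ⟩ : IrrCharacter H) (fun β _ hβ => by_contra fun h => hβ
        (Subtype.ext (B'.unL β.1 ψ ξ (o1 hUH β (right_ne_zero_of_mul h)) ⟨hψ, h3⟩ ⟨hξ, h4⟩
          (right_ne_zero_of_mul h) h6))) fun h => absurd (Finset.mem_univ _) h)
  rw [e χ η hχ hη h2 h5, one_mul] at a1
  rw [e' ψ ξ hψ hξ h4 h6, mul_one] at a2
  exact a2.symm.trans a1

theorem ii_sup {X : Subgroup Γ} (hL : L ≤ X) (hS : S ≤ Nm X) (χ : X → ℂ) :
    II X S χ ↔ II X (L ⊔ S) χ :=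
  and_congr_right fun hχ => ⟨fun h => InvAll.sup (hL.trans Subgroup.le_normalizer) hS
    (fun _ hx => invBy_of_mem hχ.isClassFunction (hL hx)) h, fun h => h.mono le_sup_right⟩

theorem main {C : Subgroup Γ} [Group.IsSolvable G] (hC : C = G ⊓ Ct S) (hSG : S ≤ Nm G)
    (hcop : (Nat.card G).Coprime (Nat.card S)) (hodd : Odd (Nat.card G)) (hHG : H ≤ G)
    (hCH : C ≤ H) (hG : K ⊔ C = G) (hL : L = H ⊓ K) (hGK : G ≤ Nm K) (hGL : G ≤ Nm L)
    (hSK : S ≤ Nm K) (hab : ∀ a ∈ K, ∀ b ∈ K, a * b * a⁻¹ * b⁻¹ ∈ L)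
    (hSH : ∀ s ∈ S, ∀ y ∈ H, s * y * s⁻¹ * y⁻¹ ∈ L) :
    Bij (II G S) (II H S) fun χ ψ => Odd (mult hHG χ ψ) := by
  have hKG : K ≤ G := hG ▸ le_sup_left
  have hLH : L ≤ H := hL ▸ inf_le_left
  have hLK : L ≤ K := hL ▸ inf_le_right
  have hLG := hLH.trans hHG
  have hSNH : S ≤ Nm H := fun s hs => mem_Nm_of_conj_le fun y hy => by
    simpa using mul_mem (hLH (hSH s hs y hy)) hy
  have hSL : S ≤ Nm L := hL ▸ (le_inf hSNH hSK).trans Nm_inf_le_Nm_inf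
  have hF : ∀ {N : Subgroup Γ}, N ≤ G → S ≤ Nm N → ∀ g ∈ G, (∀ s ∈ S, s * g * s⁻¹ * g⁻¹ ∈ N) →
      ∃ n ∈ N, n * g ∈ H := fun hN hS g hg h => by
    obtain ⟨n, hn, h1⟩ := H1.exists_centralizer_mem_coset' hS
      (hcop.symm.coprime_dvd_right (Subgroup.card_dvd_of_le hN))
      (Or.inr (Group.isSolvable_of_isSolvable_injective (Subgroup.inclusion_injective hN))) g h
    exact ⟨n, hn, hCH (hC ▸ ⟨mul_mem (hN hn) hg, h1⟩)⟩
  have hex : ∀ {X : Subgroup Γ} (hX : L ≤ X), X ≤ G → S ≤ Nm X → ∀ χ, II X S χ →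
      ∃ φ : {φ // II L S φ}, mult hX χ φ.1 ≠ 0 := fun {X} hX hXG hS χ hχ => by
    have := Fintype.ofFinite L
    have := Subgroup.normal_subgroupOf_of_le_normalizer (hXG.trans hGL)
    have := Subgroup.normal_subgroupOf_of_le_normalizer hSL
    have := Group.isSolvable_of_isSolvable_injective (Subgroup.inclusion_injective hXG)
    obtain ⟨φ, h1, h2, h3⟩ := exists_inv_constituent hX (hXG.trans hGL) hSL hS
      ((hcop.symm.coprime_dvd_left (Subgroup.relIndex_dvd_card _ _)).coprime_dvd_right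
        ((Subgroup.relIndex_dvd_card _ _).trans (Subgroup.card_dvd_of_le hXG)))
      (Or.inr inferInstance) hχ.1 hχ.2
    exact ⟨⟨φ, h1, h3⟩, (mult_ne_zero_iff hX hχ.1.isCharacter h1.isCharacter).2 h2⟩
  refine Bij.glue (U := fun φ : {φ // II L S φ} => fun χ => mult hLG χ φ.1 ≠ 0)
    (V := fun φ ψ => mult hLH ψ φ.1 ≠ 0) (fun ⟨φ, hφ, hi⟩ => ?_) (hex hLG le_rfl hSG)
    (hex hLH hHG hSNH) fun ⟨φ, hφ, hi⟩ χ ψ hχ hψ h => ⟨fun h1 => ?_, fun h1 =>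
      mult_ne_trans hLH hHG hχ.1.isCharacter hψ.1 hφ.isCharacter h.pos.ne' h1⟩
  · have hI : L ≤ invSub L φ := le_invSub hφ.isClassFunction
    have hST := le_Nm_inf_invSub hSG hSL hi
    have hSU := le_Nm_inf_invSub hSNH hSL hi
    have hUT : H ⊓ invSub L φ ≤ G ⊓ invSub L φ := inf_le_inf_right _ hHG
    have hSN : S ≤ Nm (G ⊓ invSub L φ ⊓ K) := (le_inf hST hSK).trans Nm_inf_le_Nm_inf
    have B := inv_case (K := G ⊓ invSub L φ ⊓ K) (S := L ⊔ S) (le_inf (le_inf hLG hI) hLK)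
      (le_inf hLH hI) le_sup_left hUT (le_antisymm (fun g hg => by
        obtain ⟨k, hk, c, hc, rfl⟩ := exists_mul_of_mem_sup
          ((hCH.trans hHG).trans hGK) (hG.ge hg.1)
        have h1 : k ∈ G ⊓ invSub L φ := by
          obtain ⟨n, hn, h2⟩ := hF (inf_le_left.trans inf_le_left) hSN k (hKG hk) fun s hs => by
            refine ⟨?_, K.mul_mem ((Subgroup.mem_normalizer_iff.1 (hSK hs) k).1 hk) (inv_mem hk)⟩
            have h3 := mul_mem ((Subgroup.mem_normalizer_iff.1 (hST hs) _).1 hg) (inv_mem hg)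
            rwa [← mul_assoc, mul_assoc _ c, ← (hC.le hc).2 _ (inv_mem hs), mul_inv_rev,
              ← mul_assoc, ← mul_assoc, mul_inv_cancel_right] at h3
          simpa using mul_mem (Subgroup.inv_mem _ hn.1)
            (le_inf hLG hI (hL.ge ⟨h2, K.mul_mem hn.2 hk⟩))
        exact Subgroup.mul_mem_sup ⟨h1, hk⟩
          ⟨hCH hc, by simpa using mul_mem (Subgroup.inv_mem _ h1.2) hg.2⟩) (sup_le inf_le_left hUT))
      ((le_inf Subgroup.le_normalizer (inf_le_left.trans hGK)).trans Nm_inf_le_Nm_inf)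
      (inf_le_left.trans hGL)
      (sup_le ((le_inf (le_inf hLG hI) hLK).trans Subgroup.le_normalizer) hSN)
      (sup_le Subgroup.le_normalizer hSL) (fun a ha b hb => hab a ha.2 b hb.2)
      (fun s hs y hy => by
        obtain ⟨l, hl, s', hs', rfl⟩ := exists_mul_of_mem_sup hSL hs
        have h1 := mul_mem (mul_mem hl (hSH s' hs' y hy.1))
          ((Subgroup.mem_normalizer_iff.1 (hGL (hHG hy.1)) _).1 (inv_mem hl))
        convert h1 using 1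
        group)
      (fun k hk => by
        obtain ⟨y, hy, s, hs, rfl⟩ := exists_mul_of_mem_sup hSNH
          (sup_le (inf_le_left.trans le_sup_left) (sup_le_sup_right hLH _) hk.2)
        have h1 : s ∈ G ⊓ S := ⟨by simpa using mul_mem (inv_mem (hHG hy)) hk.1.1.1, hs⟩
        rw [(Subgroup.disjoint_of_coprime_natCard hcop).eq_bot, Subgroup.mem_bot] at h1
        subst h1
        exact hL.ge ⟨by simpa using hy, hk.1.2⟩)
      (fun k hk h => by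
        obtain ⟨n, hn, h1⟩ := hF hLG hSL k hk.1.1 fun s hs => h s (Subgroup.mem_sup_right hs)
        simpa using mul_mem (inv_mem hn) (hL.ge ⟨h1, mul_mem (hLK hn) hk.2⟩))
      (hodd.of_dvd_nat ((Subgroup.relIndex_dvd_card _ _).trans (Subgroup.card_dvd_of_le inf_le_left)))
      (by
        rw [relIndex_sup_Nm hSL]
        exact (hcop.symm.coprime_dvd_left (Subgroup.relIndex_dvd_card _ _)).coprime_dvd_right
          ((Subgroup.relIndex_dvd_card _ _).trans (Subgroup.card_dvd_of_le inf_le_left)))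
      hφ (InvAll.sup (inf_le_left.trans hGL) (sup_le Subgroup.le_normalizer hSL)
        (fun _ hx => hx.2.2) (InvAll.sup Subgroup.le_normalizer hSL
          (invAll_self hφ.isClassFunction) hi))
    refine (B.congr (fun η => and_congr_left' (ii_sup (le_inf hLG hI) hST η))
      (fun ξ => and_congr_left' (ii_sup (le_inf hLH hI) hSU ξ)) fun _ _ => Iff.rfl).transfer
      (clif (le_inf hLG hI) inf_le_left hGL hSG hSL hφ hi rfl)
      (clif (le_inf hLH hI) inf_le_left (hHG.trans hGL) hSNH hSL hφ hi rfl)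
      fun χ η ψ ξ hχ hη hψ hξ h1 h2 => ?_
    rw [mult_clif (le_inf hLH hI) hUT inf_le_left inf_le_left hHG hGL hφ rfl rfl hχ.1.1 hη.1.1
      hψ.1.1 hξ.1.1 hχ.2 hη.2 hψ.2 hξ.2 h1 h2]
  · obtain ⟨⟨φ', hφ', hi'⟩, h2⟩ := hex hLH hHG hSNH ψ hψ
    obtain ⟨g, hg, rfl⟩ := exists_cjn_of_mult hLG hGL hχ.1 hφ' hφ
      (mult_ne_trans hLH hHG hχ.1.isCharacter hψ.1 hφ'.isCharacter h.pos.ne' h2) h1
    obtain ⟨n, hn, h3⟩ := hF inf_le_left (le_Nm_inf_invSub hSG hSL hi') g hg fun s hs => by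
      have h4 := mul_mem (mul_mem (hSL hs) (hGL hg)) (inv_mem (hSL hs))
      refine ⟨G.mul_mem ((Subgroup.mem_normalizer_iff.1 (hSG hs) g).1 hg) (inv_mem hg),
        mul_mem h4 (inv_mem (hGL hg)), (invBy_iff_cjn (mul_mem h4 (inv_mem (hGL hg)))).2 ?_⟩
      rw [← cjn_cjn h4 (inv_mem (hGL hg)), ← cjn_cjn (mul_mem (hSL hs) (hGL hg)) (inv_mem (hSL hs)),
        ← cjn_cjn (hSL hs) (hGL hg), (invBy_iff_cjn _).1 (hi' s hs),
        (invBy_iff_cjn _).1 (hi _ (inv_mem hs)), cjn_inv_cjn]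
    change mult hLH ψ (cjn (hGL hg) φ') ≠ 0
    rwa [← (invBy_iff_cjn hn.2.1).1 hn.2.2, cjn_cjn,
      mult_cjn_of_mem hLH (hHG.trans hGL) hψ.1.isClassFunction φ' h3]

end H34.Isa
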