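import Cfsg.Agent.H63.KgvSpec
import Cfsg.Agent.H63.Cusp3

/-! Tower KGV: the Brauer lift with its eigenvalue lists. -/

set_option autoImplicit false

namespace H34.KgvBl

open Module Polynomial Finset Cfsg H63.Kgv
open scoped Classical

universe u

section
variable {K W : Type} [Field K] [Fintype K] [AddCommGroup W] [Module K W] [FiniteDimensional K W]

omit [FiniteDimensional K W] in
theorem top_eig (f : End K W) (hf : f ^ (Fintype.card K - 1) = 1) :
    ⨆ μ : K, f.eigenspace μ = ⊤ := by
  refine eq_top_iff.2 fun v _ => ?_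
  have hN : 0 < Fintype.card K - 1 := by have := Fintype.one_lt_card (α := K); omega
  have hw : ∀ c : Kˣ, ∑ k ∈ range (Fintype.card K - 1), (c : K) ^ k • (f ^ k) v ∈
      f.eigenspace ((c⁻¹ : Kˣ) : K) := fun c => by
    have e1 := sum_range_succ (fun k => (c : K) ^ k • (f ^ k) v) (Fintype.card K - 1)
    have e2 := sum_range_succ' (fun k => (c : K) ^ k • (f ^ k) v) (Fintype.card K - 1)
    rw [FiniteField.pow_card_sub_one_eq_one _ c.ne_zero, hf] at e1
    rw [pow_zero, pow_zero] at e2
    have e3 := add_right_cancel (e1.symm.trans e2)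
    rw [End.mem_eigenspace_iff]
    conv_rhs => rw [e3]
    rw [map_sum, smul_sum]
    refine sum_congr rfl fun k _ => ?_
    rw [map_smul, smul_smul, pow_succ' (c : K), ← mul_assoc, Units.inv_mul, one_mul, pow_succ' f,
      End.mul_apply]
  have hs : ∑ c : Kˣ, ∑ k ∈ range (Fintype.card K - 1), (c : K) ^ k • (f ^ k) v = -v := by
    rw [sum_comm, sum_eq_single 0]
    · rw [← sum_smul, FiniteField.sum_pow_units, if_pos (dvd_zero _)]; simp
    · intro k hk k0
      rw [← sum_smul, FiniteField.sum_pow_units, if_neg, zero_smul]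
      exact Nat.not_dvd_of_pos_of_lt (Nat.pos_of_ne_zero k0) (mem_range.1 hk)
    · intro h; exact absurd (mem_range.2 hN) h
  rw [← neg_neg v, ← hs]
  exact neg_mem (Submodule.sum_mem _ fun c _ => Submodule.mem_iSup_of_mem _ (hw c))

theorem exists_eig (f : End K W) (hf : f ^ (Fintype.card K - 1) = 1) :
    ∃ d : Fin (finrank K W) → Kˣ, ∀ (j : ℕ) (c : Kˣ),
      (f ^ j).charpoly.rootMultiplicity (c : K) = (univ.filter fun i => d i ^ j = c).card := by
  have hN : Fintype.card K - 1 ≠ 0 := by have := Fintype.one_lt_card (α := K); omega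
  have hint : DirectSum.IsInternal (fun μ : K => f.eigenspace μ) :=
    DirectSum.isInternal_submodule_of_iSupIndep_of_iSup_eq_top f.eigenspaces_iSupIndep
      (top_eig f hf)
  let b0 := hint.collectedBasis (fun μ => Module.Free.chooseBasis K (f.eigenspace μ))
  have : Fintype (Σ μ : K, Module.Free.ChooseBasisIndex K (f.eigenspace μ)) :=
    FiniteDimensional.fintypeBasisIndex b0
  let e := Fintype.equivFinOfCardEq (Module.finrank_eq_card_basis b0).symm
  obtain ⟨b, ε, key⟩ : ∃ (b : Basis (Fin (finrank K W)) K W) (ε : Fin (finrank K W) → K),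
      ∀ i, f (b i) = ε i • b i := ⟨b0.reindex e, fun i => (e.symm i).1, fun i => by
    have k : ∀ j, f (b0 j) = j.1 • b0 j := fun j =>
      Module.End.mem_eigenspace_iff.mp (hint.collectedBasis_mem _ j)
    simpa using k (e.symm i)⟩
  have hpow : ∀ (m : ℕ) i, (f ^ m) (b i) = ε i ^ m • b i := fun m i => by
    induction m with
    | zero => simp
    | succ m ih => rw [pow_succ', Module.End.mul_apply, ih, map_smul, key, smul_smul, pow_succ]
  have h0 : ∀ i, ε i ≠ 0 := fun i h => by
    have := hpow (Fintype.card K - 1) i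
    rw [hf, h, zero_pow hN, zero_smul] at this
    exact b.ne_zero i this
  refine ⟨fun i => Units.mk0 (ε i) (h0 i), fun j c => ?_⟩
  have hm : LinearMap.toMatrix b b (f ^ j) = Matrix.diagonal fun i => ε i ^ j := by
    ext a a'
    rw [LinearMap.toMatrix_apply, hpow, Matrix.diagonal_apply]
    by_cases h : a = a'
    · subst h; simp
    · simp [h]
  have hc : (f ^ j).charpoly = ((univ.val.map fun i => ε i ^ j).map fun a => X - C a).prod := by
    rw [← LinearMap.charpoly_toMatrix _ b, hm, Matrix.charpoly_diagonal, Multiset.map_map]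
    rfl
  rw [← count_roots, hc, roots_multiset_prod_X_sub_C, Multiset.count_map, Finset.card_def,
    Finset.filter_val]
  congr 1
  refine Multiset.filter_congr fun i _ => ?_
  rw [Units.ext_iff, eq_comm]
  simp

end

theorem sum_fib {ι K : Type} [Fintype ι] [Fintype K] {R : Type} [Semiring R] (d : ι → K)
    (F : K → R) : ∑ c, ((univ.filter fun i => d i = c).card : R) * F c = ∑ i, F (d i) := by
  rw [← Finset.sum_fiberwise (s := univ) (g := d) (f := fun i => F (d i))]
  refine sum_congr rfl fun c _ => ?_
  rw [sum_congr rfl (fun i hi => by rw [(mem_filter.1 hi).2] : ∀ i ∈ univ.filter fun i => d i = c,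
    F (d i) = F c), sum_const, nsmul_eq_mul]

theorem job : BlSt.{u} := by
  intro p _ G _ _ n M ρ K _ _ _ θ hK hG
  have hp : p.Prime := Fact.out
  have : CharP K p := charP_of_injective_algebraMap (algebraMap (ZMod p) K).injective p
  have : Finite (TensorProduct (ZMod p) K (Fin n → ZMod p)) := Module.finite_of_finite K
  have M0 : M ≠ 0 := by
    rintro rfl
    have := Fintype.one_lt_card (α := K)
    rw [hK, pow_zero] at this
    exact lt_irrefl _ this
  let σ : G →* End K (TensorProduct (ZMod p) K (Fin n → ZMod p)) :=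
    (End.baseChangeHom (ZMod p) K (Fin n → ZMod p)).toRingHom.toMonoidHom.comp ρ
  have hσ : ∀ y, (σ y).charpoly = (ρ y).charpoly.map (algebraMap (ZMod p) K) := fun y =>
    LinearMap.charpoly_baseChange _ _
  have y1 : ∀ y : G, y ^ (p ^ M - 1) = 1 := fun y => by
    obtain ⟨k, hk⟩ := hG
    rw [hk, pow_mul, pow_card_eq_one', one_pow]
  have rk : finrank K (TensorProduct (ZMod p) K (Fin n → ZMod p)) = n := by simp
  have eig := fun y : G => exists_eig (σ y) (by rw [← map_pow, hK, y1, map_one])
  let m : G → Kˣ → ℕ := fun y c => (σ y).charpoly.rootMultiplicity (c : K)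
  let β : G → ℂ := fun y => ∑ c : Kˣ, (θ c : ℂ) * (m y c : ℂ)
  have eg : ∀ y, Eg θ β y (m y) := fun y j => by
    obtain ⟨d, hd⟩ := eig y
    have h1 : ∀ c, m (y ^ j) c = (univ.filter fun i => d i ^ j = c).card := fun c => by
      rw [← hd, ← map_pow]
    have h2 : ∀ c, m y c = (univ.filter fun i => d i = c).card := fun c => by
      have := hd 1 c
      simpa only [pow_one] using this
    have h3 := sum_fib (fun i => d i ^ j) fun c => (θ c : ℂ)
    have h4 := sum_fib d fun c => (θ c : ℂ) ^ j
    simp only [β, h1, h2]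
    rw [sum_congr rfl fun c _ => mul_comm _ _]
    have h5 : ∑ i, (θ (d i ^ j) : ℂ) = ∑ i, (θ (d i) : ℂ) ^ j :=
      sum_congr rfl fun i _ => by rw [map_pow, Units.val_pow_eq_pow_val]
    convert (h3.trans h5).trans h4.symm <;> rfl
  have fr : ∀ y (c : Kˣ), m y (c ^ p) = m y c := fun y c => by
    have e : (σ y).charpoly.map (frobenius K p) = (σ y).charpoly := by
      rw [hσ, Polynomial.map_map]
      congr 1
      exact RingHom.ext_zmod _ _
    have := eq_rootMultiplicity_map (p := (σ y).charpoly) (frobenius K p).injective (c : K)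
    rw [e] at this
    exact this.symm
  refine ⟨β, m, H63.Cusp.green σ θ (j := 0) ?_, fun y => ?_, eg, fun y => ⟨?_, ?_⟩⟩
  · rw [pow_zero, mul_one, Nat.card_units, Nat.card_eq_fintype_card (α := K), hK]; exact hG
  · have hb : Function.Bijective fun c : Kˣ => c ^ p :=
      Finite.injective_iff_bijective.1 fun a b h => Units.ext ((frobenius K p).injective (by
        simpa [frobenius_def] using congrArg Units.val h))
    rw [eg y p]
    refine Eq.trans ?_ (hb.sum_comp fun c => (θ c : ℂ) * (m y c : ℂ))
    refine Eq.trans (by congr) (sum_congr rfl fun c _ => ?_)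
    rw [fr, map_pow, Units.val_pow_eq_pow_val, mul_comm]
  · obtain ⟨d, hd⟩ := eig y
    have h2 : ∀ c, m y c = (univ.filter fun i => d i = c).card := fun c => by
      have := hd 1 c
      simpa only [pow_one] using this
    have h4 := sum_fib d fun _ => (1 : ℕ)
    rw [finsum_eq_sum_of_fintype]
    simp only [h2]
    simp only [Nat.cast_id, mul_one, sum_const, card_univ, Fintype.card_fin, smul_eq_mul] at h4
    convert h4.trans rk
  · have e1 : m y 1 = (ρ y).charpoly.rootMultiplicity 1 := by
      have := eq_rootMultiplicity_map (p := (ρ y).charpoly) (algebraMap (ZMod p) K).injective 1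
      rw [map_one, ← hσ] at this
      exact this.symm
    have e2 := H63.Cusp.rootMultiplicity_eq (ρ y) 1 (j := M * n)
      (by simpa using Nat.le_mul_of_pos_left n (Nat.pos_of_ne_zero M0))
    have e3 : y ^ Nat.card (ZMod p) ^ (M * n) = y := by
      have h1 : y ^ p ^ M = y := by
        rw [← Nat.sub_add_cancel (Nat.one_le_pow M p hp.pos), pow_succ, y1, one_mul]
      rw [Nat.card_zmod, pow_mul]
      induction n with
      | zero => simp
      | succ k _ =>
        have : ∀ k : ℕ, y ^ (p ^ M) ^ k = y := fun k => by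
          induction k with
          | zero => simp
          | succ k ih => rw [pow_succ, pow_mul, ih, h1]
        exact this _
    rw [← map_pow, e3] at e2
    rw [e1, e2]
    have e4 := Module.natCard_eq_pow_finrank (K := ZMod p) (V := (ρ y).eigenspace 1)
    rw [Nat.card_zmod] at e4
    rw [← e4]
    exact Nat.card_congr (Equiv.subtypeEquivRight fun v => by
      rw [End.mem_eigenspace_iff, one_smul])

end H34.KgvBl
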