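import Cfsg.Agent.H35.BasicAlg
import Cfsg.Agent.H39.NilDict
import Cfsg.Agent.H38.Jacobson

/-! Summands of permutation modules of minimal dimension; blocks of minimal dimension are nilpotent. -/

set_option autoImplicit false
open scoped MonoidAlgebra
open Cfsg H28 H35 H36 H39 MulAction Module

namespace H34.MinDim

variable {p : ℕ} [hp : Fact p.Prime] {F : Type*} [Field F] [CharP F p]

section perm
variable {Γ X : Type*} [Group Γ] [Finite Γ] [MulAction Γ X]

omit hp in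
theorem p_smul {V : Type*} [AddCommGroup V] [Module F V] (v : V) : p • v = 0 := by
  rw [← Nat.cast_smul_eq_nsmul F, CharP.cast_eq_zero, zero_smul]

theorem exists_fix (hΓ : IsPGroup p Γ) (K : Submodule F (X → F))
    (hK : ∀ γ : Γ, ∀ c ∈ K, (fun x => c (γ • x)) ∈ K) (h : K ≠ ⊥) :
    ∃ c ∈ K, c ≠ 0 ∧ ∀ (γ : Γ) x, c (γ • x) = c x := by
  let _ : DistribMulAction Γ K :=
    { smul := fun γ c => ⟨fun x => c.1 (γ⁻¹ • x), hK _ _ c.2⟩
      one_smul := fun c => Subtype.ext (funext fun x => congrArg c.1 (by simp))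
      mul_smul := fun a b c => Subtype.ext (funext fun x => congrArg c.1 (by rw [mul_inv_rev, mul_smul]))
      smul_zero := fun _ => rfl
      smul_add := fun _ _ _ => rfl }
  obtain ⟨v, hv, h0⟩ := (Submodule.ne_bot_iff _).1 h
  obtain ⟨w, hw, hf⟩ := H38.exists_ne_zero_fixed hΓ (V := K) (p_smul (F := F)) (v := ⟨v, hv⟩)
    fun e => h0 (congrArg Subtype.val e)
  refine ⟨w, w.2, fun e => hw (Subtype.ext e), fun γ x => ?_⟩
  have := congrFun (congrArg Subtype.val (hf γ⁻¹)) x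
  rwa [show (γ⁻¹ • w).1 x = w.1 (γ⁻¹⁻¹ • x) from rfl, inv_inv] at this

omit [Finite Γ] in
theorem sum_orb {A : Type*} [AddCommMonoid A] [Fintype X] (f : X → A)
    (h : ∀ x, ∀ [Fintype (orbit Γ x)], ∑ w : orbit Γ x, f w.1 = 0) : ∑ x, f x = 0 := by
  classical
  rw [← Finset.sum_fiberwise_of_maps_to (t := Finset.univ)
    (g := fun x => Quotient.mk (orbitRel Γ X) x) fun _ _ => Finset.mem_univ _]
  refine Finset.sum_eq_zero fun c _ => ?_
  induction c using Quotient.inductionOn with | h x => ?_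
  rw [← h x]
  exact Finset.sum_subtype _ (fun y => by simp [Quotient.eq, orbitRel_apply]) f

theorem perm_core (hΓ : IsPGroup p Γ) [Fintype X] (e : Matrix X X F) (he : e * e = e) (h0 : e ≠ 0)
    (hi : ∀ (γ : Γ) x y, e (γ • x) (γ • y) = e x y)
    (hb : ∀ x y, e x y ≠ 0 → Nat.card (stabilizer Γ (x, y)) * e.rank ≤ Nat.card Γ) :
    ∃ R : Subgroup Γ, Nat.card R * e.rank ≤ Nat.card Γ ∧ ∀ x y, e x y ≠ 0 →
      ∃ γ, ∀ q ∈ stabilizer Γ (x, y), γ⁻¹ * q * γ ∈ R := by
  classical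
  obtain ⟨_, ⟨v, rfl⟩, hu, hf⟩ := exists_fix hΓ (LinearMap.range e.mulVecLin) (by
    rintro γ _ ⟨v, rfl⟩
    refine ⟨fun x => v (γ • x), funext fun x => ?_⟩
    simp only [Matrix.mulVecLin_apply, Matrix.mulVec, dotProduct]
    rw [← Equiv.sum_comp (toPerm γ) fun y => e (γ • x) y * v y]
    exact Finset.sum_congr rfl fun y _ => by rw [toPerm_apply, hi]) fun h => h0 (by
      rw [LinearMap.range_eq_bot] at h
      exact Matrix.toLin'.injective (by rw [map_zero]; exact h))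
  have hu' : e.mulVec (e.mulVec (e.mulVecLin v)) = e.mulVecLin v := by
    simp only [Matrix.mulVecLin_apply, Matrix.mulVec_mulVec, he]
  generalize e.mulVecLin v = u at hu hf hu'
  obtain ⟨⟨y₀, z₀⟩, hyz, x₀, hx₀⟩ : ∃ w : X × X, e w.1 w.2 ≠ 0 ∧
      ∃ x, ∑ o : orbit Γ w, e x o.1.1 ≠ 0 := by
    by_contra! hc
    refine hu (hu'.symm.trans (funext fun x => ?_))
    simp only [Matrix.mulVec, dotProduct, Finset.mul_sum, Pi.zero_apply]
    rw [← Fintype.sum_prod_type']
    refine sum_orb (Γ := Γ) _ fun w _ => ?_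
    rw [Finset.sum_congr rfl (g := fun o => e x o.1.1 * (e w.1 w.2 * u w.2)), ← Finset.sum_mul]
    · by_cases h : e w.1 w.2 = 0
      · rw [h, zero_mul, mul_zero]
      · convert zero_mul _
        convert hc w h x
    · rintro ⟨_, γ, rfl⟩ -
      simp only [Prod.smul_fst, Prod.smul_snd, hi, hf]
  let A : Matrix X (orbit Γ (y₀, z₀)) F := fun x o => e x o.1.1
  have hA : ∀ (γ : Γ) c x, A.mulVec (fun o => c (γ • o)) x = A.mulVec c (γ • x) := fun γ c x => by
    simp only [Matrix.mulVec, dotProduct]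
    rw [← Equiv.sum_comp (toPerm γ) fun o => A (γ • x) o * c o]
    exact Finset.sum_congr rfl fun o _ => by rw [toPerm_apply]; exact congrArg (· * _) (hi γ x o.1.1).symm
  have hk : LinearMap.ker A.mulVecLin = ⊥ := by
    by_contra hk
    obtain ⟨c, hc, hc0, hcf⟩ := exists_fix hΓ _ (fun γ c hc => funext fun x =>
      (hA γ c x).trans (congrFun hc _)) hk
    obtain ⟨o, ho⟩ := Function.ne_iff.1 hc0
    have := congrFun hc x₀
    simp only [Matrix.mulVecLin_apply, Matrix.mulVec, dotProduct] at this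
    rw [Finset.sum_congr rfl (g := fun o' => A x₀ o' * c o) fun o' _ => by
      obtain ⟨γ, rfl⟩ := exists_smul_eq Γ o o'
      rw [hcf], ← Finset.sum_mul] at this
    exact mul_ne_zero hx₀ ho this
  have hr : LinearMap.range A.mulVecLin = LinearMap.range e.mulVecLin := by
    refine Submodule.eq_of_le_of_finrank_le ?_ ?_
    · rintro _ ⟨c, rfl⟩
      refine ⟨A.mulVec c, ?_⟩
      rw [Matrix.mulVecLin_apply, Matrix.mulVecLin_apply, Matrix.mulVec_mulVec]
      exact congrArg (Matrix.mulVec · c) (Matrix.ext fun x o => congrFun₂ he x o.1.1)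
    · rw [LinearMap.finrank_range_of_inj (LinearMap.ker_eq_bot.1 hk), finrank_fintype_fun_eq_card,
        ← Nat.card_eq_fintype_card]
      have := hb _ _ hyz
      rw [Nat.card_congr (orbitProdStabilizerEquivGroup Γ (y₀, z₀)).symm, Nat.card_prod, mul_comm] at this
      exact Nat.le_of_mul_le_mul_right this Nat.card_pos
  refine ⟨_, hb _ _ hyz, fun x y hxy => ?_⟩
  obtain ⟨c, hc⟩ := hr.ge ⟨Pi.single y 1, rfl⟩
  have hc' : ∀ x, A.mulVec c x = e x y := fun x => by simpa using congrFun hc x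
  have hq : ∀ (q : stabilizer Γ (x, y)) o, c (q • o) = c o := fun q => congrFun (LinearMap.ker_eq_bot.1 hk
    (funext fun x' => by
      rw [Matrix.mulVecLin_apply, Matrix.mulVecLin_apply]
      refine (hA q c x').trans ?_
      rw [hc', hc', ← hi q x' y, show (q : Γ) • y = y from congrArg Prod.snd q.2]))
  rw [← hc', Matrix.mulVec, dotProduct, sum_eq_sum_fixed (hΓ.to_subgroup (stabilizer Γ (x, y)))
    (p_smul (F := F)) _ fun q o => by
      rw [hq]
      refine congrArg (· * _) ?_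
      have := hi q x o.1.1
      rwa [show (q : Γ) • x = x from congrArg Prod.fst q.2] at this] at hxy
  obtain ⟨⟨_, γ, rfl⟩, ho, -⟩ := Finset.exists_ne_zero_of_sum_ne_zero hxy
  refine ⟨γ, fun q hq => ?_⟩
  rw [mem_stabilizer_iff, mul_smul, mul_smul, inv_smul_eq_iff]
  exact congrArg Subtype.val ((Finset.mem_filter.1 ho).2 ⟨q, hq⟩)

end perm

variable {G : Type*} [Group G] [Finite G]

theorem nil_of_rank {b : F[G]} (hb : b * b = b) (hi : Inv ⊤ b) {D : Subgroup G} (hD : IsDef p ⊤ b D)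
    (h : Nat.card D * finrank F (LinearMap.range (LinearMap.mulLeft F b)) =
      (p ^ (Nat.card G).factorization p) ^ 2) : Nil p ⊤ b := fun Q f hQ x hx hxp => by
  classical
  have := Fintype.ofFinite G
  obtain ⟨P, hP, hQP⟩ := hD.exists_ge hi le_top hQ.pQ hQ.br_ne_zero
  obtain ⟨S, hS⟩ := hP.isPGroup.exists_le_sylow
  let _ : MulAction (S × S) G :=
    { smul := fun γ g => γ.1 * g * (γ.2 : G)⁻¹
      one_smul := fun g => show ((1 : S) : G) * g * ((1 : S) : G)⁻¹ = g by simp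
      mul_smul := fun a c g => show ((a.1 * c.1 : S) : G) * g * ((a.2 * c.2 : S) : G)⁻¹ =
        a.1 * (c.1 * g * (c.2 : G)⁻¹) * (a.2 : G)⁻¹ by simp [mul_assoc] }
  have hs : ∀ (γ : S × S) (g : G), γ • g = γ.1 * g * (γ.2 : G)⁻¹ := fun _ _ => rfl
  have hst : ∀ (γ : S × S) (y z : G), γ ∈ stabilizer (S × S) (y, z) ↔
      γ.1 * y = y * γ.2 ∧ γ.1 * z = z * γ.2 := fun γ y z => by
    rw [mem_stabilizer_iff, Prod.ext_iff, Prod.smul_fst, Prod.smul_snd, hs, hs, mul_inv_eq_iff_eq_mul,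
      mul_inv_eq_iff_eq_mul]
  let e := LinearMap.toMatrix (MonoidAlgebra.basis G F) (MonoidAlgebra.basis G F) (LinearMap.mulLeft F b)
  have he : ∀ y z, e y z = b.coeff (y * z⁻¹) := fun y z => by
    refine (LinearMap.toMatrix_apply ..).trans ?_
    rw [MonoidAlgebra.basis_apply]
    exact (MonoidAlgebra.coeff_mul_single_apply ..).trans (mul_one _)
  have hr : Nat.card P * e.rank = Nat.card (S × S) := by
    rw [Matrix.rank_eq_finrank_range_toLin e (MonoidAlgebra.basis G F) (MonoidAlgebra.basis G F),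
      Matrix.toLin_toMatrix, ← hD.card_eq hP, h, Nat.card_prod, pow_two]
    exact congrArg₂ (· * ·) S.card_eq_multiplicity.symm S.card_eq_multiplicity.symm
  have hΓ : IsPGroup p (S × S) := IsPGroup.of_card (n := 2 * (Nat.card G).factorization p) (by
    rw [Nat.card_prod, two_mul, pow_add]
    exact congrArg₂ (· * ·) S.card_eq_multiplicity S.card_eq_multiplicity)
  obtain ⟨R, hR, hc⟩ := perm_core hΓ e (by rw [← LinearMap.toMatrix_mul, Module.End.mul_eq_comp, ← LinearMap.mulLeft_mul, hb])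
    (fun h0 => hD.br_ne (by
      rw [show b = 0 from ga_ext fun g => by simpa [he] using congrFun₂ h0 g 1, map_zero]))
    (fun γ y z => by
      rw [he, he, hs, hs, ← hi γ.1 trivial (y * z⁻¹)]
      congr 1
      group)
    fun y z hyz => by
      let φ : stabilizer (S × S) (y, z) →* G :=
        (S : Subgroup G).subtype.comp ((MonoidHom.fst _ _).comp (Subgroup.subtype _))
      have hφ : Function.Injective φ := fun a c hac => Subtype.ext (Prod.ext (Subtype.ext hac)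
        (Subtype.ext (mul_left_cancel (a := y) (by
          rw [← ((hst _ _ _).1 a.2).1, ← ((hst _ _ _).1 c.2).1]; exact congrArg (· * y) hac))))
      rw [← hr, Nat.card_congr (MonoidHom.ofInjective hφ).toEquiv]
      refine Nat.mul_le_mul_right _ (hP.card_le le_top (S.isPGroup'.to_le ?_) (br_ne_zero_iff.2
        ⟨y * z⁻¹, ?_, he y z ▸ hyz⟩))
      · rintro _ ⟨a, rfl⟩
        exact a.1.1.2
      · rintro _ ⟨a, rfl⟩
        obtain ⟨h1, h2⟩ := (hst _ _ _).1 a.2
        change (a.1.1 : G) * _ = _ * a.1.1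
        rw [← mul_assoc, h1, eq_mul_inv_of_mul_eq h2]
        group
  obtain ⟨z, hz, hz'⟩ := br_ne_zero_iff.1 hP.br_ne
  obtain ⟨γ, hγ⟩ := hc z 1 (by rwa [he, _root_.inv_one, mul_one])
  obtain ⟨δ, hδ⟩ := hc (z * x) x (by rwa [he, mul_inv_cancel_right])
  let ψ : P → R := fun u => ⟨_, hγ (⟨u, hS u.2⟩, ⟨u, hS u.2⟩) ((hst _ _ _).2 ⟨hz u u.2, by simp⟩)⟩
  have hψ : Function.Injective ψ := fun a c hac => Subtype.ext (congrArg (fun t : S × S => (t.1 : G))
    (mul_left_cancel (mul_right_cancel (congrArg Subtype.val hac))))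
  have hsur := (hψ.bijective_of_nat_card_le (Nat.le_of_mul_le_mul_right (hR.trans hr.ge)
    (Nat.pos_of_mul_pos_left (hr ▸ Nat.card_pos)))).2
  have hn : x ∈ Nor Q := hx.1.2
  refine mem_cen_of_conj_eq_pElt hxp S.isPGroup' (s := (δ.1 * γ.1⁻¹ * (δ.2 * γ.2⁻¹)⁻¹ : S)) (Subtype.prop _) hn
    fun u hu => ?_
  have hu' := (hn u).1 hu
  obtain ⟨v, hv⟩ := hsur ⟨_, hδ (⟨_, hS (hQP hu')⟩, ⟨u, hS (hQP hu)⟩) ((hst _ _ _).2 ⟨by
    rw [← mul_assoc, hz _ (hQP hu')]; group, by group⟩)⟩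
  have e1 : (γ.1 : G)⁻¹ * v * γ.1 = (δ.1 : G)⁻¹ * (x * u * x⁻¹) * δ.1 :=
    congrArg (fun t : R => (t.1.1 : G)) hv
  have e2 : (γ.2 : G)⁻¹ * v * γ.2 = (δ.2 : G)⁻¹ * u * δ.2 := congrArg (fun t : R => (t.1.2 : G)) hv
  push_cast
  calc _ = δ.1 * ((δ.1 : G)⁻¹ * (x * u * x⁻¹) * δ.1) * (δ.1 : G)⁻¹ := by group
    _ = δ.1 * (γ.1 : G)⁻¹ * γ.2 * ((γ.2 : G)⁻¹ * v * γ.2) * (γ.2 : G)⁻¹ * γ.1 * (δ.1 : G)⁻¹ := by
      rw [← e1]; group
    _ = _ := by rw [e2]; group

theorem finrank_eB [Fintype G] {M : Ideal AlgInt} [M.IsMaximal] (hM : IsPModular p M)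
    {B : Set (IrrCharacter G)} (hB : IsPBlock M B) :
    finrank (H35.F M) (LinearMap.range (LinearMap.mulLeft (H35.F M) (eB M B))) =
      ∑ χ ∈ bF B, charDegree (χ : G → ℂ) ^ 2 := by
  classical
  have h1 := H2.finrank_range_mul (fC_mul_self B) (one_mul (1 : ℂ[G]))
  rw [finrank_corner_eq hM (intC_fC hB) (fC_mul_self B) intC_one (one_mul _), redA_one, LinearMap.mulRight_one,
    ← Module.End.one_eq_id, mul_one, ← sum_bF_eq_sum_univ (B := B) fun χ hχ => by
      rw [← mul_one (fC B), ev_fC_mul, if_neg hχ, zero_mul]] at h1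
  replace h1 := h1.trans (Finset.sum_congr rfl
    (g := fun χ : IrrCharacter G => (charDegree (χ : G → ℂ) : ℂ) ^ 2) fun χ hχ => by
      rw [← mul_one (fC B), ev_fC_mul, if_pos (mem_bF.1 hχ), ev_one, ← coe_deg, pow_two])
  exact_mod_cast h1

end H34.MinDim
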