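import Cfsg.Agent.H34.PiKer
import Cfsg.Agent.H41.Subsec

/-!
# Feit V.4 in the vocabulary of the statements
-/

set_option autoImplicit false
set_option linter.unusedSectionVars false

open scoped MonoidAlgebra

namespace H34

open Cfsg H28 H35 H36 H39

variable {G : Type*} [Group G] [Finite G] {M : Ideal AlgInt} [M.IsMaximal] {p : ℕ} {π : Set ℕ}

theorem avg_opi_mul_iff (hM : IsPModular p M) (hπ : p ∈ π) {H : Subgroup G}
    {b : Set (IrrCharacter H)} (hb : IsPBlock M b) :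
    avg (F M) (Opi π H) * eS M H b = eS M H b ↔
      ∀ n : H, n ∈ piCore {q | q ∉ π} H → n ∈ blockKer b := by
  constructor
  · intro h n hn ξ hξ
    exact (avg_mul_eS_iff hM (opi_le H) (le_nor_opi H) (not_dvd_opi hM.1 hπ H) hb hξ).1 h n
      (mem_opi.2 hn)
  · intro h
    obtain ⟨ξ, hξ⟩ := block_nonempty hb
    exact (avg_mul_eS_iff hM (opi_le H) (le_nor_opi H) (not_dvd_opi hM.1 hπ H) hb hξ).2
      fun x hx => h x (mem_opi.1 hx) ξ hξ

theorem kerP_of_corr (hM : IsPModular p M) (hπ : p ∈ π) {B : Set (IrrCharacter G)}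
    {D : Subgroup G} (hD : IsDefectGroup p M B D) {B₁ : Set (IrrCharacter (Nor D))}
    (hB₁ : IsInducedBlock M (Nor D) B₁ B)
    (hker : ∀ n : Nor D, n ∈ piCore {q | q ∉ π} (Nor D) → n ∈ blockKer B₁) {Q : Subgroup G}
    {f : (F M)[G]} (hQ : BP p ⊤ ⊤ (eB M B) Q f) : KerP π Q f := by
  have : Fact p.Prime := ⟨hM.1⟩
  have := charP_F hM
  have h1 := (avg_opi_mul_iff hM hπ hB₁.1).2 hker
  rw [(isInducedBlock_normalizer_iff hM hB₁.2.1 hD hB₁.1).1 hB₁] at h1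
  exact kerP_of_bp hπ (blk_eB hB₁.2.1) ((isDefectGroup_iff hM hB₁.2.1).1 hD) h1 hQ

theorem ker_descends (hM : IsPModular p M) (hπ : p ∈ π) {B : Set (IrrCharacter G)}
    {D : Subgroup G} (hD : IsDefectGroup p M B D) {B₁ : Set (IrrCharacter (Nor D))}
    (hB₁ : IsInducedBlock M (Nor D) B₁ B)
    (hker : ∀ n : Nor D, n ∈ piCore {q | q ∉ π} (Nor D) → n ∈ blockKer B₁) {G₀ : Subgroup G}
    {B₀ : Set (IrrCharacter G₀)} (hB₀ : IsInducedBlock M G₀ B₀ B) {D₀ : Subgroup G₀}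
    (hD₀ : IsDefectGroup p M B₀ D₀) (hC : Cen (D₀.map G₀.subtype) ≤ G₀) :
    ∀ x : G₀, x ∈ piCore {q | q ∉ π} G₀ → x ∈ blockKer B₀ := by
  have : Fact p.Prime := ⟨hM.1⟩
  have := charP_F hM
  have hd := (isDefectGroup_iff_eS hM hB₀.1).1 hD₀
  obtain ⟨f, hf, hbf⟩ := exists_prim_cen_le hM hB₀.1 hd.isPGroup hd.le hC hd.br_ne
  obtain ⟨B', hB', hBf⟩ := exists_induced_of_centralizer_le hM hB₀.1 hd.isPGroup hd.le hC hf hbf
  rw [induced_unique hB' hB₀] at hBf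
  have hk := kerP_of_corr hM hπ hD hB₁ hker ⟨hd.isPGroup, le_top, blk_top_inf.2 hf, hBf⟩
  refine (avg_opi_mul_iff hM hπ hB₀.1).1 (avg_mul_of_br (blk_eS hB₀.1) (opi_le _) (le_nor_opi _)
    (not_dvd_opi hM.1 hπ _) hd.isPGroup (hd.le.trans (le_nor_opi _))
    ((blk_eS hB₀.1).inv.mono hd.le) hbf hf.ne_zero ?_)
  exact avg_mul_of_le (opi_inf_le hC) (natCast_ne_zero_of_not_dvd fun h =>
    not_dvd_opi hM.1 hπ _ (h.trans (Subgroup.card_dvd_of_le inf_le_left))) hk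

theorem ker_ascends (hM : IsPModular p M) (hπ : p ∈ π) {B : Set (IrrCharacter G)}
    {D : Subgroup G} (hD : IsDefectGroup p M B D) {B₁ : Set (IrrCharacter (Nor D))}
    (hB₁ : IsInducedBlock M (Nor D) B₁ B) {D₀ : Subgroup G} (hD₀ : IsPGroup p D₀)
    {b : Set (IrrCharacter ↥(D₀ ⊔ Cen D₀))} (hb : IsInducedBlock M _ b B)
    (hH : NHall π (Cen D₀))
    (hk : ∀ θ ∈ b, ∀ h : ↥(D₀ ⊔ Cen D₀), (h : G) ∈ Opi π (Cen D₀) → θ.1 h = θ.1 1) :
    ∀ n : Nor D, n ∈ piCore {q | q ∉ π} (Nor D) → n ∈ blockKer B₁ := by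
  have : Fact p.Prime := ⟨hM.1⟩
  have := charP_F hM
  have hbr := (isInducedBlock_iff_br hM hD₀ le_sup_left le_sup_right (sup_cen_le_nor _) hb.1
    hb.2.1).1 hb
  have hblk := (isPrim_sup_cen_iff' hD₀).1 (isPrim_eS hb.1)
  obtain ⟨θ, hθ⟩ := block_nonempty hb.1
  have hf : KerP π D₀ (eS M _ b) :=
    (avg_mul_eS_iff hM ((opi_le _).trans le_sup_right) ((sup_cen_le_nor _).trans
      ((nor_le_nor_cen _).trans (nor_le_nor_opi _))) (not_dvd_opi hM.1 hπ _) hb.1 hθ).2 (hk θ hθ)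
  obtain ⟨e, he0, he, hav⟩ := avg_mul_br_of_bp hπ (blk_eB hb.2.1)
    ((isDefectGroup_iff hM hb.2.1).1 hD) ⟨hD₀, le_top, hblk, hbr⟩ hH hf
  rw [← (isInducedBlock_normalizer_iff hM hB₁.2.1 hD hB₁.1).1 hB₁] at he
  refine (avg_opi_mul_iff hM hπ hB₁.1).1 ((blk_eS hB₁.1).mul_eq_of_ne_zero
    (avg_mem_Fx (opi_le _) (le_nor_opi _))
    (avg_mul_avg le_rfl (natCast_ne_zero_of_not_dvd (not_dvd_opi hM.1 hπ _))) fun h0 => he0 ?_)
  rw [← hav, ← he, ← mul_assoc, h0, zero_mul]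

theorem apply_mul_eq_of_corr (hM : IsPModular p M) (hπ : p ∈ π) {B : Set (IrrCharacter G)}
    {D : Subgroup G} (hD : IsDefectGroup p M B D) {B₁ : Set (IrrCharacter (Nor D))}
    (hB₁ : IsInducedBlock M (Nor D) B₁ B)
    (hker : ∀ n : Nor D, n ∈ piCore {q | q ∉ π} (Nor D) → n ∈ blockKer B₁) {y : G}
    (hy : ∃ k : ℕ, orderOf y = p ^ k) {χ : IrrCharacter G} (hχ : χ ∈ B) {x : G}
    (hx : x ∈ Opi π (Cen (Subgroup.zpowers y))) : χ.1 (y * x) = χ.1 y := by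
  classical
  have : Fact p.Prime := ⟨hM.1⟩
  have := charP_F hM
  have hs := H41.isSec_centralizer_zpowers hy
  let _inst := Fintype.ofFinite (Cen (Subgroup.zpowers y))
  have hI := intC_fC hB₁.2.1
  have h1 := hs.apply_eq_blockPart hM hI hχ (y := ⟨x, opi_le _ hx⟩) (fun h =>
    orderOf_of_mem_opi hx hM.1 (by rwa [Subgroup.orderOf_mk] at h) hπ)
  have h2 := hs.apply_eq_blockPart hM hI hχ (y := 1) (by
    rw [orderOf_one, Nat.dvd_one]; exact hM.1.ne_one)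
  simp only [OneMemClass.coe_one, mul_one] at h2
  refine h1.trans (Eq.trans ?_ h2.symm)
  rw [H41.blockPart_apply, H41.blockPart_apply]
  refine Finset.sum_congr rfl fun ξ _ => ?_
  split_ifs with hξ
  · congr 1
    have hb := isPBlock_blockOf (M := M) ξ
    have hind := (hs.isInducedBlock_iff hM).2 ⟨hb, hB₁.2.1, H41.blockOf_subset_locSet hξ⟩
    have hbp := ((bp_iff hM).1 ((isInducedBlock_cen_iff hM hs.isPGroup).1 hind)).2.2
    exact (avg_opi_mul_iff hM hπ hb).1 (kerP_of_corr hM hπ hD hB₁ hker hbp) _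
      (mem_opi.1 hx) ξ (self_mem_blockOf ξ)
  · rfl

end H34
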