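import Cfsg.Agent.H34.TLPpd
import Cfsg.Agent.H5.FrobBasic

/-! Coprime transitive linear groups: the spaces with `3 ^ 6` and `5 ^ 6` elements. -/

set_option autoImplicit false

namespace H34.TL

open Cfsg H28 H90 Module Subgroup MulAction
open scoped IsMulCommutative Pointwise

universe u

/-- Every subgroup whose order is divisible by `l` exactly once has a normal Sylow subgroup. -/
def NS (G : Type u) [Group G] (l : ℕ) : Prop :=
  ∀ (H : Type u) [Group H] (j : H →* G), Function.Injective j → l ∣ Nat.card H →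
    ¬ l ^ 2 ∣ Nat.card H → ∃ N : Sylow l H, (N : Subgroup H).Normal ∧ Nat.card N = l

section grp

variable {G : Type u} [Group G] [Finite G] {l : ℕ} [hl : Fact l.Prime]

theorem NS.normal_of_central (h : NS G l) (h3 : ¬ l ^ 3 ∣ Nat.card G) {P : Subgroup G}
    (hP : Nat.card P = l ^ 2) (hc : ¬ IsCyclic P) {z : G} (hz : z ∈ P) (z1 : z ≠ 1)
    (hzc : z ∈ center G) : P.Normal := by
  have := IsPGroup.isMulCommutative_of_card_eq_prime_sq hP
  have hp : IsPGroup l P := IsPGroup.of_card hP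
  obtain ⟨φ, hφ⟩ := CommGroup.exists_apply_ne_one_of_hasEnoughRootsOfUnity P ℂ
    (a := ⟨z, hz⟩) fun e => z1 (congrArg Subtype.val e)
  let τ := MonoidHom.transfer φ
  have hi : ¬ l ∣ P.index := fun e => h3 (by
    rw [← P.card_mul_index, hP, pow_succ l 2]
    exact Nat.mul_dvd_mul_left _ e)
  obtain ⟨i, hi1⟩ := IsPGroup.iff_orderOf.1 hp ⟨z, hz⟩
  have h1 : τ z ≠ 1 := fun e => by
    rw [MonoidHom.transfer_eq_pow φ z fun k g _ => by
      rw [mul_assoc, ← mem_center_iff.1 ((center G).pow_mem hzc k), inv_mul_cancel_left]] at e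
    have e' : φ ⟨z, hz⟩ ^ P.index = 1 := (map_pow φ _ _).symm.trans e
    exact hφ (orderOf_eq_one_iff.1 (Nat.eq_one_of_dvd_coprimes
      (((Nat.Prime.coprime_iff_not_dvd hl.out).2 hi).pow_left i)
      (hi1 ▸ orderOf_map_dvd φ _) (orderOf_dvd_of_pow_eq_one e')))
  have h2 : l ∣ τ.ker.index := by
    obtain ⟨j, -, hj⟩ := (Nat.dvd_prime_pow hl.out).1
      ((orderOf_map_dvd τ z).trans (hi1 ▸ (orderOf_mk z hz).symm.dvd))
    rw [index_ker]
    refine Dvd.dvd.trans ?_ (τ.range.orderOf_dvd_natCard ⟨z, rfl⟩)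
    rw [hj]
    exact dvd_pow_self _ fun e => h1 (orderOf_eq_one_iff.1 (by rw [hj, e, pow_zero]))
  obtain ⟨⟨t, ht⟩, ht1, ht2⟩ : ∃ t : P, τ t = 1 ∧ t ≠ 1 := by
    by_contra! e
    exact hc (isCyclic_of_injective_ringHom ((Units.coeHom ℂ).comp (τ.comp P.subtype))
      (Units.val_injective.comp ((injective_iff_map_eq_one _).2 e)))
  obtain ⟨s, hs⟩ := exists_pow_order hl.out hp ht fun e => ht2 (Subtype.ext e)
  have ht3 : t ^ s ∈ τ.ker := τ.ker.zpow_mem ht1 s
  obtain ⟨T, hT, hT1⟩ := h τ.ker τ.ker.subtype Subtype.val_injective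
    (hs ▸ τ.ker.orderOf_dvd_natCard ht3) fun e => h3 (by
      rw [← τ.ker.card_mul_index, pow_succ l 2]
      exact Nat.mul_dvd_mul e h2)
  have := T.characteristic_of_normal hT
  have h4 : zpowers (t ^ s) = (T : Subgroup τ.ker).map τ.ker.subtype := by
    refine eq_of_le_of_card_ge (zpowers_le.2 ⟨⟨_, ht3⟩, ?_, rfl⟩) ?_
    · obtain ⟨Q, hQ⟩ := (IsPGroup.of_card (n := 1) (G := zpowers (⟨_, ht3⟩ : τ.ker)) (by
        rw [Nat.card_zpowers, orderOf_mk, hs, pow_one])).exists_le_sylow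
      have := T.unique_of_normal hT
      exact Subsingleton.elim Q T ▸ hQ (mem_zpowers _)
    · rw [card_map_of_injective τ.ker.subtype_injective, hT1, Nat.card_zpowers, hs]
  have h5 : zpowers (t ^ s) ≤ P := zpowers_le.2 (P.zpow_mem ht s)
  refine ⟨fun x hx g => ?_⟩
  let M := P ⊓ P.comap (MulAut.conj g).toMonoidHom
  have h6 : zpowers (t ^ s) ≤ M := le_inf h5 fun y hy => h5 (by
    rw [h4] at hy ⊢
    exact Normal.conj_mem inferInstance y hy g)
  have h7 : z ∈ M := ⟨hz, by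
    change g * z * g⁻¹ ∈ P
    rwa [mem_center_iff.1 hzc, mul_inv_cancel_right]⟩
  obtain ⟨j, hj, hM⟩ := (Nat.dvd_prime_pow hl.out).1
    (hP ▸ card_dvd_of_le (show M ≤ P from inf_le_left))
  have h8 : j = 2 := by
    by_contra h8
    have h9 := eq_of_le_of_card_ge h6 (by
      rw [hM, Nat.card_zpowers, hs]
      exact (Nat.pow_le_pow_right hl.out.pos (by omega)).trans (pow_one l).le)
    rw [← h9] at h7
    exact h1 (zpowers_le.2 ht3 h7)
  have h9 := eq_of_le_of_card_ge (show M ≤ P from inf_le_left) (by rw [hM, hP, h8])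
  exact (h9.ge hx).2

theorem NS.sylow_eq (h : NS G l) (h3 : ¬ l ^ 3 ∣ Nat.card G) {P Q : Sylow l G}
    (hP : Nat.card P = l ^ 2) (hc : ¬ IsCyclic P) {z : G} (hz : z ∈ P) (hz' : z ∈ Q) (z1 : z ≠ 1) :
    Q = P := by
  have hQ : Nat.card Q = l ^ 2 := by rw [← hP, P.card_eq_multiplicity, Q.card_eq_multiplicity]
  have cm : ∀ {R : Sylow l G}, Nat.card R = l ^ 2 → z ∈ R → (R : Subgroup G) ≤ centralizer {z} :=
    fun hR hz x hx => by
      have := IsPGroup.isMulCommutative_of_card_eq_prime_sq hR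
      exact mem_centralizer_singleton_iff.2 (setLike_mul_comm hx hz)
  have e := subgroupOfEquivOfLe (cm hP hz)
  have h1 : ((P : Subgroup G).subgroupOf (centralizer {z})).Normal :=
    NS.normal_of_central (fun H _ j hj => h H ((centralizer {z}).subtype.comp j)
      (Subtype.val_injective.comp hj)) (fun e => h3 (e.trans (card_subgroup_dvd_card _)))
      ((Nat.card_congr e.toEquiv).trans hP) (fun _ => hc (isCyclic_of_surjective e e.surjective))
      (z := ⟨z, cm hP hz hz⟩) hz (fun e => z1 (congrArg Subtype.val e))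
      (mem_center_iff.2 fun g => Subtype.ext (mem_centralizer_singleton_iff.1 g.2))
  have h2 := (cm hQ hz').trans ((normal_subgroupOf_iff_le_normalizer (cm hP hz)).1 h1)
  have h4 := (inf_eq_left.2 h2).symm.trans (Q.isPGroup'.inf_normalizer_sylow P)
  exact Sylow.ext (Q.3 P.isPGroup' (h4.le.trans inf_le_right)).symm

end grp

variable {G : Type u} {V : Type*} [Group G] [AddCommGroup V] [DistribMulAction G V]
  [Finite V] [Finite G] [FaithfulSMul G V]

namespace Ctx

variable {p n l : ℕ} (h : Ctx G V p n)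
include h

omit [Finite G] in
theorem fix_card (hl : l.Prime) {Q : Subgroup G} (hQ : IsPGroup l Q) (h1 : Q ≠ ⊥) :
    ∃ i < n, Nat.card (FixedPoints.addSubgroup Q V) = p ^ i ∧ l ∣ p ^ (n - i) - 1 := by
  have := Fact.mk hl
  obtain ⟨i, hi, hF⟩ := (Nat.dvd_prime_pow h.prime).1
    (h.card ▸ (FixedPoints.addSubgroup Q V).card_addSubgroup_dvd_card)
  refine ⟨i, lt_of_le_of_ne hi ?_, hF, ?_⟩
  · rintro rfl
    have h2 := AddSubgroup.eq_top_of_card_eq _ (hF.trans h.card.symm)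
    refine h1 (eq_bot_iff.2 fun g hg => eq_of_smul_eq_smul (α := V) fun w => ?_)
    rw [one_smul]
    exact (show w ∈ FixedPoints.addSubgroup Q V from h2 ▸ AddSubgroup.mem_top w) ⟨g, hg⟩
  · have h2 := hQ.card_modEq_card_fixedPoints V
    change _ ≡ Nat.card (FixedPoints.addSubgroup Q V) [MOD l] at h2
    obtain ⟨j, rfl⟩ := Nat.exists_eq_add_of_le hi
    rw [hF, h.card] at h2
    have h3 := (Nat.modEq_iff_dvd' (Nat.pow_le_pow_right h.prime.pos hi)).1 h2.symm
    rw [pow_add, ← Nat.mul_pred, hl.dvd_mul] at h3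
    rw [Nat.add_sub_cancel_left]
    refine h3.resolve_left fun h4 => h.cop ?_
    rw [← (Nat.prime_dvd_prime_iff_eq hl h.prime).1 (hl.dvd_of_dvd_pow h4)]
    exact ((hQ.card_eq_or_dvd).resolve_left fun e => h1 (card_eq_one.1 e)).trans
      Q.card_subgroup_dvd_card

omit [Finite G] [FaithfulSMul G V] in
theorem free_dvd (Q : Subgroup G) (W : AddSubgroup V) (h1 : ∀ g ∈ Q, ∀ w, g • w ∈ W → w ∈ W)
    (h2 : ∀ g ∈ Q, g ≠ 1 → ∀ w, g • w = w → w ∈ W) : Nat.card Q ∣ p ^ n - Nat.card W := by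
  have := H11.card_dvd_ncard_of_free (H := Q) ((W : Set V)ᶜ)
    (fun g w hw e => hw (h1 g g.2 w e)) fun g w hw e => Subtype.ext (by
      by_contra h3
      exact hw (h2 g g.2 h3 w e))
  rwa [Set.ncard_compl, h.card, ← Nat.card_coe_set_eq] at this

omit h in
theorem six (h : Ctx G V p 6) (hp : p = 3 ∧ l = 13 ∨ p = 5 ∧ l = 31) {v : V} (hv : v ≠ 0) :
    Good G v := by
  have hl : l.Prime := by rcases hp with ⟨-, rfl⟩ | ⟨-, rfl⟩ <;> norm_num
  have := Fact.mk hl
  have : Fact (Nat.Prime 7) := ⟨by norm_num⟩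
  have := h.nontrivial
  have n1 : ∀ j, 0 < j → j < 6 → l ∣ p ^ j - 1 → j = 3 := fun j h1 h2 h3 => by
    rcases hp with ⟨rfl, rfl⟩ | ⟨rfl, rfl⟩ <;> interval_cases j <;> omega
  have n2 : l ∣ p ^ 6 - 1 ∧ ¬ l ^ 2 ∣ p ^ 6 - 1 ∧ ¬ l ^ 2 ∣ p ^ 6 - p ^ 3 ∧ ¬ 7 ^ 2 ∣ p ^ 6 - 1 ∧
      ¬ l ^ 2 ∣ p ^ 3 - 1 := by
    rcases hp with ⟨rfl, rfl⟩ | ⟨rfl, rfl⟩ <;> norm_num
  have n3 : Ppd p 6 7 := ⟨by norm_num, by rcases hp with ⟨rfl, -⟩ | ⟨rfl, -⟩ <;> norm_num,
    fun j h1 h2 h3 => by rcases hp with ⟨rfl, -⟩ | ⟨rfl, -⟩ <;> interval_cases j <;> omega⟩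
  have n4 : ∀ m, m ∣ p ^ 6 - 1 → m ≡ 1 [MOD l ^ 2] → m = 1 := fun m h1 h2 => by
    have h3 := Nat.le_of_dvd (by have := h.one_lt; omega) h1
    have h4 := Nat.div_add_mod m (l ^ 2)
    rw [h2, Nat.mod_eq_of_lt (Nat.one_lt_pow two_ne_zero hl.one_lt)] at h4
    generalize m / l ^ 2 = c at h4
    subst h4
    have : c ≤ 16 := by rcases hp with ⟨rfl, rfl⟩ | ⟨rfl, rfl⟩ <;> omega
    rcases hp with ⟨rfl, rfl⟩ | ⟨rfl, rfl⟩ <;> interval_cases c <;> omega
  have ns : NS G l := fun H _ j hj h1 h2 => by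
    obtain ⟨ψ, k, d, h3, h4, h5, h6, h7, -⟩ := h.char
    have := Finite.of_injective j hj
    have h8 : charDegree (fun x => ψ (j x)) ≤ 6 := by
      have : charDegree (fun x => ψ (j x)) = charDegree ψ := by simp only [charDegree, map_one]
      nlinarith
    refine (small (by omega) h1 h2 (h3.isCharacter.comp j) (charKer_eq_bot_of_forall fun g hg =>
      hj ((map_one j).symm ▸ mem_bot.1 (h4 ▸ h3.isCharacter.mem_charKer.2 (by simpa using hg))))
      (by omega)).resolve_right fun ⟨h9, h10⟩ => h.cop ?_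
    refine Dvd.dvd.trans ?_ ((index_dvd_card (center H)).trans (card_dvd_of_injective j hj))
    rcases hp with ⟨rfl, rfl⟩ | ⟨rfl, rfl⟩ <;> omega
  have key : ∀ (B : Subgroup G) [B.Normal] [IsMulCommutative B], l ∣ Nat.card B →
      Good G v ∨ ∃ (A : Subgroup G) (E : Type) (_ : Field E) (_ : Fintype E) (_ : Module E V)
      (_ : FD V A E), A.Normal ∧ finrank E V = 2 ∧ Nat.card E = p ^ 3 ∧ CharP E p ∧
        Nat.card B ∣ p ^ 3 - 1 := fun B _ _ hB => (h.cases B hv).imp_right (by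
    rintro ⟨A, E, _, _, _, D, k, -, h1, h2, h3, h4, h5, h6, h7⟩
    obtain rfl := n1 k h3 (by nlinarith) (hB.trans h7)
    exact ⟨A, E, inferInstance, inferInstance, inferInstance, D, h1.normal, by omega, h4, h6, h7⟩)
  by_cases hs : l ^ 2 ∣ Nat.card G
  swap
  · obtain ⟨N, _, hN⟩ := ns G (MonoidHom.id G) Function.injective_id (n2.1.trans h.dvd_card) hs
    have := isCyclic_of_prime_card hN
    refine (key N hN.symm.dvd).elim id ?_
    rintro ⟨A, E, _, _, _, D, _, h1, h2, _, -⟩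
    obtain ⟨x, hx⟩ := exists_prime_orderOf_dvd_card' 7 (n3.dvd.trans h.dvd_card)
    have h3 := D.mem_centralizer_of_coprime h.prime h2 (g := x) (by rw [hx]; norm_num)
    obtain ⟨ψ, h4, h5, h6⟩ := exists_char D h.prime h.cop (centralizer (A : Set G)).subtype
      Subtype.val_injective (fun x => x.2) fun W hW => n3.irreducible h.prime h.card hx W
        fun s hs => hW ⟨s, zpowers_le.2 h3 hs⟩
    obtain ⟨R, hR, hR1⟩ := (small (l := 7) (by norm_num) (hx ▸ orderOf_dvd_natCard _ h3)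
      (fun e => h.not_sq n3 n2.2.2.2.1 (e.trans (card_subgroup_dvd_card _))) h4.isCharacter h5
      (by omega)).resolve_right (by omega)
    have := R.characteristic_of_normal hR
    have h7 : Nat.card ((R : Subgroup _).map (centralizer (A : Set G)).subtype) = 7 := by
      rw [card_map_of_injective Subtype.val_injective, hR1]
    have := isCyclic_of_prime_card h7
    exact h.good_of_ppd n3 _ h7.symm.dvd hv
  have fx : ∀ {Q : Subgroup G}, IsPGroup l Q → Q ≠ ⊥ →
      Nat.card (FixedPoints.addSubgroup Q V) = 1 ∨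
        Nat.card (FixedPoints.addSubgroup Q V) = p ^ 3 := fun hQ h1 => by
    obtain ⟨i, h2, h3, h4⟩ := h.fix_card hl hQ h1
    rcases Nat.eq_zero_or_pos i with rfl | h5
    · exact .inl h3
    · have := n1 _ (by omega) (by omega) h4
      exact .inr (by rw [h3, show i = 3 by omega])
  have b1 : ¬ l ^ 2 ∣ Nat.card (stabilizer G v) := fun e => by
    obtain ⟨R, hR⟩ := Sylow.exists_subgroup_card_pow_prime l e
    have hQ := (IsPGroup.of_card hR).map (stabilizer G v).subtype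
    have hc : Nat.card (R.map (stabilizer G v).subtype) = l ^ 2 := by
      rw [card_map_of_injective Subtype.val_injective, hR]
    set Q := R.map (stabilizer G v).subtype
    have h1 : ∀ {T : Subgroup G}, T ≤ Q → T ≠ ⊥ →
        Nat.card (FixedPoints.addSubgroup T V) = p ^ 3 := fun hT h1 =>
      (fx (hQ.to_le hT) h1).resolve_left fun e => hv (AddSubgroup.mem_bot.1
        (AddSubgroup.card_eq_one.1 e ▸ fun g => map_subtype_le R (hT g.2)))
    have h2 := h1 le_rfl fun e => by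
      rw [e, card_bot] at hc
      exact (Nat.one_lt_pow two_ne_zero hl.one_lt).ne hc
    refine n2.2.2.1 (hc ▸ h2 ▸ h.free_dvd Q _ (fun g hg w hw => ?_) fun g hg g1 w hw => ?_)
    · have : w = g • w := by
        conv_lhs => rw [← inv_smul_smul g w]
        exact hw ⟨g⁻¹, Q.inv_mem hg⟩
      exact this ▸ hw
    · refine (AddSubgroup.eq_of_le_of_card_ge (H := FixedPoints.addSubgroup Q V)
        (K := FixedPoints.addSubgroup (zpowers g) V) (fun u hu y => hu ⟨y, zpowers_le.2 hg y.2⟩)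
        (by rw [h2, h1 (zpowers_le.2 hg) (zpowers_ne_bot.2 g1)])).ge ?_
      rintro ⟨_, s, rfl⟩
      exact (stabilizer G w).zpow_mem hw s
  have b2 : ¬ l ^ 3 ∣ Nat.card G := fun e => by
    obtain ⟨c, hc⟩ := n2.1
    rw [h.card_eq hv, hc, pow_succ', mul_assoc] at e
    refine b1 (Nat.Coprime.dvd_of_dvd_mul_left (Nat.Coprime.pow_left _
      ((Nat.Prime.coprime_iff_not_dvd hl).2 fun e => n2.2.1 ?_))
      (Nat.dvd_of_mul_dvd_mul_left hl.pos e))
    rw [hc, sq]
    exact Nat.mul_dvd_mul_left _ e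
  have b3 : l ∣ Nat.card (stabilizer G v) := by
    by_contra e
    rw [h.card_eq hv] at hs
    exact n2.2.1 ((((Nat.Prime.coprime_iff_not_dvd hl).2 e).pow_left 2).dvd_of_dvd_mul_right hs)
  obtain ⟨Q, hQ, hQ1⟩ := ns _ (stabilizer G v).subtype Subtype.val_injective b3 b1
  obtain ⟨P, hP⟩ := (Q.isPGroup'.map (stabilizer G v).subtype).exists_le_sylow
  have b4 : Nat.card P = l ^ 2 := by
    obtain ⟨j, hj⟩ := P.isPGroup'.exists_card_eq
    have h1 := P.pow_dvd_card_of_pow_dvd_card hs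
    rw [hj] at h1 ⊢
    have h2 := (Nat.pow_dvd_pow_iff_le_right hl.one_lt).1 h1
    have h3 : ¬ 3 ≤ j := fun e =>
      b2 ((pow_dvd_pow l e).trans (hj ▸ (P : Subgroup G).card_subgroup_dvd_card))
    rw [show j = 2 by omega]
  have b5 : ¬ IsCyclic P := fun ⟨⟨y, hy⟩, hy1⟩ => by
    have h1 : orderOf y = l ^ 2 := by
      rw [← orderOf_mk y hy, orderOf_eq_card_of_forall_mem_zpowers hy1, b4]
    have h2 : ∀ g ∈ (P : Subgroup G), ∃ s : ℤ, g = y ^ s := fun g hg => by
      obtain ⟨s, hs⟩ := hy1 ⟨g, hg⟩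
      exact ⟨s, (congrArg Subtype.val hs).symm⟩
    have h3 : orderOf (y ^ l) = l := by
      rw [orderOf_pow_of_dvd hl.ne_zero (h1 ▸ dvd_pow_self l two_ne_zero), h1, sq,
        Nat.mul_div_cancel _ hl.pos]
    have h4 := h.free_dvd P (FixedPoints.addSubgroup (zpowers (y ^ l)) V) (fun g hg w hw => by
      obtain ⟨s, rfl⟩ := h2 g hg
      rintro ⟨_, t, rfl⟩
      have h5 : (y ^ l) ^ t • y ^ s • w = y ^ s • w := hw ⟨_, t, rfl⟩
      rw [← mul_smul, (((Commute.refl y).pow_left l).zpow_zpow t s).eq, mul_smul] at h5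
      exact MulAction.injective _ h5) fun g hg g1 w hw => by
        obtain ⟨t, ht⟩ := exists_pow_order hl P.isPGroup' hg g1
        obtain ⟨s, hs⟩ := h2 _ ((P : Subgroup G).zpow_mem hg t)
        have h5 : ((l ^ 2 : ℕ) : ℤ) ∣ s * l := by
          rw [← h1, orderOf_dvd_iff_zpow_eq_one, zpow_mul, ← hs, zpow_natCast, ← ht,
            pow_orderOf_eq_one]
        rw [sq, Nat.cast_mul] at h5
        obtain ⟨r, rfl⟩ := Int.dvd_of_mul_dvd_mul_right (Nat.cast_ne_zero.2 hl.ne_zero) h5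
        have h6 : y ^ l • w = w := by
          by_contra h6
          have := eq_one_of_mem_zpowers_prime (h3.symm ▸ hl) (h := g ^ t)
            ⟨r, by rw [hs, zpow_mul, zpow_natCast]⟩ ((stabilizer G w).zpow_mem hw t) h6
          rw [this, orderOf_one] at ht
          exact hl.one_lt.ne ht
        rintro ⟨_, t, rfl⟩
        exact (stabilizer G w).zpow_mem h6 t
    rw [b4] at h4
    rcases fx (Q := zpowers (y ^ l)) (IsPGroup.of_card (n := 1) (by
      rw [Nat.card_zpowers, h3, pow_one])) (zpowers_ne_bot.2 fun e => by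
        rw [e, orderOf_one] at h3
        exact hl.one_lt.ne h3) with h5 | h5
    · exact n2.2.1 (h5 ▸ h4)
    · exact n2.2.2.1 (h5 ▸ h4)
  have : Nontrivial Q := Finite.one_lt_card_iff_nontrivial.1 (by rw [hQ1]; exact hl.one_lt)
  obtain ⟨⟨z, hz⟩, hz1⟩ := exists_ne (1 : Q)
  have b6 : stabilizer G v ≤ normalizer (P : Set G) := fun g hg => by
    refine Sylow.smul_eq_iff_mem_normalizer.1 (ns.sylow_eq b2 b4 b5
      (z := g * z * g⁻¹) (hP ⟨_, hQ.conj_mem z hz ⟨g, hg⟩, rfl⟩) ?_ fun e => hz1 ?_)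
    · exact smul_mem_pointwise_smul _ (MulAut.conj g) _ (hP ⟨z, hz, rfl⟩)
    · exact Subtype.ext (Subtype.ext (by simpa using e))
  have b7 := H5.card_modEq_one_of_semiregular (A := P) P
    (fun a => Sylow.smul_eq_iff_mem_normalizer.2 (le_normalizer a.2)) fun a R h1 h2 => by
      by_contra h3
      have h4 := P.isPGroup'.inf_normalizer_sylow R
      exact h2 (ns.sylow_eq b2 b4 b5 a.2 (h4.le ⟨a.2, Sylow.smul_eq_iff_mem_normalizer.1 h1⟩).2
        fun e => h3 (Subtype.ext e))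
  rw [P.card_eq_index_normalizer, b4] at b7
  have : (P : Subgroup G).Normal := normalizer_eq_top_iff.1 (index_eq_one.1
    (n4 _ (h.index_stab hv ▸ index_dvd_of_le b6) b7))
  have := IsPGroup.isMulCommutative_of_card_eq_prime_sq b4
  refine (key P (b4 ▸ dvd_pow_self l two_ne_zero)).resolve_right ?_
  rintro ⟨A, E, _, _, _, D, -, -, -, -, h1⟩
  exact n2.2.2.2.2 (b4 ▸ h1)

end Ctx

end H34.TL
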